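import Cfsg.Agent.Lib.Fis.Geo

set_option autoImplicit false

/-! # Fischer's theorem: transitivity on `S₄`-configurations and counting -/

namespace Cfsg.Agent.Fis

open Subgroup Cfsg.Agent.Lib.Fischer Cfsg.Agent.Lib.Invol Finset

variable {G : Type*} [Group G]

theorem a3_step {D : Set G} (h : TS D) {x c u u' : G} (hx : x ∈ D) (hc : c ∈ D) (hu : u ∈ D)
    (hu' : u' ∈ D) (hxc : ¬ Commute x c) (h1 : Commute x u) (h2 : Commute x u')
    (h3 : ¬ Commute c u) (h4 : ¬ Commute c u') (h5 : ¬ Commute u u') :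
    ∃ g, Commute g x ∧ Commute g c ∧ cj g u = u' := by
  have hD := h.set
  have ht := h.cjm u hu u' hu'
  have hxt : Commute x (cj u u') := commute_cj_of h1 h2
  by_cases h6 : Commute c (cj u u')
  · exact ⟨_, hxt.symm, h6.symm, cj_cj_left hD hu hu' h5⟩
  have key : ∀ p q : G, p ∈ D → q ∈ D → ¬ Commute c p → ¬ Commute c q →
      cj (u * u') (cj p c) = cj q c → cj (cj c (u * u')) p = q := fun p q hp hq k1 k2 k3 => by
    conv_lhs => rw [← cj_cj hD hc p]
    rw [cj_cj_cj, cj_comm hD hc hp k1, k3, ← cj_comm hD hc hq k2, cj_cj hD hc]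
  have e1 : cj (cj c (u * u')) u = cj u u' := key _ _ hu ht h3 h6 (by
    conv_rhs => rw [← cj_cj hD hu c]
    rw [cj_cj_cj, cj_mul])
  have e2 : cj (cj c (u * u')) (cj u u') = u' := key _ _ ht hu' h6 h4 (by
    rw [cj_comm hD hu hu' h5]
    conv_lhs => rw [← cj_cj hD hu' c]
    rw [cj_cj_cj, cj_mul, cj_cj hD hu', cj_cj hD hu])
  have e3 : cj (cj c (u * u')) u' = u := key _ _ hu' hu h4 h3 (by rw [cj_mul, cj_cj hD hu'])
  have f1 : cj (u * u') u = u' := by
    rw [cj_mul, ← cj_comm hD hu hu' h5, cj_cj hD hu]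
  have f2 : cj (u * u') u' = cj u u' := by rw [cj_mul, cj_self]
  have xd : cj x (u * u') = u * u' := cj_of_commute (h1.mul_right h2)
  generalize hd : u * u' = d at *
  have c12 : Commute (cj c d) d := by
    have k1 : Commute (cj c d * d) u := cj_eq_self_iff.mp (by rw [cj_mul, f1, e3])
    have k2 : Commute (cj c d * d) u' := cj_eq_self_iff.mp (by rw [cj_mul, f2, e2])
    have k3 : Commute (cj c d * d) d := hd ▸ k1.mul_right k2
    have := k3.mul_left (Commute.refl d).inv_left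
    rwa [mul_inv_cancel_right] at this
  have c3 : cj c (cj x (cj c d)) = cj x (cj c d) := by
    calc cj c (cj x (cj c d)) = cj (cj c x) d := by
          conv_rhs => rw [← cj_cj hD hc d]
          rw [cj_cj_cj]
      _ = cj x (cj c d) := by
          rw [← cj_comm hD hx hc hxc]
          conv_lhs => rw [← xd]
          rw [cj_cj_cj]
  have c13 : Commute (cj x (cj c d)) d := by
    have := (commute_cj (g := x)).mpr c12
    rwa [xd] at this
  have c23 : Commute (cj x (cj c d)) (cj c d) := by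
    have := (commute_cj (g := c)).mpr c13
    rwa [c3] at this
  have g1 : ∀ p q : G, Commute x p → Commute x q → cj (cj c d) p = q →
      cj (cj x (cj c d)) p = q := fun p q k1 k2 k3 => by
    conv_lhs => rw [← cj_of_commute k1]
    rw [cj_cj_cj, k3, cj_of_commute k2]
  have hg1 : Commute (d * cj c d * cj x (cj c d)) x := by
    rw [Commute.symm_iff, ← cj_eq_self_iff, cj_mul_right, cj_mul_right, xd, cj_cj hD hx, mul_assoc,
      c23.eq, mul_assoc]
  have hg2 : Commute (d * cj c d * cj x (cj c d)) c := by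
    rw [Commute.symm_iff, ← cj_eq_self_iff, cj_mul_right, cj_mul_right, c3, cj_cj hD hc, c12.eq]
  refine ⟨_ * _, hg1.mul_left hg1, hg2.mul_left hg2, ?_⟩
  simp only [cj_mul]
  rw [g1 _ _ h1 hxt e1, e2, f2, g1 _ _ hxt h2 e2, e3, f1]

variable [Finite G]

theorem a3_trans {D : Set G} (hF : Fi D) {x c u u' : G} (hx : x ∈ D) (hc : c ∈ D)
    (hxc : ¬ Commute x c) (hu : u ∈ perp D x) (hu' : u' ∈ perp D x) (h3 : ¬ Commute c u)
    (h4 : ¬ Commute c u') : ∃ g, Commute g x ∧ Commute g c ∧ cj g u = u' := by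
  have hD := hF.cl
  let O : Set G := {o | ∃ g, Commute g x ∧ Commute g c ∧ cj g u = o}
  have hO : ∀ o ∈ O, o ∈ perp D x ∧ ¬ Commute c o := by
    rintro _ ⟨g, k1, k2, rfl⟩
    exact ⟨(cj_mem_perp_of_commute hD k1).mpr hu, fun k => h3 (commute_of_cj k2.symm k)⟩
  have hOg : ∀ o ∈ O, ∀ g, Commute g x → Commute g c → cj g o ∈ O := by
    rintro _ ⟨g, k1, k2, rfl⟩ g' k3 k4
    exact ⟨g' * g, k3.mul_left k1, k4.mul_left k2, cj_mul _ _ _⟩
  let X : Set G := O ∪ {z | z ∈ perp D x ∧ Commute c z ∧ ∃ o ∈ O, ¬ Commute z o}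
  have k0 : ∀ y ∈ O, ∀ z ∈ perp D x, z ∉ X → Commute y z := fun y hy z hz hzX => by
    by_contra k
    by_cases k1 : Commute c z
    · exact hzX (Or.inr ⟨hz, k1, y, hy, fun k' => k k'.symm⟩)
    · obtain ⟨g, e1, e2, rfl⟩ := a3_step (TS.of_class hD) hx hc (hO y hy).1.1 hz.1 hxc
        (hO y hy).1.2.2 hz.2.2 (hO y hy).2 k1 k
      exact hzX (Or.inl (hOg y hy g e1 e2))
  have hX : X = perp D x := hF.perp_no_split hx (x := u)
    (by rintro y (hy | hy); exacts [(hO y hy).1, hy.1])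
    (Or.inl ⟨1, Commute.one_left _, Commute.one_left _, cj_one u⟩) (by
      rintro y (hy | ⟨hy, k1, o, ho, k2⟩) z hz hzX
      · exact k0 y hy z hz hzX
      · exact (commute_of_cj' hD.1 hy.1 (hO o ho).1.1 k2 (k0 o ho z hz hzX).symm
          (k0 _ (hOg o ho y hy.2.2.symm k1.symm) z hz hzX).symm).symm)
  rcases hX.ge hu' with k | k
  · exact k
  · exact absurd k.2.1 h4

/-- the finset of a set -/
noncomputable def fs (S : Set G) : Finset G := (Set.toFinite S).toFinset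

omit [Group G] in
@[simp] theorem mem_fs {S : Set G} {x : G} : x ∈ fs S ↔ x ∈ S := Set.Finite.mem_toFinset _

omit [Group G] in
theorem card_fs (S : Set G) : #(fs S) = S.ncard := (Set.ncard_eq_toFinset_card S _).symm

omit [Group G] in
theorem sum_fs_const {S : Set G} {f : G → ℤ} {a : ℤ} (h : ∀ x ∈ S, f x = a) :
    ∑ x ∈ fs S, f x = S.ncard * a := by
  rw [sum_congr rfl fun x hx => h x (mem_fs.mp hx), sum_const, card_fs, nsmul_eq_mul]

omit [Group G] in
theorem sum_fs_split (S : Set G) (P : G → Prop) (f : G → ℤ) :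
    ∑ x ∈ fs S, f x = ∑ x ∈ fs {x | x ∈ S ∧ P x}, f x + ∑ x ∈ fs {x | x ∈ S ∧ ¬ P x}, f x := by
  classical
  rw [← sum_filter_add_sum_filter_not (fs S) P]
  congr 2 <;> (ext; simp)

omit [Group G] in
theorem sum_fs_single {S : Set G} {a : G} (ha : a ∈ S) (f : G → ℤ) :
    ∑ x ∈ fs S, f x = f a + ∑ x ∈ fs {x | x ∈ S ∧ x ≠ a}, f x := by
  rw [sum_fs_split S (· = a), show fs {x | x ∈ S ∧ x = a} = {a} by ext; simp; rintro rfl; exact ha,
    sum_singleton]

omit [Group G] in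
theorem ncard_split (S : Set G) (P : G → Prop) :
    (S.ncard : ℤ) = {x | x ∈ S ∧ P x}.ncard + {x | x ∈ S ∧ ¬ P x}.ncard := by
  have := sum_fs_split S P fun _ => 1
  simpa [card_fs] using this

omit [Group G] in
theorem ncard_single {S : Set G} {a : G} (ha : a ∈ S) :
    (S.ncard : ℤ) = 1 + {x | x ∈ S ∧ x ≠ a}.ncard := by
  have := sum_fs_single ha fun _ => 1
  simpa [card_fs] using this

theorem dc (S T : Set G) (f : G → ℤ) :
    ∑ p ∈ fs S, (perp T p).ncard * f p = ∑ w ∈ fs T, ∑ p ∈ fs (perp S w), f p := by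
  rw [← sum_comm' (s := fs S) (t := fun p => fs (perp T p))]
  · exact sum_congr rfl fun p _ => by rw [sum_const, card_fs, nsmul_eq_mul]
  · intro p w
    simp only [mem_fs, mem_perp, ne_eq, eq_comm (a := w), Commute.symm_iff (a := w)]
    tauto

theorem dc1 (S T : Set G) :
    ∑ p ∈ fs S, ((perp T p).ncard : ℤ) = ∑ w ∈ fs T, ((perp S w).ncard : ℤ) := by
  simpa [card_fs] using dc S T fun _ => 1

theorem Srg.sum {D Z : Set G} {n k l m : ℕ} (s : Srg D n k l m) (hZ : Z ⊆ D) {w : G} (hw : w ∈ Z) :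
    ∑ p ∈ fs (perp D w), ((perp Z p).ncard : ℤ) =
      k + (perp Z w).ncard * l + (Z.ncard - 1 - (perp Z w).ncard) * m := by
  have e : {x | (x ∈ Z ∧ x ≠ w) ∧ Commute w x} = perp Z w := Set.ext fun _ => and_assoc
  rw [dc1, sum_fs_single hw, sum_fs_split _ (Commute w), ncard_single hw,
    ncard_split {x | x ∈ Z ∧ x ≠ w} (Commute w), perp_perp, Set.inter_self, s.hk w (hZ hw),
    sum_fs_const (a := l), sum_fs_const (a := m)]
  · simp only [Set.mem_ofPred_eq, e]; ring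
  · intro x hx; rw [perp_perp, s.hm w (hZ hw) x (hZ hx.1.1) hx.2]
  · intro x hx; rw [perp_perp, s.hl w (hZ hw) x ⟨hZ hx.1.1, hx.1.2, hx.2⟩]

theorem Srg.eq0 {D : Set G} {n k l m : ℕ} (s : Srg D n k l m) {w : G} (hw : w ∈ D) :
    (m : ℤ) * (n - 1 - k) = k * (k - 1 - l) := by
  have := s.sum subset_rfl hw
  rw [sum_fs_const (a := k) fun x hx => by rw [s.hk x hx.1], s.hk w hw, s.hn] at this
  linear_combination -this

/-- points not commuting with any point of a line -/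
def AA (D : Set G) (x c : G) : Set G :=
  {p | p ∈ D ∧ ¬ Commute p x ∧ ¬ Commute p c ∧ ¬ Commute p (cj x c)}

theorem exists_nu {D : Set G} (hF : Fi D) : ∃ ν : ℕ, ∀ a ∈ D, ∀ b ∈ D, ¬ Commute a b →
    ∀ u ∈ perp D a, ¬ Commute b u → (perp (perp D a ∩ perp D b) u).ncard = ν := by
  have hD := hF.cl
  by_cases h : ∃ a ∈ D, ∃ b ∈ D, ¬ Commute a b ∧ ∃ u ∈ perp D a, ¬ Commute b u
  swap
  · exact ⟨0, fun a ha b hb k u hu k' => absurd ⟨a, ha, b, hb, k, u, hu, k'⟩ h⟩
  obtain ⟨x, hx, c, hc, hxc, u, hu, hcu⟩ := h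
  have e : ∀ g a b u : G, (perp (perp D (cj g a) ∩ perp D (cj g b)) (cj g u)).ncard =
      (perp (perp D a ∩ perp D b) u).ncard := fun g a b u => by
    rw [← perp_perp, ← perp_perp, perp_perp, perp_perp, perp_perp, perp_perp, perp_perp, perp_perp,
      ← image_perp hD, ← image_perp hD, ← image_perp hD, ← Set.image_inter (cj_injective g),
      ← Set.image_inter (cj_injective g), ← Set.image_inter (cj_injective g),
      Set.ncard_image_of_injective _ (cj_injective g)]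
  refine ⟨(perp (perp D x ∩ perp D c) u).ncard, fun a ha b hb k u' hu' k' => ?_⟩
  · obtain ⟨g, rfl, rfl⟩ := hF.pair_nc hx hc hxc ha hb k
    obtain ⟨g', k1, k2, rfl⟩ := a3_trans hF ha hb k ((cj_mem_perp hD).mpr hu) hu' (by simpa) k'
    conv_lhs => rw [← cj_of_commute k1, ← cj_of_commute k2]
    rw [e, e]

/-- the numerical data of an extension -/
structure Eqs (n k l m l1 m1 ν α S1 S2 : ℤ) : Prop where
  e0 : m * (n - 1 - k) = k * (k - 1 - l)
  e0' : m1 * (k - 1 - l) = l * (l - 1 - l1)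
  e1 : m * (l - m1) = (k - m) * ν
  e3 : m1 ^ 2 + (l - m1) * ν = l + m1 * l1 + (m - 1 - m1) * m1
  eA : n = 3 + m + 3 * (k - m) + α
  eB : m * k = 3 * m + m * m1 + 3 * (k - m) * ν + S1
  eC : m * (k + m1 * l + (m - 1 - m1) * m) = 3 * m ^ 2 + m * m1 ^ 2 + 3 * (k - m) * ν ^ 2 + S2
  mpos : 0 < m
  νpos : 0 ≤ ν

theorem local_reg {D : Set G} {k l l1 m1 : ℕ} (sL : ∀ w ∈ D, Srg (perp D w) k l l1 m1) {x c : G}
    (hx : x ∈ D) (hc : c ∈ D) (hxc : ¬ Commute x c) {z : G} (hz : z ∈ perp D x ∩ perp D c) :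
    (perp (perp D x ∩ perp D c) z).ncard = m1 := by
  rw [← (sL z hz.1.1).hm x (mem_perp_symm hx hz.1) c (mem_perp_symm hc hz.2) hxc]
  congr 1
  ext w
  simp only [mem_perp, Set.mem_inter_iff]
  tauto

theorem counts {D : Set G} (hF : Fi D) {n k l m l1 m1 ν : ℕ} (s : Srg D n k l m)
    (sL : ∀ w ∈ D, Srg (perp D w) k l l1 m1) (hν : ∀ a ∈ D, ∀ b ∈ D, ¬ Commute a b →
      ∀ u ∈ perp D a, ¬ Commute b u → (perp (perp D a ∩ perp D b) u).ncard = ν) {x c : G}
    (hx : x ∈ D) (hc : c ∈ D) (hxc : ¬ Commute x c) :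
    Eqs n k l m l1 m1 ν (AA D x c).ncard
      (∑ p ∈ fs (AA D x c), ((perp (perp D x ∩ perp D c) p).ncard : ℤ))
      (∑ p ∈ fs (AA D x c), ((perp (perp D x ∩ perp D c) p).ncard : ℤ) ^ 2) := by
  have hD := hF.cl
  have hc' := cj_mem_D hD hc x
  have hxc' := not_commute_cj_self hxc
  have hreg := fun z => local_reg sL hx hc hxc (z := z)
  have hm := s.hm x hx c hc hxc
  have e2 : perp D (cj x c) ∩ perp D x = perp D x ∩ perp D c := by
    ext w
    simp only [mem_perp, Set.mem_inter_iff]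
    constructor
    · rintro ⟨⟨k1, k2, k3⟩, -, k4, k5⟩
      have := commute_of_cj k5.symm k3.symm
      exact ⟨⟨k1, k4, k5⟩, k1, fun e => hxc (e ▸ k5), this.symm⟩
    · rintro ⟨⟨k1, k2, k3⟩, -, k4, k5⟩
      have := commute_cj_of k3.symm k5.symm
      exact ⟨⟨k1, fun e => hxc' (e ▸ k3), this.symm⟩, k1, k2, k3⟩
  obtain ⟨z0, hz0, z1, z2⟩ := (R3.of_fi hF).zne x hx c hc hxc
  have hz : z0 ∈ perp D x ∩ perp D c :=
    ⟨⟨hz0, fun e => hxc (e ▸ z2.symm), z1⟩, hz0, fun e => hxc (e ▸ z1), z2⟩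
  set Z := perp D x ∩ perp D c with hZ
  have hM : ∀ a ∈ D, ∀ b ∈ D, ¬ Commute a b →
      ({p | p ∈ perp D a ∧ ¬ Commute b p}.ncard : ℤ) = k - m := fun a ha b hb hab => by
    have := ncard_split (perp D a) (Commute b)
    rw [s.hk a ha, show {p | p ∈ perp D a ∧ Commute b p} = perp D a ∩ perp D b from
      Set.ext fun p => ⟨fun h => ⟨h.1, h.1.1, fun e => hab (e ▸ h.1.2.2), h.2⟩,
        fun h => ⟨h.1, h.2.2.2⟩⟩, s.hm a ha b hb hab] at this
    linarith
  have p1 : ∀ φ : ℕ → ℤ, ∀ a ∈ D, ∀ b ∈ D, ¬ Commute a b → perp D a ∩ perp D b = Z →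
      ∑ p ∈ fs {p | p ∈ D ∧ Commute a p ∧ ¬ Commute b p}, φ (perp Z p).ncard =
        φ m + (k - m) * φ ν := fun φ a ha b hb hab e => by
    rw [sum_fs_single (S := {p | p ∈ D ∧ Commute a p ∧ ¬ Commute b p}) (a := a)
      ⟨ha, Commute.refl a, fun h => hab h.symm⟩, ← hM a ha b hb hab,
      ← sum_fs_const (f := fun p => φ (perp Z p).ncard) fun p hp => by
        rw [← e, hν a ha b hb hab p hp.1 hp.2]]
    congr 2
    · rw [← hm]
      congr 1
      rw [← e]
      ext p; simp only [Set.mem_inter_iff, mem_perp]; tauto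
    · ext p; simp only [mem_fs, Set.mem_ofPred_eq, mem_perp]; tauto
  have part : ∀ φ : ℕ → ℤ, ∑ p ∈ fs D, φ (perp Z p).ncard =
      3 * φ m + m * φ m1 + 3 * (k - m) * φ ν + ∑ p ∈ fs (AA D x c), φ (perp Z p).ncard := by
    intro φ
    have q1 := p1 φ x hx c hc hxc rfl
    have q2 := p1 φ c hc x hx (fun h => hxc h.symm) (Set.inter_comm _ _)
    have q3 := p1 φ _ hc' x hx (fun h => hxc' h.symm) e2
    have q4 : ∑ p ∈ fs Z, φ (perp Z p).ncard = m * φ m1 := by
      rw [sum_fs_const (a := φ m1) fun p hp => by rw [hreg p hp], hm]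
    rw [sum_fs_split D (Commute x), sum_fs_split {p | p ∈ D ∧ Commute x p} (Commute c),
      sum_fs_split {p | p ∈ D ∧ ¬ Commute x p} (Commute c),
      sum_fs_split {p | p ∈ {p | p ∈ D ∧ ¬ Commute x p} ∧ ¬ Commute c p} (Commute (cj x c))]
    have r1 : {p | p ∈ {p | p ∈ D ∧ Commute x p} ∧ Commute c p} = Z := Set.ext fun p =>
      ⟨fun h => ⟨⟨h.1.1, fun e => hxc (e ▸ h.2.symm), h.1.2⟩, h.1.1, fun e => hxc (e ▸ h.1.2), h.2⟩,
        fun h => ⟨⟨h.1.1, h.1.2.2⟩, h.2.2.2⟩⟩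
    have r2 : {p | p ∈ {p | p ∈ D ∧ Commute x p} ∧ ¬ Commute c p} =
      {p | p ∈ D ∧ Commute x p ∧ ¬ Commute c p} := Set.ext fun p => and_assoc
    have r3 : {p | p ∈ {p | p ∈ D ∧ ¬ Commute x p} ∧ Commute c p} =
      {p | p ∈ D ∧ Commute c p ∧ ¬ Commute x p} := Set.ext fun p => by
        simp only [Set.mem_ofPred_eq]; tauto
    have r4 : {p | p ∈ {p | p ∈ {p | p ∈ D ∧ ¬ Commute x p} ∧ ¬ Commute c p} ∧
        Commute (cj x c) p} = {p | p ∈ D ∧ Commute (cj x c) p ∧ ¬ Commute x p} := Set.ext fun p =>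
      ⟨fun h => ⟨h.1.1.1, h.2, h.1.1.2⟩, fun h => ⟨⟨⟨h.1, h.2.2⟩, fun k => h.2.2
        (commute_of_cj' hD.1 hx hc hxc k.symm h.2.1.symm).symm⟩, h.2.1⟩⟩
    have r5 : {p | p ∈ {p | p ∈ {p | p ∈ D ∧ ¬ Commute x p} ∧ ¬ Commute c p} ∧
        ¬ Commute (cj x c) p} = AA D x c := Set.ext fun p => by
      simp only [AA, Set.mem_ofPred_eq, Commute.symm_iff (a := p)]; tauto
    rw [r1, r2, r3, r4, r5, q1, q2, q3, q4]
    ring
  have hZx : Z ⊆ perp D x := Set.inter_subset_left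
  have hZD : Z ⊆ D := fun p hp => hp.1.1
  have split : ∀ S ⊆ perp D x, ∑ p ∈ fs S, ((perp Z p).ncard : ℤ) =
      {p | p ∈ S ∧ p ∈ Z}.ncard * m1 + (S.ncard - {p | p ∈ S ∧ p ∈ Z}.ncard) * ν := fun S hS => by
    rw [sum_fs_split S (· ∈ Z), ncard_split S (· ∈ Z), sum_fs_const (a := m1),
      sum_fs_const (a := ν)]
    · ring
    · intro p hp
      rw [hν x hx c hc hxc p (hS hp.1) fun k => hp.2
        ⟨hS hp.1, (hS hp.1).1, fun e => hxc (e ▸ (hS hp.1).2.2), k⟩]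
    · intro p hp; rw [hreg p hp.2]
  refine ⟨s.eq0 hx, (sL x hx).eq0 hz.1, ?_, ?_, ?_, ?_, ?_, ?_, by positivity⟩
  · have := split _ subset_rfl
    rw [dc1, sum_fs_const (a := l) fun p hp => by rw [(sL x hx).hk p hp.1],
      show {p | p ∈ perp D x ∧ p ∈ Z} = Z from Set.ext fun p => ⟨fun h => h.2, fun h => ⟨h.1, h⟩⟩,
      hm, s.hk x hx] at this
    linear_combination this
  · have := split (perp (perp D x) z0) perp_sub
    rw [(sL x hx).sum hZx hz, show {p | p ∈ perp (perp D x) z0 ∧ p ∈ Z} = perp Z z0 from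
      Set.ext fun p => ⟨fun h => ⟨h.2, h.1.2⟩, fun h => ⟨⟨h.1.1, h.2⟩, h.1⟩⟩, hreg z0 hz, hm,
      (sL x hx).hk z0 hz.1] at this
    linear_combination -this
  · have := part fun _ => 1
    simp only [sum_const, card_fs, nsmul_eq_mul, mul_one, s.hn] at this
    linear_combination this
  · have := part fun a => a
    rw [dc1, sum_fs_const (a := k) fun p hp => by rw [s.hk p (hZD hp)], hm] at this
    linear_combination this
  · have := part fun a => a ^ 2
    simp only [sq] at this ⊢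
    rw [dc, sum_fs_const (a := k + m1 * l + (m - 1 - m1) * m) fun p hp => by
      rw [s.sum hZD hp, hreg p hp, hm], hm] at this
    linear_combination this
  · rw [← hm]
    exact_mod_cast (Set.ncard_pos (Set.toFinite _)).mpr ⟨z0, hz⟩

omit [Group G] in
theorem sum_cs (A : Set G) (f : G → ℤ) :
    (∑ p ∈ fs A, f p) ^ 2 ≤ A.ncard * ∑ p ∈ fs A, f p ^ 2 := by
  rw [← card_fs]; exact sq_sum_le_card_mul_sum_sq

omit [Group G] in
theorem eq_of_var {A : Set G} {f : G → ℤ} {t : ℤ} (h1 : ∑ p ∈ fs A, f p = A.ncard * t)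
    (h2 : ∑ p ∈ fs A, f p ^ 2 = A.ncard * t ^ 2) {p : G} (hp : p ∈ A) : f p = t := by
  have : ∑ p ∈ fs A, (f p - t) ^ 2 = 0 := by
    simp only [sub_sq, sum_add_distrib, sum_sub_distrib, ← sum_mul, ← mul_sum, h1, h2, sum_const,
      card_fs, nsmul_eq_mul]
    ring
  have := (sum_eq_zero_iff_of_nonneg fun _ _ => sq_nonneg _).mp this p (mem_fs.mpr hp)
  exact sub_eq_zero.mp (pow_eq_zero_iff two_ne_zero |>.mp this)

end Cfsg.Agent.Fis
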