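import Cfsg.Agent.Lib.Fis.Mod

set_option autoImplicit false

/-! # Fischer's theorem: the Weyl group of type `E₆` as an orthogonal space -/

namespace Cfsg.Agent.Fis.E6

open Subgroup Cfsg.Agent.Lib.Fischer Cfsg.Agent.Lib.Invol Module QuadraticMap
open Cfsg.Agent.Lib.Forms (Nondeg nondeg_of)

/-- commuting table of the 36 roots -/
def cm (i k : ℕ) : Bool := Nat.testBit 0x800255ddf402daa65b21d12e9b11a98e1a741c55956250f66122b617aa4832d271c5a5e032e2a9d222ce3870e846e0dea0a391d7482a531e2d2c84d1f03f0286cf2118e6857e210d58e1f07c09331d294c709bb80968d30fc48663a83f405a8781da8965654b85498ce0fc44b0b447b12c984995635e2c84b91a387c0f81a54ab43d0d148c34f83fd00047bf40022af7c27b4406b9e037b015c4b630c3aea010c73d (36 * i + k)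

/-- simple root producing a root -/
def jj (i : ℕ) : ℕ := 9337550819271064998157210176 / 6 ^ i % 6

/-- parent of a root -/
def pa (i : ℕ) : ℕ := 103258399383087541322933500596273330351117073694378704896 / 36 ^ i % 36

/-- coordinates modulo three -/
def wn (i j : ℕ) : ℕ :=
  2401959236820769073353743111940962213528925425020337183167067254143863025397948195982 /
    3 ^ (5 * i + j) % 3

/-- the vector of a root -/
def wv (i : ℕ) : Fin 5 → ZMod 3 := fun j => wn i j

/-- dot product -/
def dt (x y : Fin 5 → ZMod 3) : ZMod 3 := x 0 * y 0 + x 1 * y 1 + x 2 * y 2 + x 3 * y 3 + x 4 * y 4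

theorem t_par : ∀ i < 36, 6 ≤ i → jj i < 6 ∧ pa i < i ∧ cm (jj i) (pa i) = false ∧
    ∀ l < 36, cm l i = (cm l (jj i) == cm l (pa i)) := by decide +kernel

theorem t_symm : ∀ i < 36, ∀ k < 36, cm i k = cm k i := by decide +kernel

theorem t_sep : ∀ i < 36, ∀ k < 36, (∀ l < 36, cm l i = cm l k) → i = k := by decide +kernel

theorem t_ker0 : ((List.range 36).all fun i => (List.range 36).all fun j => cm i j ||
    (List.range 36).all fun k => cm i k || (List.range 36).any
      (fun l => cm i l && cm j l && !cm k l) || k == j ||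
      (List.range 36).all fun l => cm l k == (cm l i == cm l j)) = true := by decide +kernel

theorem t_ker {i j k : ℕ} (hi : i < 36) (hj : j < 36) (hk : k < 36) (h1 : cm i j = false)
    (h2 : cm i k = false) (h3 : ∀ l < 36, cm i l = true → cm j l = true → cm k l = true) :
    k = j ∨ ∀ l < 36, cm l k = (cm l i == cm l j) := by
  have := t_ker0
  simp only [List.all_eq_true, List.mem_range, Bool.or_eq_true, List.any_eq_true, Bool.and_eq_true,
    Bool.not_eq_true', beq_iff_eq] at this
  rcases this i hi j hj with h | h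
  · simp [h1] at h
  rcases h k hk with ((h | ⟨l, hl, ⟨a, b⟩, c⟩) | h) | h
  · simp [h2] at h
  · simp [h3 l hl a b] at c
  exacts [Or.inl h, Or.inr h]

theorem t_q : ∀ i < 36, dt (wv i) (wv i) = -1 := by decide +kernel

theorem t_pol : ∀ i < 36, ∀ k < 36, (dt (wv i) (wv k) = 0 ↔ k ≠ i ∧ cm i k = true) := by
  decide +kernel

set_option synthInstance.maxSize 1000 in
theorem t_surj : ∀ a b c d e : ZMod 3, a * a + b * b + c * c + d * d + e * e = -1 → ∃ i < 36,
    (a = wv i 0 ∧ b = wv i 1 ∧ c = wv i 2 ∧ d = wv i 3 ∧ e = wv i 4) ∨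
    (a = -wv i 0 ∧ b = -wv i 1 ∧ c = -wv i 2 ∧ d = -wv i 3 ∧ e = -wv i 4) := by decide +kernel

theorem t_inj : ∀ i < 36, ∀ k < 36, ((∀ j, wv i j = wv k j) ∨ ∀ j, wv i j = -wv k j) → i = k := by
  decide +kernel

/-- the standard form -/
noncomputable def QQ : QuadraticForm (ZMod 3) (Fin 5 → ZMod 3) :=
  weightedSumSquares (ZMod 3) fun _ : Fin 5 => (1 : ZMod 3)

theorem QQ_apply (y : Fin 5 → ZMod 3) : QQ y = dt y y := by
  simp [QQ, weightedSumSquares_apply, Fin.sum_univ_five, dt]

theorem QQ_polar (x y : Fin 5 → ZMod 3) : polar QQ x y = 0 ↔ dt x y = 0 := by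
  have : polar QQ x y = 2 * dt x y := by
    simp only [polar, QQ_apply, dt, Pi.add_apply]; ring
  rw [this, mul_eq_zero, or_iff_right (by decide)]

theorem QQ_nd : Nondeg QQ := nondeg_of fun x hx => by
  funext j
  have := (QQ_polar _ _).mp (hx (Pi.single j 1))
  fin_cases j <;> simpa [dt] using this

variable {G : Type*} [Group G]

theorem sym_iff {E : Set G} (h : TS E) (hS : Sym E) {a b e : G} (ha : a ∈ E) (hb : b ∈ E)
    (he : e ∈ E) (hab : ¬ Commute a b) : Commute e (cj a b) ↔ (Commute e a ↔ Commute e b) := by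
  by_cases ea : Commute e a
  · simp [commute_cj_iff ea, ea]
  by_cases eb : Commute e b
  · rw [cj_comm h.set ha hb hab, commute_cj_iff eb]; simp [eb]
  · exact iff_of_true (hS a ha b hb e he hab ea eb) (by simp [ea, eb])

/-- the points generated by the simple ones -/
noncomputable def pt (s : ℕ → G) (i : ℕ) : G :=
  if _h : 6 ≤ i ∧ pa i < i then cj (s (jj i)) (pt s (pa i)) else s i
termination_by i
decreasing_by exact _h.2

theorem pt_lt (s : ℕ → G) {i : ℕ} (h : i < 6) : pt s i = s i := by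
  rw [pt, dif_neg (by omega)]

theorem pt_ge (s : ℕ → G) {i : ℕ} (h : 6 ≤ i) (h' : i < 36) :
    pt s i = cj (s (jj i)) (pt s (pa i)) := by
  rw [pt, dif_pos ⟨h, (t_par i h' h).2.1⟩]

theorem orth_of_e6 [Finite G] {E : Set G} (h : TS E) (hS : Sym E) (h36 : E.ncard = 36) (s : ℕ → G)
    (hs : ∀ i < 6, s i ∈ E) (hc : ∀ i < 6, ∀ k < 6, (Commute (s i) (s k) ↔ cm i k = true)) :
    Orth E 5 := by
  classical
  have mem : ∀ i, i < 36 → pt s i ∈ E := fun i => by
    induction i using Nat.strong_induction_on with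
    | _ i ih =>
      intro hi
      rcases lt_or_ge i 6 with k | k
      · rw [pt_lt s k]; exact hs i k
      · obtain ⟨k1, k2, -⟩ := t_par i hi k
        rw [pt_ge s k hi]
        exact h.cjm _ (hs _ k1) _ (ih _ k2 (by omega))
  have key : ∀ i, i < 36 → ∀ e ∈ E, ∀ l < 36, (∀ a < 6, (Commute e (s a) ↔ cm l a = true)) →
      (Commute e (pt s i) ↔ cm l i = true) := fun i => by
    induction i using Nat.strong_induction_on with
    | _ i ih =>
      intro hi e he l hl hel
      rcases lt_or_ge i 6 with k | k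
      · rw [pt_lt s k]; exact hel i k
      · obtain ⟨k1, k2, k3, k4⟩ := t_par i hi k
        have k5 : pa i < 36 := by omega
        rw [pt_ge s k hi, sym_iff h hS (hs _ k1) (mem _ k5) he (by
          rw [ih _ k2 k5 _ (hs _ k1) _ (by omega) (hc _ k1), k3]; simp), hel _ k1,
          ih _ k2 k5 e he l hl hel, k4 l hl]
        simp
  have tab : ∀ i < 36, ∀ k < 36, (Commute (pt s i) (pt s k) ↔ cm i k = true) :=
    fun i hi k hk => key k hk _ (mem i hi) i hi fun a ha => by
      rw [Commute.symm_iff, key i hi _ (hs a ha) a (by omega) (hc a ha), t_symm a (by omega) i hi]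
  have inj : ∀ i < 36, ∀ k < 36, pt s i = pt s k → i = k := fun i hi k hk e =>
    t_sep i hi k hk fun l hl => by
      rw [Bool.eq_iff_iff, ← tab l hl i hi, ← tab l hl k hk, e]
  have sur : ∀ d ∈ E, ∃ i, i < 36 ∧ pt s i = d := by
    have : (((Finset.range 36).image (pt s) : Finset G) : Set G) = E := by
      refine Set.eq_of_subset_of_ncard_le (fun d hd => ?_) ?_
      · obtain ⟨i, hi, rfl⟩ := Finset.mem_image.mp hd
        exact mem i (Finset.mem_range.mp hi)
      · rw [h36, Set.ncard_coe_finset, Finset.card_image_of_injOn fun i hi k hk =>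
          inj i (Finset.mem_range.mp hi) k (Finset.mem_range.mp hk), Finset.card_range]
    intro d hd
    rw [← this] at hd
    obtain ⟨i, hi, e⟩ := Finset.mem_image.mp hd
    exact ⟨i, Finset.mem_range.mp hi, e⟩
  choose! ix hix hpt using sur
  have tb : ∀ d ∈ E, ∀ e ∈ E, (Commute d e ↔ cm (ix d) (ix e) = true) := fun d hd e he => by
    rw [← tab _ (hix d hd) _ (hix e he), hpt d hd, hpt e he]
  have tl : ∀ l < 36, ∀ e ∈ E, (Commute (pt s l) e ↔ cm l (ix e) = true) := fun l hl e he => by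
    rw [← tab _ hl _ (hix e he), hpt e he]
  have ij : ∀ d ∈ E, ∀ e ∈ E, ix d = ix e → d = e := fun d hd e he k => by
    rw [← hpt d hd, k, hpt e he]
  refine ⟨Fin 5 → ZMod 3, _, _, inferInstance, QQ, fun g => wv (ix g), by simp, h,
    fun x hx c hc c' hc' h1 h2 h3 => ?_, QQ_nd, fun d hd => ?_, fun d hd e he => ?_,
    fun y hy => ?_, fun d hd e he k => ?_⟩
  · have hxc := h.cjm x hx c hc
    refine (t_ker (hix x hx) (hix c hc) (hix c' hc') (by simpa [tb x hx c hc] using h1)
      (by simpa [tb x hx c' hc'] using h2) fun l hl k1 k2 => ?_).imp (ij _ hc' _ hc) fun k => ?_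
    · rw [t_symm _ (hix _ hx) l hl, ← tl l hl x hx] at k1
      rw [t_symm _ (hix _ hc) l hl, ← tl l hl c hc] at k2
      rw [t_symm _ (hix _ hc') l hl, ← tl l hl c' hc']
      exact (h3 _ (mem l hl) k1.symm k2.symm).symm
    · refine ij _ hc' _ hxc (t_sep _ (hix _ hc') _ (hix _ hxc) fun l hl => ?_)
      rw [k l hl, Bool.eq_iff_iff, ← tl l hl _ hxc, sym_iff h hS hx hc (mem l hl) h1, tl l hl x hx,
        tl l hl c hc]
      simp
  · rw [QQ_apply, t_q _ (hix d hd)]
  · rw [QQ_polar, t_pol _ (hix d hd) _ (hix e he), mem_perp, ← tb d hd e he]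
    exact ⟨fun k => ⟨he, fun e => k.1 (e ▸ rfl), k.2⟩, fun k => ⟨fun e => k.2.1 (ij _ he _ hd e), k.2.2⟩⟩
  · rw [QQ_apply] at hy
    obtain ⟨i, hi, k⟩ := t_surj _ _ _ _ _ hy
    have e : ix (pt s i) = i := inj _ (hix _ (mem i hi)) _ hi (hpt _ (mem i hi))
    refine ⟨pt s i, mem i hi, ?_⟩
    simp only [e]
    refine k.imp (fun k => ?_) fun k => ?_ <;>
    · obtain ⟨k0, k1, k2, k3, k4⟩ := k
      funext j
      fin_cases j
      exacts [k0, k1, k2, k3, k4]
  · exact ij _ hd _ he (t_inj _ (hix d hd) _ (hix e he)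
      (k.imp (fun k j => congrFun k j) fun k j => congrFun k j))

end Cfsg.Agent.Fis.E6
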