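import Cfsg.Agent.Lib.Fis.Mod

set_option autoImplicit false

/-! # Fischer's theorem: centralizers of transpositions -/

namespace Cfsg.Agent.Fis

open Subgroup Cfsg.Agent.Lib.Fischer Cfsg.Agent.Lib.Invol

variable {G : Type*} [Group G] {D B : Set G}

/-- centralizers of points are generated by points, modulo `B` -/
def EP (D B : Set G) : Prop :=
  ∀ x ∈ D, ∀ g ∈ closure (D ∪ B), Commute g x → g ∈ closure (insert x (perp D x) ∪ B)

/-- the kernel of the action on the points is generated by `B` -/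
def CB (D B : Set G) : Prop := ∀ g ∈ closure (D ∪ B), (∀ d ∈ D, Commute g d) → g ∈ closure B

theorem KB_le {x : G} (hx : x ∈ D) : closure (insert x (perp D x) ∪ B) ≤ closure (D ∪ B) :=
  closure_mono (Set.union_subset_union_left _ (Set.insert_subset hx perp_sub))

theorem mem_KB {x y : G} (hy : y ∈ D) (h : Commute x y) : y ∈ closure (insert x (perp D x) ∪ B) :=
  closure_mono Set.subset_union_left (mem_KK hy h)

theorem commute_KB (hB : ∀ b ∈ B, ∀ d ∈ D, Commute b d) {x g : G} (hx : x ∈ D)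
    (hg : g ∈ closure (insert x (perp D x) ∪ B)) : Commute g x :=
  commute_closure (by
    rintro s ((rfl | h) | h); exacts [Commute.refl _, h.2.2.symm, hB s h x hx]) hg

theorem cj_KB (hT : TS D) (hB : ∀ b ∈ B, ∀ d ∈ D, Commute b d) {g : G} (hg : g ∈ closure (D ∪ B)) :
    ∀ w ∈ D, cj g w ∈ D ∧ ∀ k ∈ closure (insert w (perp D w) ∪ B),
      cj g k ∈ closure (insert (cj g w) (perp D (cj g w)) ∪ B) := by
  have s1 : ∀ d ∈ D, ∀ w ∈ D, ∀ k ∈ closure (insert w (perp D w) ∪ B),
      cj d k ∈ closure (insert (cj d w) (perp D (cj d w)) ∪ B) := fun d hd w hw k hk => by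
    have : closure (insert w (perp D w) ∪ B) ≤ (closure (insert (cj d w) (perp D (cj d w)) ∪
        B)).comap (MulAut.conj d).toMonoidHom := by
      rw [closure_le]
      rintro s ((rfl | h) | h)
      · exact subset_closure (Or.inl (Or.inl rfl))
      · exact mem_KB (hT.cjm d hd s h.1) (commute_cj.mpr h.2.2)
      · exact subset_closure (Or.inr (show cj d s ∈ B by rwa [cj_of_commute (hB s h d hd).symm]))
    exact this hk
  have s2 : ∀ d ∈ closure B, ∀ w ∈ D, cj d w = w := fun d hd w hw =>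
    cj_of_commute (commute_closure (fun b hb => hB b hb w hw) hd)
  have s3 : ∀ d, d ∈ D ∨ d ∈ closure B → ∀ g, (∀ w ∈ D, cj g w ∈ D ∧
      ∀ k ∈ closure (insert w (perp D w) ∪ B),
        cj g k ∈ closure (insert (cj g w) (perp D (cj g w)) ∪ B)) → ∀ w ∈ D, cj (d * g) w ∈ D ∧
      ∀ k ∈ closure (insert w (perp D w) ∪ B),
        cj (d * g) k ∈ closure (insert (cj (d * g) w) (perp D (cj (d * g) w)) ∪ B) := by
    rintro d (hd | hd) g ih w hw <;> simp only [cj_mul]
    · exact ⟨hT.cjm d hd _ (ih w hw).1, fun k hk => s1 d hd _ (ih w hw).1 _ ((ih w hw).2 k hk)⟩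
    · rw [s2 d hd _ (ih w hw).1]
      exact ⟨(ih w hw).1, fun k hk => cj_mem (closure_mono Set.subset_union_right hd)
        ((ih w hw).2 k hk)⟩
  refine closure_induction_left (p := fun g _ => ∀ w ∈ D, cj g w ∈ D ∧
    ∀ k ∈ closure (insert w (perp D w) ∪ B),
      cj g k ∈ closure (insert (cj g w) (perp D (cj g w)) ∪ B)) (fun w hw => by simpa) ?_ ?_ hg
  · exact fun d hd g _ ih => s3 d (hd.imp_right fun k => subset_closure k) g ih
  · exact fun d hd g _ ih => s3 _ (hd.imp (fun k => by rwa [inv_eq hT.set k])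
      fun k => inv_mem (subset_closure k)) g ih

theorem EP.of_local (hR : R3 D) (hC : Cov D) (hL : ∀ x ∈ D, R3 (perp D x))
    (hB : ∀ b ∈ B, ∀ d ∈ D, Commute b d) (h : ∀ w ∈ D, EP (perp D w) (insert w B)) : EP D B := by
  intro x hx
  have hT := hR.ts
  let K : G → Subgroup G := fun w => closure (insert w (perp D w) ∪ B)
  have L : ∀ w ∈ D, Commute w x → ∀ g ∈ K w, cj g x = x → g ∈ K x := fun w hw k g hg e => by
    by_cases e' : x = w
    · exact e' ▸ hg
    refine closure_mono ?_ (h w hw x ⟨hx, e', k⟩ g (by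
      rwa [Set.union_insert, ← Set.insert_union]) (cj_eq_self_iff.mp e))
    rintro s ((rfl | t) | rfl | t)
    exacts [Or.inl (Or.inl rfl), Or.inl (Or.inr ⟨t.1.1, t.2⟩),
      Or.inl (Or.inr ⟨hw, Ne.symm e', k.symm⟩), Or.inr t]
  have back : ∀ w ∈ D, ∀ g ∈ K w, ∀ k ∈ K (cj g x), g⁻¹ * k * g ∈ K x := fun w hw g hg k hk => by
    have := (cj_KB hT hB (inv_mem (KB_le hw hg)) _ (cj_KB hT hB (KB_le hw hg) x hx).1).2 k hk
    rwa [cj_inv_cj, cj_def, inv_inv] at this
  have U : ∀ w ∈ D, ∀ w' ∈ D, Commute w x → Commute w' x → ∀ g ∈ K w, ∀ g' ∈ K w',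
      cj g x = cj g' x → Commute w' (cj g x) → g⁻¹ * g' ∈ K x := by
    intro w hw w' hw' k1 k2 g hg g' hg' e k4
    have hd := (cj_KB hT hB (KB_le hw hg) x hx).1
    have k3 : Commute w (cj g x) := commute_cj_of (commute_KB hB hw hg).symm k1
    generalize hd' : cj g x = d at *
    have via : ∀ t ∈ K w, t ∈ K w' → cj t x = d → g⁻¹ * g' ∈ K x := fun t t1 t2 t3 => by
      rw [show g⁻¹ * g' = (g⁻¹ * t) * (t⁻¹ * g') by group]
      exact mul_mem (L w hw k1 _ (mul_mem (inv_mem hg) t1) (by rw [cj_mul, t3, ← hd', cj_inv_cj]))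
        (L w' hw' k2 _ (mul_mem (inv_mem t2) hg') (by rw [cj_mul, ← e, ← t3, cj_inv_cj]))
    by_cases c : Commute x d
    swap
    · exact via _ (mem_KB (hT.cjm x hx d hd) (commute_cj_of k1 k3))
        (mem_KB (hT.cjm x hx d hd) (commute_cj_of k2 k4)) (cj_cj_left hT.set hx hd c)
    by_cases c' : d = x
    · exact via 1 (one_mem _) (one_mem _) (by rw [cj_one, c'])
    have m : ∀ w ∈ D, Commute w x → Commute w d → ∀ g ∈ K w, cj g x = d →
        w ∈ perp (perp D x) d := fun w hw k1 k3 g hg e =>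
      ⟨⟨hw, fun t => c' (by rw [← e, cj_of_commute (commute_KB hB hx (t ▸ hg))]), k1.symm⟩,
        fun t => c' (by
          rw [← cj_inj (g := g), e, cj_of_commute (commute_KB hB hd (t ▸ hg))]), k3.symm⟩
    obtain ⟨t, ht, e1⟩ := (hL x hx).lconn d ⟨hd, c', c⟩ w (m w hw k1 k3 g hg hd') w'
      (m w' hw' k2 k4 g' hg' e.symm)
    have t1 : t ∈ K x := closure_mono (fun s hs => Or.inl (Or.inr hs.1)) ht
    have t2 : t ∈ K d := closure_mono (fun s hs => Or.inl (Or.inr ⟨hs.1.1, hs.2⟩)) ht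
    have t3 : cj t g ∈ K w' := e1 ▸ (cj_KB hT hB (KB_le hx t1) w hw).2 g hg
    rw [show g⁻¹ * g' = (g⁻¹ * t * g) * t⁻¹ * ((cj t g)⁻¹ * g') by rw [cj_def]; group]
    refine mul_mem (mul_mem (back w hw g hg t (hd' ▸ t2)) (inv_mem t1))
      (L w' hw' k2 _ (mul_mem (inv_mem t3) hg') ?_)
    have t4 : cj (cj t g) x = d := by
      conv_lhs => rw [← cj_of_commute (commute_KB hB hx t1)]
      rw [cj_cj_cj, hd', cj_of_commute (commute_KB hB hd t2)]
    rw [cj_mul, ← e, ← t4, cj_inv_cj]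
  let R : G → Prop := fun g => ∃ w ∈ D, Commute w x ∧ ∃ g0 ∈ K w, cj g0 x = cj g x ∧ g0⁻¹ * g ∈ K x
  have step : ∀ e, e ∈ D ∨ e ∈ closure B → ∀ g, R g → R (e * g) := by
    rintro e he g ⟨w, hw, k1, g0, hg0, e0, k2⟩
    have hd := (cj_KB hT hB (KB_le hw hg0) x hx).1
    rcases he with he | he
    swap
    · exact ⟨w, hw, k1, e * g0, mul_mem (closure_mono Set.subset_union_right he) hg0,
        by rw [cj_mul, cj_mul, e0], by rwa [mul_inv_rev, mul_assoc, inv_mul_cancel_left]⟩
    by_cases c1 : Commute e x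
    · refine ⟨_, hT.cjm e he w hw, (commute_cj_of c1.symm k1.symm).symm, cj e g0,
        (cj_KB hT hB (subset_closure (Or.inl he)) w hw).2 g0 hg0, ?_, ?_⟩
      · rw [cj_mul, ← e0, ← cj_cj_cj, cj_of_commute c1]
      · rw [show (cj e g0)⁻¹ * (e * g) = e * (g0⁻¹ * g) by rw [cj_def]; group]
        exact mul_mem (mem_KB he c1.symm) k2
    by_cases c2 : Commute e (cj g0 x)
    · refine ⟨w, hw, k1, g0, hg0, by rw [cj_mul, ← e0, cj_of_commute c2], ?_⟩
      rw [show g0⁻¹ * (e * g) = (g0⁻¹ * e * g0) * (g0⁻¹ * g) by group]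
      exact mul_mem (back w hw g0 hg0 e (mem_KB he c2.symm)) k2
    obtain ⟨w', hw', l1, l2, l3⟩ : ∃ w' ∈ D, Commute w' x ∧ Commute w' (cj g0 x) ∧
        Commute w' e := by
      by_cases c3 : Commute x (cj g0 x)
      · obtain ⟨w', hw', l1, l2, l3⟩ := hC.h2 x hx e he _ hd (fun k => c1 k.symm) c3 c2
        exact ⟨w', hw', l1, l3, l2⟩
      by_cases c4 : Commute e (cj x (cj g0 x))
      · obtain ⟨w', hw', l1, l2, l3⟩ := hC.h2 e he x hx _ (hT.cjm x hx _ hd) c1 c4
          (not_commute_cj_self c3)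
        exact ⟨w', hw', l2, commute_of_cj l2 l3, l1⟩
      · exact hC.h1 x hx _ hd e he c3 c1 c2 c4
    obtain ⟨t, ht, e1⟩ := hR.lconn w' hw' x ⟨hx, fun k => c1 (k ▸ l3.symm), l1⟩ _
      ⟨hd, fun k => c2 (k ▸ l3.symm), l2⟩
    have t1 : t ∈ K w' := closure_mono (fun s hs => Or.inl (Or.inr hs)) ht
    refine ⟨w', hw', l1, e * t, mul_mem (mem_KB he l3) t1, by rw [cj_mul, cj_mul, e1, e0], ?_⟩
    rw [show (e * t)⁻¹ * (e * g) = (g0⁻¹ * t)⁻¹ * (g0⁻¹ * g) by group]
    exact mul_mem (inv_mem (U w hw w' hw' k1 l1 g0 hg0 t t1 e1.symm l2)) k2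
  intro g hg hgx
  have : R g := closure_induction_left (p := fun g _ => R g)
    ⟨x, hx, Commute.refl x, 1, one_mem _, rfl, by simp⟩
    (fun d hd g _ ih => step d (hd.imp_right fun k => subset_closure k) g ih)
    (fun d hd g _ ih => step _ (hd.imp (fun k => by rwa [inv_eq hT.set k])
      fun k => inv_mem (subset_closure k)) g ih) hg
  obtain ⟨w, hw, k1, g0, hg0, e0, k2⟩ := this
  rw [cj_of_commute hgx] at e0
  simpa using mul_mem (L w hw k1 g0 hg0 e0) k2

theorem CB.perp (hR : R3 D) (hK : Ker D) (hB : ∀ b ∈ B, ∀ d ∈ D, Commute b d) (h : CB D B) {x : G}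
    (hx : x ∈ D) : CB (perp D x) (insert x B) := fun g hg k => by
  rw [Set.union_insert, ← Set.insert_union] at hg
  have hg' := KB_le hx hg
  rcases kerC hR hK hx (fun d hd => (cj_KB hR.ts hB hg' d hd).1) (commute_KB hB hx hg) k with e | e
  · exact closure_mono (Set.subset_insert _ _) (h g hg' e)
  · exact (mul_mem_cancel_left (subset_closure (Set.mem_insert x B))).mp
      (closure_mono (Set.subset_insert _ _) (h _ (mul_mem (subset_closure (Or.inl hx)) hg') e))

theorem exists_split (hB : ∀ b ∈ B, ∀ d ∈ D, Commute b d) {g : G} (hg : g ∈ closure (D ∪ B)) :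
    ∃ a ∈ closure D, ∃ b ∈ closure B, g = a * b := by
  refine closure_induction (p := fun g _ => ∃ a ∈ closure D, ∃ b ∈ closure B, g = a * b) ?_
    ⟨1, one_mem _, 1, one_mem _, by simp⟩ ?_ ?_ hg
  · rintro s (k | k)
    exacts [⟨s, subset_closure k, 1, one_mem _, by simp⟩, ⟨1, one_mem _, s, subset_closure k, by simp⟩]
  all_goals
    have c : ∀ a ∈ closure D, ∀ b ∈ closure B, Commute b a := fun a ha b hb =>
      commute_closure (fun s hs => (commute_closure (fun d hd => (hB s hs d hd).symm) ha).symm) hb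
  · rintro _ _ _ _ ⟨a, ha, b, hb, rfl⟩ ⟨a', ha', b', hb', rfl⟩
    exact ⟨a * a', mul_mem ha ha', b * b', mul_mem hb hb', (c a' ha' b hb).mul_mul_mul_comm a b'⟩
  · rintro _ _ ⟨a, ha, b, hb, rfl⟩
    exact ⟨a⁻¹, inv_mem ha, b⁻¹, inv_mem hb, by rw [← mul_inv_rev, (c a ha b hb).eq]⟩

theorem EP.of_pp (_hT : TS D) (h : PP D) (hB : ∀ b ∈ B, ∀ d ∈ D, Commute b d) (hC : CB D B) :
    EP D B := fun x hx g hg k => by
  obtain ⟨a, ha, b, hb, rfl⟩ := exists_split hB hg
  obtain ⟨t, ht, e⟩ := h x hx a ha (by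
    simpa using k.mul_left (commute_closure (fun s hs => hB s hs x hx) hb).inv_left)
  have := hC (t⁻¹ * a) (closure_mono Set.subset_union_left (mul_mem (inv_mem (KK_le hx ht)) ha))
    fun d hd => by rw [← cj_eq_self_iff, cj_mul, e d hd, cj_inv_cj]
  rw [show a * b = t * (t⁻¹ * a * b) by group]
  exact mul_mem (closure_mono Set.subset_union_left ht)
    (closure_mono Set.subset_union_right (mul_mem this hb))

/-- orbit-stabilizer for conjugation -/
theorem relIndex_cent (H : Subgroup G) (x : G) :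
    (centralizer {x}).relIndex H = {y | ∃ g ∈ H, cj g x = y}.ncard := by
  have e1 : (centralizer {x}).subgroupOf H =
      (MulAction.stabilizer (H.map (ConjAct.toConjAct (G := G)).toMonoidHom) x).comap
        ((ConjAct.toConjAct (G := G)).toMonoidHom.subgroupMap H) := by
    ext g
    simp only [mem_subgroupOf, mem_centralizer_singleton_iff, mem_comap, MulAction.mem_stabilizer_iff]
    exact cj_eq_self_iff.symm
  rw [relIndex, e1, index_comap_of_surjective _ (MonoidHom.subgroupMap_surjective _ _),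
    MulAction.index_stabilizer]
  congr 1
  ext y
  constructor
  · rintro ⟨⟨_, g, hg, rfl⟩, rfl⟩; exact ⟨g, hg, rfl⟩
  · rintro ⟨g, hg, rfl⟩; exact ⟨⟨_, g, hg, rfl⟩, rfl⟩

theorem EP.index (hT : TS D) (hc : Conn D) (hB : ∀ b ∈ B, ∀ d ∈ D, Commute b d) (h : EP D B) {x : G}
    (hx : x ∈ D) : (closure (insert x (perp D x) ∪ B)).relIndex (closure (D ∪ B)) = D.ncard := by
  have : (closure (insert x (perp D x) ∪ B)).subgroupOf (closure (D ∪ B)) =
      (centralizer {x}).subgroupOf (closure (D ∪ B)) := by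
    ext g
    simp only [mem_subgroupOf, mem_centralizer_singleton_iff]
    exact ⟨commute_KB hB hx, h x hx g g.2⟩
  rw [relIndex, this, ← relIndex, relIndex_cent]
  congr 1
  ext y
  constructor
  · rintro ⟨g, hg, rfl⟩; exact (cj_KB hT hB hg x hx).1
  · intro hy
    obtain ⟨g, hg, e⟩ := hc x hx y hy
    exact ⟨g, closure_mono Set.subset_union_left hg, e⟩

theorem CB.index (hB : ∀ b ∈ B, ∀ d ∈ D, Commute b d) (h : CB D B) :
    (closure B).relIndex (closure (D ∪ B)) = ord D := by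
  have h1 : closure B ≤ centralizer D := (closure_le _).mpr fun b hb d hd => (hB b hb d hd).symm
  have : (closure B).subgroupOf (closure (D ∪ B)) = (centralizer D).subgroupOf (closure (D ∪ B)) := by
    ext g
    simp only [mem_subgroupOf]
    exact ⟨fun k => h1 k, fun k => h g g.2 fun d hd => (k d hd).symm⟩
  have h2 : ((centralizer D).subgroupOf (closure (D ∪ B))).Normal := by
    rw [← this]
    refine ⟨fun n hn g => ?_⟩
    obtain ⟨a, ha, b, hb, e⟩ := exists_split hB g.2
    have k : cj b n ∈ closure B := cj_mem hb hn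
    show cj g.1 n ∈ closure B
    rwa [e, cj_mul, cj_of_commute (commute_closure (fun d hd => h1 k d hd) ha)]
  have h3 : (closure D).subgroupOf (closure (D ∪ B)) ⊔ (centralizer D).subgroupOf
      (closure (D ∪ B)) = ⊤ := by
    rw [eq_top_iff]
    rintro g -
    obtain ⟨a, ha, b, hb, e⟩ := exists_split hB g.2
    rw [show g = ⟨a, closure_mono Set.subset_union_left ha⟩ *
      ⟨b, closure_mono Set.subset_union_right hb⟩ from Subtype.ext e]
    exact mul_mem (mem_sup_left ha) (mem_sup_right (h1 hb))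
  rw [relIndex, this, ← relIndex_top_right, ← h3, relIndex_sup_right,
    relIndex_subgroupOf (closure_mono Set.subset_union_left), ord]

end Cfsg.Agent.Fis
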