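import Cfsg.Agent.Lib.Fis.UApi

set_option autoImplicit false

/-! # Fischer's theorem: the Heisenberg step -/

namespace Cfsg.Agent.Fis

open Subgroup Cfsg.Agent.Lib.Fischer Cfsg.Agent.Lib.Invol Cfsg.Agent.Spor Matrix Module
open Cfsg.Agent.Lib.GL.Herm

variable {Γ : Type*} [Group Γ] {n : ℕ}

/-- elements of the Heisenberg group -/
def heisT (e m : Fin n → F4) (γ : F4) : Matrix (Fin n) (Fin n) F4 :=
  1 + vecMulVec m (fun i => fr (e i)) + vecMulVec e (fun i => fr (m i)) +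
    vecMulVec (γ • e) (fun i => fr (e i))

theorem vecMulVec_fr (x z y : Fin n → F4) :
    vecMulVec x (fun i => fr (z i)) *ᵥ y = hf y z • x := by
  rw [vecMulVec_mulVec, stdHerm_apply]
  ext i
  simp [dotProduct, mul_comm]

theorem heisT_mulVec (e m y : Fin n → F4) (γ : F4) :
    heisT e m γ *ᵥ y = y + hf y e • m + (hf y m + γ * hf y e) • e := by
  rw [heisT, add_mulVec, add_mulVec, add_mulVec, one_mulVec, vecMulVec_fr, vecMulVec_fr,
    vecMulVec_fr]
  module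

theorem heisT_mul {e m m' : Fin n → F4} (he : hf e e = 0) (hm : hf m e = 0) (hm' : hf m' e = 0)
    (γ γ' : F4) : heisT e m γ * heisT e m' γ' = heisT e (m + m') (γ + γ' + hf m' m) :=
  mat_ext fun y => by
    rw [← mulVec_mulVec, heisT_mulVec, heisT_mulVec, heisT_mulVec]
    simp only [map_add, map_smul, LinearMap.add_apply, LinearMap.smul_apply, smul_eq_mul, he, hm',
      hf_comm.mp hm, mul_zero, add_zero]
    module

theorem heisT_zero (e : Fin n → F4) : heisT e 0 0 = 1 := mat_ext fun y => by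
  simp [heisT_mulVec]

theorem heisT_one (e : Fin n → F4) : heisT e 0 1 = qT e 1 := mat_ext fun y => by
  simp [heisT_mulVec, qT_mulVec]

theorem heisT_conj {A : Matrix (Fin n) (Fin n) F4} (hA : Isom A) (e m : Fin n → F4) (γ : F4) :
    A * heisT e m γ = heisT (A *ᵥ e) (A *ᵥ m) γ * A := mat_ext fun y => by
  rw [← mulVec_mulVec, ← mulVec_mulVec, heisT_mulVec, heisT_mulVec, hA, hA, mulVec_add, mulVec_add,
    mulVec_smul, mulVec_smul]

theorem heisT_std {e m : Fin n → F4} (hm : hf m e = 0) (hmm : hf m m = 0) :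
    qT m 1 * qT (m + e) 1 = heisT e m 1 := mat_ext fun y => by
  rw [← mulVec_mulVec, heisT_mulVec, qT_mulVec, qT_mulVec]
  simp only [map_add, map_smul, LinearMap.add_apply, LinearMap.smul_apply, smul_eq_mul, hmm,
    hf_comm.mp hm, mul_zero, add_zero, one_mul]
  have := vadd_self (hf y m • m)
  linear_combination (norm := module) this

theorem cj_mem_closure {S : Set Γ} {H : Subgroup Γ} {g x : Γ} (h : ∀ s ∈ S, cj g s ∈ H)
    (hx : x ∈ closure S) : cj g x ∈ H := by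
  have : closure S ≤ H.comap (MulAut.conj g).toMonoidHom := (closure_le _).mpr h
  exact this hx

theorem A_le_L {u : Γ} {Z B : Set Γ} : closure (insert u B) ≤ closure (insert u Z ∪ B) :=
  Subgroup.closure_mono (Set.insert_subset (Or.inl (Or.inl rfl)) Set.subset_union_right)

theorem Act.inv {E : Set Γ} {v : Γ → Fin n → F4} {g : Γ} {M M' : Matrix (Fin n) (Fin n) F4}
    (h : Act E v g M) (hM : M' * M = 1) (hg : ∀ e ∈ E, cj g⁻¹ e ∈ E) : Act E v g⁻¹ M' :=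
  fun e he => by
    obtain ⟨-, l, hl, k⟩ := h _ (hg e he)
    refine ⟨hg e he, l⁻¹, inv_ne_zero hl, ?_⟩
    rw [cj_cj_inv] at k
    have := congrArg (M' *ᵥ ·) k
    simp only [mulVec_mulVec, hM, one_mulVec, mulVec_smul] at this
    rw [this, smul_smul, inv_mul_cancel₀ hl, one_smul]

/-- the data of the Heisenberg step -/
structure HS (E : Set Γ) (v : Γ → Fin n → F4) (u b ζ : Γ) (B : Set Γ) : Prop where
  um : UMod E v
  hu : u ∈ E
  hb : b ∈ E
  hub : ¬ Commute u b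
  hB : ∀ β ∈ B, ∀ d ∈ E, Commute β d
  hζ : ∀ g, Commute ζ g
  hc : ∀ g ∈ closure (E ∪ B), (∀ d ∈ E, Commute g d) → g ∈ closure B ∨ ζ * g ∈ closure B
  he : ∀ S ⊆ E, (∀ p ∈ S, ∀ q ∈ S, Commute p q) → ζ ∉ closure (S ∪ B)

/-- `g` acts as an element of the Heisenberg group over `m` -/
structure HRel (E : Set Γ) (v : Γ → Fin n → F4) (u b g : Γ) (m : Fin n → F4) : Prop where
  mem : g ∈ KK E u
  me : hf m (v u) = 0
  mb : hf m (v b) = 0
  act : ∃ γ, Act E v g (heisT (v u) m γ)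

/-- the points of the line spanned by `m` and `u` -/
def HPt (E : Set Γ) (v : Γ → Fin n → F4) (u : Γ) (m : Fin n → F4) : Set Γ :=
  {p | p ∈ E ∧ ∃ α β : F4, v p = α • m + β • v u}

/-- the good lifts -/
structure HS2 (E : Set Γ) (v : Γ → Fin n → F4) (u b : Γ) (B : Set Γ) (g : Γ) (m : Fin n → F4) :
    Prop extends HRel E v u b g m where
  mm : hf m m = 0
  cl : g ∈ closure (HPt E v u m ∪ B)

namespace HS
variable {E : Set Γ} {v : Γ → Fin n → F4} {u b ζ : Γ} {B : Set Γ} (h : HS E v u b ζ B)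
include h

theorem ee : hf (v u) (v u) = 0 := h.um.iso h.hu

theorem eb : hf (v u) (v b) ≠ 0 := fun k => h.hub ((h.um.pol u h.hu b h.hb).mp k)

theorem mul {g g' : Γ} {m m' : Fin n → F4} (k : HRel E v u b g m) (k' : HRel E v u b g' m') :
    HRel E v u b (g * g') (m + m') := by
  obtain ⟨γ, a⟩ := k.act
  obtain ⟨γ', a'⟩ := k'.act
  exact ⟨mul_mem k.mem k'.mem, by simp [k.me, k'.me], by simp [k.mb, k'.mb], _,
    heisT_mul h.ee k.me k'.me γ γ' ▸ a.mul a'⟩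

theorem inv {g : Γ} {m : Fin n → F4} (k : HRel E v u b g m) : HRel E v u b g⁻¹ m := by
  obtain ⟨γ, a⟩ := k.act
  refine ⟨inv_mem k.mem, k.me, k.mb, γ + hf m m, a.inv ?_
    (h.um.ts.cj_closure subset_rfl (KK_le h.hu (inv_mem k.mem)))⟩
  rw [heisT_mul h.ee k.me k.me, vadd_self, ← heisT_zero (v u)]
  congr 1
  generalize hf m m = s
  clear a
  revert s γ; decide

theorem rel_u : HRel E v u b u 0 :=
  ⟨self_mem_KK, by simp, by simp, 1, heisT_one (v u) ▸ h.um.act h.hu⟩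

theorem comm_A {g a : Γ} (hg : g ∈ KK E u) (ha : a ∈ closure (insert u B)) : Commute a g := by
  refine commute_closure ?_ ha
  rintro s (rfl | hs)
  · exact (commute_KK hg).symm
  · exact (commute_closure (fun d hd => (h.hB s hs d hd).symm) (KK_le h.hu hg)).symm

theorem zero {g : Γ} (k : HRel E v u b g 0) :
    g ∈ closure (insert u B) ∨ ζ * g ∈ closure (insert u B) := by
  have le : closure B ≤ closure (insert u B) := closure_mono (Set.subset_insert _ _)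
  have key : ∀ g ∈ KK E u, Act E v g 1 → g ∈ closure (insert u B) ∨ ζ * g ∈ closure (insert u B) :=
    fun g hg a => (h.hc g (closure_mono Set.subset_union_left (KK_le h.hu hg))
      fun d hd => h.um.cent a hd).imp (@le _) (@le _)
  obtain ⟨γ, a⟩ := k.act
  obtain ⟨k1, l, -, k2⟩ := a b h.hb
  have k3 : hf (heisT (v u) 0 γ *ᵥ v b) (heisT (v u) 0 γ *ᵥ v b) = 0 := by
    rw [k2]; simp [h.um.iso k1]
  obtain rfl | rfl : γ = 0 ∨ γ = 1 := by
    have := h.eb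
    simp only [heisT_mulVec, map_add, map_smul, map_smulₛₗ, LinearMap.add_apply,
      LinearMap.smul_apply, smul_eq_mul, h.ee, h.um.iso h.hb, smul_zero, add_zero, map_zero,
      zero_add, mul_zero, hf_swap (v u) (v b)] at k3
    generalize hf (v u) (v b) = s at this k3
    clear a k2
    revert s γ; decide
  · exact key g k.mem (heisT_zero (v u) ▸ a)
  have a' := (heisT_one (v u) ▸ h.um.act h.hu : Act E v u (heisT (v u) 0 1)).mul a
  rw [heisT_mul h.ee (by simp) (by simp), add_zero, map_zero, add_zero, CharTwo.add_self_eq_zero,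
    heisT_zero] at a'
  have hu : u ∈ closure (insert u B) := subset_closure (Set.mem_insert _ _)
  refine (key _ (mul_mem self_mem_KK k.mem) a').imp (fun t => ?_) fun t => ?_
  · exact (mul_mem_cancel_left hu).mp t
  · rw [← mul_assoc, (h.hζ u).eq, mul_assoc] at t
    exact (mul_mem_cancel_left hu).mp t

theorem reg {g : Γ} {m : Fin n → F4} (k : HRel E v u b g m) (hg : cj g b = b) : m = 0 := by
  obtain ⟨γ, a⟩ := k.act
  obtain ⟨-, l, -, k2⟩ := a b h.hb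
  rw [hg, heisT_mulVec, hf_comm.mp k.mb, zero_add] at k2
  have s0 : hf (v b) (v u) ≠ 0 := fun t => h.eb (hf_comm.mp t)
  have k3 := congrArg (fun y => hf y (v u)) k2
  have k4 := congrArg (fun y => hf y (v b)) k2
  simp only [map_add, map_smul, LinearMap.add_apply, LinearMap.smul_apply, smul_eq_mul, k.me, k.mb,
    h.ee, h.um.iso h.hb, mul_zero, add_zero, zero_add, mul_eq_zero, s0, h.eb, or_false] at k3 k4
  rw [eq_comm, mul_eq_right₀ s0] at k3
  rw [k3, k4, zero_mul, zero_smul, add_zero, one_smul, add_eq_left] at k2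
  exact (smul_eq_zero.mp k2).resolve_left s0

theorem u_mem (m : Fin n → F4) : u ∈ HPt E v u m := ⟨h.hu, 0, 1, by simp⟩

theorem A_le (m : Fin n → F4) : closure (insert u B) ≤ closure (HPt E v u m ∪ B) :=
  closure_mono (Set.insert_subset (Or.inl (h.u_mem m)) Set.subset_union_right)

theorem uniq {g g' g'' : Γ} {m m' : Fin n → F4} (k : HS2 E v u b B g m) (k' : HS2 E v u b B g' m')
    (k'' : HS2 E v u b B g'' (m + m')) (hm : hf m m' = 0) :
    g''⁻¹ * (g * g') ∈ closure (insert u B) := by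
  have r := h.mul (h.inv k''.toHRel) (h.mul k.toHRel k'.toHRel)
  rw [vadd_self] at r
  refine (h.zero r).resolve_right fun t => ?_
  let S := {p | p ∈ E ∧ ∃ α α' β : F4, v p = α • m + α' • m' + β • v u}
  refine h.he S (fun _ t => t.1) ?_ ?_
  · rintro p ⟨hp, α, α', β, e1⟩ q ⟨hq, δ, δ', ε, e2⟩
    rw [← h.um.pol p hp q hq, e1, e2]
    simp [k.mm, k'.mm, k.me, k'.me, hm, hf_comm.mp hm, hf_comm.mp k.me, hf_comm.mp k'.me, h.ee]
  have i1 : closure (HPt E v u m ∪ B) ≤ closure (S ∪ B) := closure_mono (Set.union_subset_union_left _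
    fun p ⟨hp, α, β, e⟩ => ⟨hp, α, 0, β, by simp [e]⟩)
  have i2 : closure (HPt E v u m' ∪ B) ≤ closure (S ∪ B) := closure_mono (Set.union_subset_union_left _
    fun p ⟨hp, α, β, e⟩ => ⟨hp, 0, α, β, by simp [e]⟩)
  have i3 : closure (HPt E v u (m + m') ∪ B) ≤ closure (S ∪ B) := closure_mono
    (Set.union_subset_union_left _ fun p ⟨hp, α, β, e⟩ => ⟨hp, α, α, β, by simp [e]⟩)
  exact (mul_mem_cancel_right (mul_mem (inv_mem (i3 k''.cl)) (mul_mem (i1 k.cl) (i2 k'.cl)))).mp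
    (i1 (h.A_le m t))

theorem s2_one : HS2 E v u b B 1 0 :=
  ⟨⟨one_mem _, by simp, by simp, 0, heisT_zero (v u) ▸ Act.one⟩, by simp, one_mem _⟩

theorem s2_u : HS2 E v u b B u 0 :=
  ⟨h.rel_u, by simp, subset_closure (Or.inl (h.u_mem 0))⟩

theorem s2_inv {g : Γ} {m : Fin n → F4} (k : HS2 E v u b B g m) : HS2 E v u b B g⁻¹ m :=
  ⟨h.inv k.toHRel, k.mm, inv_mem k.cl⟩

theorem uniq0 {g g' : Γ} {m : Fin n → F4} (k : HS2 E v u b B g m) (k' : HS2 E v u b B g' m) :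
    g * g' ∈ closure (insert u B) := by
  have := h.uniq k k' (vadd_self m ▸ h.s2_one) k.mm
  rwa [inv_one, one_mul] at this

theorem std {m : Fin n → F4} (h1 : hf m (v u) = 0) (h2 : hf m (v b) = 0) (h3 : hf m m = 0)
    {w p : Γ} (hw : w ∈ E) (hp : p ∈ E) {l l' : F4} (hl : l ≠ 0) (hl' : l' ≠ 0) (e1 : v w = l • m)
    (e2 : v p = l' • (m + v u)) : HS2 E v u b B (w * p) m := by
  have a := (h.um.act hw).mul (h.um.act hp)
  rw [e1, e2, qT_smul _ _ hl, qT_smul _ _ hl', heisT_std h1 h3] at a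
  refine ⟨⟨mul_mem (mem_KK hw ?_) (mem_KK hp ?_), h1, h2, 1, a⟩, h3, mul_mem
    (subset_closure (Or.inl ⟨hw, l, 0, by simp [e1]⟩))
    (subset_closure (Or.inl ⟨hp, l', l', by simp [e2]⟩))⟩
  · rw [← h.um.pol u h.hu w hw, e1]; simp [hf_comm.mp h1]
  · rw [← h.um.pol u h.hu p hp, e2]; simp [hf_comm.mp h1, h.ee]

theorem exists_s2 {m : Fin n → F4} (h1 : hf m (v u) = 0) (h2 : hf m (v b) = 0) (h3 : hf m m = 0) :
    ∃ g, HS2 E v u b B g m := by
  by_cases h0 : m = 0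
  · exact ⟨1, h0 ▸ h.s2_one⟩
  obtain ⟨w, hw, l, hl, e1⟩ := h.um.surj' h0 h3
  obtain ⟨p, hp, l', hl', e2⟩ := h.um.surj' (y := m + v u)
    (fun t => h.eb (by simpa [h2] using congrArg (fun y => hf y (v b)) t))
    (by simp [h1, h3, hf_comm.mp h1, h.ee])
  exact ⟨_, h.std h1 h2 h3 hw hp hl hl' e1 e2⟩

theorem cj_B {g β : Γ} (hg : g ∈ KK E u) (hβ : β ∈ B) : cj g β = β :=
  cj_of_commute (h.comm_A hg (subset_closure (Set.mem_insert_of_mem _ hβ))).symm

theorem swap {g g' : Γ} {m m' : Fin n → F4} (k : HRel E v u b g m) (k' : HS2 E v u b B g' m') :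
    HS2 E v u b B (cj g g') m' := by
  have r := h.mul (h.mul k k'.toHRel) (h.inv k)
  rw [add_comm m, add_assoc, vadd_self, add_zero] at r
  refine ⟨r, k'.mm, cj_mem_closure ?_ k'.cl⟩
  rintro s (⟨hs, α, β, e⟩ | hs)
  · obtain ⟨γ, a⟩ := k.act
    obtain ⟨k1, l, hl, k2⟩ := a s hs
    refine subset_closure (Or.inl ⟨k1, l⁻¹ * α, l⁻¹ * (β + α * hf m' m), ?_⟩)
    rw [← inv_smul_eq_iff₀ hl] at k2
    rw [← k2, heisT_mulVec, e]
    simp only [map_add, map_smul, LinearMap.add_apply, LinearMap.smul_apply, smul_eq_mul, k'.me,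
      h.ee, hf_comm.mp k.me, mul_zero, add_zero, zero_smul]
    module
  · rw [h.cj_B k.mem hs]; exact subset_closure (Or.inr hs)

theorem cjZ {w g : Γ} {m : Fin n → F4} (hw : w ∈ perp E u ∩ perp E b) (k : HS2 E v u b B g m) :
    HS2 E v u b B (cj w g) (qT (v w) 1 *ᵥ m) := by
  have w0 := h.um.iso hw.1.1
  have w1 : hf (v u) (v w) = 0 := (h.um.pol u h.hu w hw.1.1).mpr hw.1.2.2
  have w2 : hf (v b) (v w) = 0 := (h.um.pol b h.hb w hw.1.1).mpr hw.2.2.2
  have hI : Isom (qT (v w) 1) := isom_qT (by rw [w0]; rfl)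
  have e1 : qT (v w) 1 *ᵥ v u = v u := by simp [qT_mulVec, w1]
  have e2 : qT (v w) 1 *ᵥ v b = v b := by simp [qT_mulVec, w2]
  have wK : w ∈ KK E u := mem_KK hw.1.1 hw.1.2.2
  obtain ⟨γ, a⟩ := k.act
  have a' := ((h.um.act hw.1.1).mul a).mul (h.um.act hw.1.1)
  rw [heisT_conj hI, mul_assoc (heisT _ _ _), qT_mul, w0, e1,
    show (1 + 1 + 1 * 1 * 0 : F4) = 0 from rfl, qT_zero, mul_one] at a'
  refine ⟨⟨cj_mem wK k.mem, by rw [← e1, hI, k.me], by rw [← e2, hI, k.mb], γ, ?_⟩,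
    by rw [hI, k.mm], cj_mem_closure ?_ k.cl⟩
  · rwa [cj_def, inv_eq h.um.ts.set hw.1.1]
  rintro s (⟨hs, α, β, e⟩ | hs)
  · obtain ⟨k1, l, hl, k2⟩ := h.um.act hw.1.1 s hs
    refine subset_closure (Or.inl ⟨k1, l⁻¹ * α, l⁻¹ * β, ?_⟩)
    rw [← inv_smul_eq_iff₀ hl] at k2
    rw [← k2, e, mulVec_add, mulVec_smul, mulVec_smul, e1]
    module
  · rw [h.cj_B wK hs]; exact subset_closure (Or.inr hs)

theorem exists_Z {m : Fin n → F4} (h0 : m ≠ 0) (h1 : hf m (v u) = 0) (h2 : hf m (v b) = 0)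
    (h3 : hf m m = 0) : ∃ w ∈ perp E u ∩ perp E b, ∃ l : F4, l ≠ 0 ∧ v w = l • m := by
  obtain ⟨w, hw, l, hl, e1⟩ := h.um.surj' h0 h3
  have c1 : Commute w u := by rw [← h.um.pol w hw u h.hu, e1]; simp [h1]
  have c2 : Commute w b := by rw [← h.um.pol w hw b h.hb, e1]; simp [h2]
  exact ⟨w, ⟨⟨hw, fun t => h.hub (t ▸ c2), c1.symm⟩, hw, fun t => h.hub (t ▸ c1.symm), c2.symm⟩, l,
    hl, e1⟩

theorem s2_mul {g g' : Γ} {m m' : Fin n → F4} (k : HS2 E v u b B g m) (k' : HS2 E v u b B g' m')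
    (ht : tr (hf m' m) = 0) : HS2 E v u b B (g * g') (m + m') := by
  have r := h.mul k.toHRel k'.toHRel
  have mm : hf (m + m') (m + m') = 0 := by
    simpa [k.mm, k'.mm, tr, hf_swap m' m, add_comm] using ht
  refine ⟨r, mm, ?_⟩
  obtain t | t : hf m m' = 0 ∨ hf m m' = 1 := by
    rw [hf_swap m m'] at ht
    generalize hf m m' = s at ht
    revert s; decide
  · obtain ⟨g'', k''⟩ := h.exists_s2 r.me r.mb mm
    exact (mul_mem_cancel_left (inv_mem k''.cl)).mp (h.A_le _ (h.uniq k k' k'' t))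
  obtain ⟨w, hw, l, hl, e1⟩ := h.exists_Z (fun e => by simp [e] at t) k.me k.mb k.mm
  obtain ⟨γ, a⟩ := k'.act
  obtain ⟨k1, l', hl', k2⟩ := a w hw.1.1
  have s := h.std k.me k.mb k.mm hw.1.1 k1 hl (mul_ne_zero (inv_ne_zero hl') hl) e1 (by
    rw [← inv_smul_eq_iff₀ hl'] at k2
    rw [← k2, heisT_mulVec, e1]
    simp only [map_smul, LinearMap.smul_apply, smul_eq_mul, k.me, t, mul_zero, add_zero, zero_smul]
    module)
  have a1 := h.uniq0 (h.s2_inv s) k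
  have a2 := (h.cjZ hw k').cl
  rw [e1, qT_smul _ _ hl, qT_mulVec, hf_swap m m', t, map_one, mul_one, one_smul, add_comm m'] at a2
  have e : g * g' = cj w g' * ((w * cj g' w)⁻¹ * g) := by
    calc g * g' = w * cj g' w * (((w * cj g' w)⁻¹ * g) * g') := by group
      _ = _ := by
        rw [(h.comm_A k'.mem a1).eq, ← mul_assoc]
        congr 1
        rw [cj_def, cj_def, inv_eq h.um.ts.set hw.1.1]; group
  rw [e]
  exact mul_mem a2 (h.A_le _ a1)

theorem three {r q1 q2 : Γ} {m m1 m2 : Fin n → F4} (hr : HS2 E v u b B r m)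
    (h1 : HS2 E v u b B q1 m1) (h2 : HS2 E v u b B q2 m2) :
    ∃ s1 s2 n1 n2, HS2 E v u b B s1 n1 ∧ HS2 E v u b B s2 n2 ∧ r * (q1 * q2) = s1 * s2 := by
  by_cases t1 : tr (hf m1 m) = 0
  · exact ⟨_, _, _, _, h.s2_mul hr h1 t1, h2, (mul_assoc _ _ _).symm⟩
  by_cases t2 : tr (hf m2 m1) = 0
  · exact ⟨_, _, _, _, hr, h.s2_mul h1 h2 t2, rfl⟩
  by_cases t3 : tr (hf m2 m) = 0
  · exact ⟨_, _, _, _, h.swap hr.toHRel h1, h.s2_mul hr h2 t3, by rw [cj_def]; group⟩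
  obtain ⟨m4, k1, k2, k3, k4, k5, k6⟩ : ∃ m4, hf m4 (v u) = 0 ∧ hf m4 (v b) = 0 ∧ hf m4 m4 = 0 ∧
      tr (hf m4 m) = 0 ∧ tr (hf m4 m1) = 0 ∧ tr (hf m4 m2) ≠ 0 := by
    have key : ∀ s t u : F4, tr s ≠ 0 → tr t ≠ 0 → tr u ≠ 0 → ∃ α β γ : F4,
        fr α * (β * s + γ * u) + fr β * (α * fr s + γ * t) + fr γ * (α * fr u + β * fr t) = 0 ∧
        tr (β * s + γ * u) = 0 ∧ tr (α * fr s + γ * t) = 0 ∧ tr (α * fr u + β * fr t) ≠ 0 := by
      decide
    obtain ⟨α, β, γ, l1, l2, l3, l4⟩ := key _ _ _ t1 t2 t3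
    refine ⟨α • m + β • m1 + γ • m2, by simp [hr.me, h1.me, h2.me], by simp [hr.mb, h1.mb, h2.mb],
      ?_, ?_, ?_, ?_⟩
    all_goals
      simp only [map_add, map_smul, map_smulₛₗ, LinearMap.add_apply, LinearMap.smul_apply,
        smul_eq_mul, hr.mm, h1.mm, h2.mm, hf_swap m1 m, hf_swap m2 m, hf_swap m2 m1, mul_zero,
        zero_add, add_zero]
      assumption
  obtain ⟨s, hs⟩ := h.exists_s2 k1 k2 k3
  have sym : ∀ x y : Fin n → F4, tr (hf x y) = tr (hf y x) := fun x y => by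
    rw [hf_swap x y, tr, tr, fr_fr, add_comm]
  refine ⟨_, _, _, _, h.s2_mul hr hs k4,
    h.s2_mul (h.s2_mul (h.s2_inv hs) h1 (by rwa [sym])) h2 ?_, by group⟩
  rw [map_add]
  rw [sym] at k6
  generalize hf m2 m4 = s at k6
  generalize hf m2 m1 = t at t2
  revert s t; decide

theorem NF {q : Γ} (hq : q ∈ closure {g | ∃ m, HS2 E v u b B g m}) :
    ∃ s1 s2 n1 n2, HS2 E v u b B s1 n1 ∧ HS2 E v u b B s2 n2 ∧ q = s1 * s2 := by
  refine closure_induction_left (p := fun q _ => ∃ s1 s2 n1 n2, HS2 E v u b B s1 n1 ∧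
    HS2 E v u b B s2 n2 ∧ q = s1 * s2) ⟨1, 1, 0, 0, h.s2_one, h.s2_one, by simp⟩ ?_ ?_ hq
  all_goals rintro r ⟨m, hr⟩ _ _ ⟨s1, s2, n1, n2, h1, h2, rfl⟩
  exacts [h.three hr h1 h2, h.three (h.s2_inv hr) h1 h2]

theorem split {g : Γ} (hg : g ∈ closure (insert u (perp E u) ∪ B)) :
    ∃ q ∈ closure {g | ∃ m, HS2 E v u b B g m},
      ∃ l ∈ closure (insert u (perp E u ∩ perp E b) ∪ B), g = q * l := by
  set Q := closure {g | ∃ m, HS2 E v u b B g m}
  set L := closure (insert u (perp E u ∩ perp E b) ∪ B)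
  have QK : Q ≤ KK E u := (closure_le _).mpr fun g ⟨m, k⟩ => k.mem
  have hZ : ∀ w ∈ perp E u ∩ perp E b, ∀ q ∈ Q, ∀ l ∈ L, ∃ q' ∈ Q, ∃ l' ∈ L,
      w * (q * l) = q' * l' := fun w hw q hq l hl =>
    ⟨cj w q, cj_mem_closure (S := {g | ∃ m, HS2 E v u b B g m})
      (fun s ⟨m, k⟩ => Subgroup.subset_closure ⟨_, h.cjZ hw k⟩) hq, w * l,
      mul_mem (subset_closure (Or.inl (Or.inr hw))) hl, by rw [cj_def]; group⟩
  have hA : ∀ a ∈ closure (insert u B), ∀ q ∈ Q, ∀ l ∈ L, ∃ q' ∈ Q, ∃ l' ∈ L,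
      a * (q * l) = q' * l' := fun a ha q hq l hl =>
    ⟨q, hq, a * l, mul_mem (A_le_L ha) hl, by
      rw [← mul_assoc, (h.comm_A (QK hq) ha).eq, mul_assoc]⟩
  have hP : ∀ p ∈ perp E u, ∀ q ∈ Q, ∀ l ∈ L, ∃ q' ∈ Q, ∃ l' ∈ L,
      p * (q * l) = q' * l' := fun p hp q hq l hl => by
    by_cases c : Commute b p
    · exact hZ p ⟨hp, hp.1, fun t => h.hub (t ▸ hp.2.2), c⟩ q hq l hl
    have p0 := h.um.iso hp.1
    have p1 : hf (v p) (v u) = 0 := (h.um.pol p hp.1 u h.hu).mpr hp.2.2.symm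
    have p2 : hf (v p) (v b) ≠ 0 := fun t => c ((h.um.pol p hp.1 b h.hb).mp t).symm
    obtain ⟨c, hc, e⟩ : ∃ c : F4, c ≠ 0 ∧ c * hf (v p) (v b) = hf (v u) (v b) :=
      ⟨_, div_ne_zero h.eb p2, div_mul_cancel₀ _ p2⟩
    have m1 : hf (c • v p + v u) (v u) = 0 := by simp [p1, h.ee]
    have m2 : hf (c • v p + v u) (v b) = 0 := by simp [e, CharTwo.add_self_eq_zero]
    have m3 : hf (c • v p + v u) (c • v p + v u) = 0 := by simp [p0, p1, h.ee, hf_comm.mp p1]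
    obtain ⟨w, hw, l', hl', e1⟩ := h.exists_Z (fun t => hp.2.1 (h.um.inj u h.hu p hp.1 c (by
      rw [← add_zero (c • v p), ← t, ← add_assoc, vadd_self, zero_add])).symm) m1 m2 m3
    have s := h.std m1 m2 m3 hw.1.1 hp.1 hl' (inv_ne_zero hc) e1 (by
      rw [add_assoc, vadd_self, add_zero, smul_smul, inv_mul_cancel₀ hc, one_smul])
    obtain ⟨q', hq', l'', hl'', e2⟩ := hZ w hw _ (mul_mem (subset_closure ⟨_, s⟩) hq) l hl
    refine ⟨q', hq', l'', hl'', ?_⟩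
    rw [← e2, ← mul_assoc, ← mul_assoc, ← mul_assoc, ← mul_assoc, h.um.ts.sq hw.1.1, one_mul]
  refine closure_induction_left (p := fun g _ => ∃ q ∈ Q, ∃ l ∈ L, g = q * l)
    ⟨1, one_mem _, 1, one_mem _, by simp⟩ ?_ ?_ hg
  · rintro s ((rfl | hs) | hs) _ _ ⟨q, hq, l, hl, rfl⟩
    · exact hA _ (subset_closure (Or.inl rfl)) q hq l hl
    · exact hP _ hs q hq l hl
    · exact hA _ (subset_closure (Or.inr hs)) q hq l hl
  · rintro s ((rfl | hs) | hs) _ _ ⟨q, hq, l, hl, rfl⟩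
    · exact hA _ (inv_mem (subset_closure (Or.inl rfl))) q hq l hl
    · rw [inv_eq h.um.ts.set hs.1]; exact hP _ hs q hq l hl
    · exact hA _ (inv_mem (subset_closure (Or.inr hs))) q hq l hl

theorem cj_L {l : Γ} (hl : l ∈ closure (insert u (perp E u ∩ perp E b) ∪ B)) :
    cj l b = b ∨ cj l b = cj u b := by
  have key : ∀ s g, Commute s u → Commute s b → cj g b = b ∨ cj g b = cj u b →
      cj (s * g) b = b ∨ cj (s * g) b = cj u b := fun s g c1 c2 k => by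
    rw [cj_mul]
    exact k.imp (fun t => by rw [t, cj_of_commute c2])
      fun t => by rw [t, cj_of_commute (commute_cj_of c1 c2)]
  have ku : ∀ g, cj g b = b ∨ cj g b = cj u b → cj (u * g) b = b ∨ cj (u * g) b = cj u b :=
    fun g k => by
      rw [cj_mul]
      exact k.symm.imp (fun t => by rw [t, cj_cj h.um.ts.set h.hu]) fun t => by rw [t]
  refine closure_induction_left (p := fun l _ => cj l b = b ∨ cj l b = cj u b)
    (Or.inl (cj_one b)) ?_ ?_ hl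
  · rintro s ((rfl | hs) | hs) g _ k
    exacts [ku g k, key s g hs.1.2.2.symm hs.2.2.2.symm k,
      key s g (h.hB s hs u h.hu) (h.hB s hs b h.hb) k]
  · rintro s ((rfl | hs) | hs) g _ k
    exacts [(inv_eq h.um.ts.set h.hu).symm ▸ ku g k,
      key _ g hs.1.2.2.symm.inv_left hs.2.2.2.symm.inv_left k,
      key _ g (h.hB s hs u h.hu).inv_left (h.hB s hs b h.hb).inv_left k]

end HS

theorem heis_step {Γ : Type*} [Group Γ] {n : ℕ} {E : Set Γ} {v : Γ → Fin n → F4} (h : UMod E v)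
    {u b ζ : Γ} (hu : u ∈ E) (hb : b ∈ E) (hub : ¬ Commute u b) {B : Set Γ}
    (hB : ∀ β ∈ B, ∀ d ∈ E, Commute β d) (hζ : ∀ g, Commute ζ g) (_hζ2 : ζ * ζ = 1)
    (hc : ∀ g ∈ closure (E ∪ B), (∀ d ∈ E, Commute g d) → g ∈ closure B ∨ ζ * g ∈ closure B)
    (he : ∀ S ⊆ E, (∀ p ∈ S, ∀ q ∈ S, Commute p q) → ζ ∉ closure (S ∪ B))
    (hz : ζ ∉ closure (insert u (perp E u ∩ perp E b) ∪ B)) :
    ζ ∉ closure (insert u (perp E u) ∪ B) := fun k => by
  have H : HS E v u b ζ B := ⟨h, hu, hb, hub, hB, hζ, hc, he⟩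
  obtain ⟨q, hq, l, hl, e⟩ := H.split k
  obtain ⟨s1, s2, n1, n2, h1, h2, rfl⟩ := H.NF hq
  have r := H.mul h1.toHRel h2.toHRel
  have e1 : cj (s1 * s2) b = cj l⁻¹ b := by
    rw [show s1 * s2 = l⁻¹ * ζ by rw [← (hζ _).eq, e, mul_inv_cancel_right], cj_mul,
      cj_of_commute (hζ b)]
  have e2 : n1 + n2 = 0 := by
    rcases H.cj_L (inv_mem hl) with t | t
    · exact H.reg r (e1.trans t)
    · simpa using H.reg (H.mul H.rel_u r) (by rw [cj_mul, e1, t, cj_cj h.ts.set hu])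
  obtain rfl : n1 = n2 := by rw [← add_zero n1, ← e2, ← add_assoc, vadd_self, zero_add]
  exact hz (e ▸ mul_mem (A_le_L (H.uniq0 h1 h2)) hl)

end Cfsg.Agent.Fis
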