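import Cfsg.Agent.Lib.Fis.UApi
import Cfsg.Agent.Lib.Fis.EP
import Cfsg.Agent.Lib.Fischer.Classes

set_option autoImplicit false

/-! # Fischer's theorem: the unitary model, transitivity and orders -/

namespace Cfsg.Agent.Fis

open Subgroup Cfsg.Agent.Lib.Fischer Cfsg.Agent.Lib.Invol Cfsg.Agent.Spor Matrix Module
open Cfsg.Agent.Lib.GL.Herm

variable {G : Type*} [Group G] {n : ℕ} {D : Set G}

theorem eq_zero_of_iso (hn : 2 ≤ n) {m : Fin n → F4} (h : ∀ y, hf y y = 0 → hf y m = 0) : m = 0 := by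
  funext i
  obtain ⟨j, hij⟩ : ∃ j, i ≠ j := by
    have : Nontrivial (Fin n) := Fin.nontrivial_iff_two_le.mpr hn
    exact (exists_ne i).imp fun _ => Ne.symm
  have key : ∀ c : F4, c ≠ 0 → fr (m i) + c * fr (m j) = 0 := fun c hc => by
    have := h (Pi.single i 1 + Pi.single j c) (by
      rw [LinearMap.map_add₂, hf_single, hf_single]
      simp [hij, hij.symm, mul_fr hc, CharTwo.add_self_eq_zero])
    rwa [LinearMap.map_add₂, hf_single, hf_single, one_mul] at this
  have k1 := key 1 one_ne_zero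
  have k2 := key F4.w (by decide)
  revert k1 k2
  show _ → _ → m i = 0
  generalize m i = p
  generalize m j = q
  revert p q; decide

theorem eq_zero_of_iso' (hn : 4 ≤ n) {p q m : Fin n → F4} (hp : hf p p = 0) (hq : hf q q = 0)
    (hpq : hf p q = 1) (h1 : hf m p = 0) (h2 : hf m q = 0)
    (h : ∀ y, hf y y = 0 → hf y p = 0 → hf y q = 0 → hf y m = 0) : m = 0 := by
  have f4 : hf q p = 1 := by rw [hf_swap, hpq, map_one]
  let β : Fin 2 → Fin n → F4 := ![p + F4.w • q, p + F4.v • q]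
  have hβ : Lib.GL.Herm.IsON hf β := by
    simp only [Lib.GL.Herm.IsON, Fin.forall_fin_two, β]
    simp [hp, hq, hpq, f4]
    decide
  have mem : ∀ y, y ∈ LinearMap.ker (coord hf β) ↔ hf y p = 0 ∧ hf y q = 0 := fun y => by
    rw [mem_ker_coord]
    simp only [Fin.forall_fin_two, β, cons_val_zero, cons_val_one, map_add, map_smulₛₗ, smul_eq_mul]
    generalize hf y p = s
    generalize hf y q = t
    revert s t; decide
  obtain ⟨e, he⟩ := (hβ.isHerm_restrict (isHerm_stdHerm isInvol_fr _)).exists_equiv isInvol_fr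
    (ι := Fin (n - 2)) (by
      have := hβ.finrank_ker
      rw [finrank_fin_fun] at this
      rw [Fintype.card_fin]
      exact (Nat.eq_sub_of_add_eq this).symm)
  have he' : ∀ p q, hf (e p) (e q) = hf p.1 q.1 := fun p q => (he p q).symm
  have := eq_zero_of_iso (by omega) (m := e ⟨m, (mem m).mpr ⟨h1, h2⟩⟩) fun y hy => by
    obtain ⟨y, rfl⟩ := e.surjective y
    rw [he'] at hy ⊢
    exact h y hy ((mem y).mp y.2).1 ((mem y).mp y.2).2
  exact congrArg Subtype.val ((map_eq_zero_iff _ e.injective).mp this)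

namespace UMod
variable {v : G → Fin n → F4} (h : UMod D v)
include h

theorem norm {x c : G} (hx : x ∈ D) (hc : c ∈ D) (k : ¬ Commute x c) :
    ∃ l : F4, l ≠ 0 ∧ hf (v x) (l • v c) = 1 := by
  have n1 : hf (v x) (v c) ≠ 0 := fun t => k ((h.pol x hx c hc).mp t)
  exact ⟨_, n1, by simp [mul_comm, mul_fr n1]⟩

theorem ker (hn : 4 ≤ n) : Ker D := fun x hx c hc c' hc' k1 k2 H => by
  obtain ⟨l, hl, e1⟩ := h.norm hx hc k1
  obtain ⟨l', hl', e2⟩ := h.norm hx hc' k2
  have e1' : hf (l • v c) (v x) = 1 := by rw [hf_swap, e1, map_one]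
  have e2' : hf (l' • v c') (v x) = 1 := by rw [hf_swap, e2, map_one]
  have i1 : hf (l • v c) (l • v c) = 0 := by simp [h.iso hc]
  have i2 : hf (l' • v c') (l' • v c') = 0 := by simp [h.iso hc']
  have key := eq_zero_of_iso' hn (h.iso hx) i1 e1
    (m := l' • v c' - l • v c - hf (l' • v c') (l • v c) • v x)
    (by rw [LinearMap.map_sub₂, LinearMap.map_sub₂, e1', e2', LinearMap.map_smul₂, h.iso hx]; simp)
    (by rw [LinearMap.map_sub₂, LinearMap.map_sub₂, i1, LinearMap.map_smul₂ _ _ (v x), e1]; simp)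
    fun y y1 y2 y3 => by
      by_cases y0 : y = 0
      · simp [y0]
      obtain ⟨z, hz, s, hs, rfl⟩ := h.surj y y0 y1
      have := (h.pol z hz c' hc').mpr (H z hz ((h.pol z hz x hx).mp (by simpa [hs] using y2)).symm
        ((h.pol z hz c hc).mp (by simpa [hs, hl] using y3)).symm).symm
      rw [map_sub, map_sub, y3, map_smulₛₗ _ _ (v x), y2]
      simp [this]
  generalize hf (l' • v c') (l • v c) = a at key
  rw [sub_sub, sub_eq_zero] at key
  rw [key] at i2
  simp only [map_add, LinearMap.add_apply, i1, map_smulₛₗ hf a, map_smulₛₗ (hf _) a,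
    LinearMap.smul_apply, e1, e1', h.iso hx, smul_eq_mul, RingHom.id_apply] at i2
  obtain rfl | rfl : a = 0 ∨ a = 1 := by revert i2; generalize a = b; revert b; decide
  · refine Or.inl (h.inj _ hc' _ hc (l'⁻¹ * l) ?_)
    rw [← smul_smul, ← add_zero (l • v c), ← zero_smul F4 (v x), ← key, smul_smul,
      inv_mul_cancel₀ hl', one_smul]
  · refine Or.inr (h.cj_eq (h.act hx) hc hc' (l := l⁻¹ * l') ?_).symm
    rw [← smul_smul, key, eq_inv_smul_iff₀ hl, ← mulVec_smul, qT_mulVec, e1', one_mul]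

theorem conn : Conn D := fun d hd e he => by
  have nc : ∀ d ∈ D, ∀ e ∈ D, ¬ Commute d e → ∃ g ∈ closure D, cj g d = e := fun d hd e he k =>
    ⟨_, subset_closure (h.ts.cjm d hd e he), cj_cj_left h.ts.set hd he k⟩
  by_cases k : Commute d e
  · obtain ⟨y, y1, y2, y3⟩ := exists_iso_nc (h.ne d hd) (h.ne e he) (h.iso hd)
      ((h.pol d hd e he).mpr k)
    obtain ⟨z, hz, s, hs, rfl⟩ := h.surj y (fun t => y2 (by simp [t])) y1
    obtain ⟨g, hg, rfl⟩ := nc z hz d hd (by rw [← h.pol z hz d hd]; simpa [hs] using y2)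
    obtain ⟨g', hg', rfl⟩ := nc z hz e he (by rw [← h.pol z hz e he]; simpa [hs] using y3)
    exact ⟨g' * g⁻¹, mul_mem hg' (inv_mem hg), by rw [cj_mul, cj_inv_cj]⟩
  · exact nc d hd e he k

theorem tr (hn : 4 ≤ n) : ∀ x ∈ D, ∀ c ∈ D, ∀ c' ∈ D, ¬ Commute x c → ¬ Commute x c' →
    ∃ g ∈ KK D x, cj g c = c' := by
  intro x hx
  have hT := h.ts
  have cm : ∀ c ∈ D, ∀ c' ∈ D, ¬ Commute x c → ¬ Commute x c' → Commute c c' →
      ∃ g ∈ KK D x, cj g c = c' := fun c hc c' hc' k1 k2 k3 => by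
    obtain ⟨e1, e2⟩ := step0 hT.set hx hc hc' (hT.cjm x hx c hc) k1 k2 k3
    exact ⟨_ * x, mul_mem (mem_KK (hT.cjm c hc _ (hT.cjm c' hc' x hx)) e1) self_mem_KK,
      by rw [cj_mul, e2]⟩
  intro c hc c' hc' k1 k2
  by_cases k : ∀ z ∈ D, Commute x z → Commute c z → Commute c' z
  · rcases h.ker hn x hx c hc c' hc' k1 k2 k with rfl | rfl
    exacts [⟨1, one_mem _, cj_one _⟩, ⟨x, self_mem_KK, rfl⟩]
  push Not at k
  obtain ⟨z, hz, z1, z2, z3⟩ := k
  have n1 : hf (v z) (v c') ≠ 0 := fun t => z3 ((h.pol z hz c' hc').mp t).symm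
  have a1 := (h.pol z hz x hx).mpr z1.symm
  have a2 := (h.pol z hz c hc).mpr z2.symm
  have a3 : hf (v c) (v x) ≠ 0 := fun t => k1 ((h.pol c hc x hx).mp t).symm
  have a4 : hf (v c - (hf (v c) (v c') / hf (v z) (v c')) • v z) (v x) ≠ 0 := by simpa [a1]
  obtain ⟨p, hp, s, hs, e⟩ := h.surj' (y := v c - (hf (v c) (v c') / hf (v z) (v c')) • v z)
    (fun t => a4 (by simp [t])) (by simp [h.iso hc, h.iso hz, a2, hf_comm.mp a2])
  have p1 : ¬ Commute x p := fun t => a4 (by
    have := (h.pol p hp x hx).mpr t.symm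
    rwa [e, LinearMap.map_smul₂, smul_eq_zero, or_iff_right hs] at this)
  obtain ⟨g, hg, e1⟩ := cm c hc p hp k1 p1 ((h.pol p hp c hc).mp (by simp [e, h.iso hc, a2])).symm
  obtain ⟨g', hg', e2⟩ := cm p hp c' hc' p1 k2 ((h.pol p hp c' hc').mp (by simp [e, n1]))
  exact ⟨g' * g, mul_mem hg' hg, by rw [cj_mul, e1, e2]⟩

theorem exists_nc {x : G} (hx : x ∈ D) : ∃ c ∈ D, ¬ Commute x c := by
  obtain ⟨y, y1, y2, -⟩ := exists_iso_nc (h.ne x hx) (h.ne x hx) (h.iso hx) (h.iso hx)
  obtain ⟨z, hz, s, hs, rfl⟩ := h.surj y (fun t => y2 (by simp [t])) y1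
  exact ⟨z, hz, by rw [Commute.symm_iff, ← h.pol z hz x hx]; simpa [hs] using y2⟩

/-- the orbit of a point not commuting with `x` -/
theorem relIndex_nc [Finite G] (hn : 4 ≤ n) {x c : G} (hx : x ∈ D) (hc : c ∈ D)
    (k : ¬ Commute x c) {K : Subgroup G} (h1 : KK D x ≤ K) (h2 : ∀ g ∈ K, Commute g x)
    (h3 : ∀ g ∈ K, ∀ d ∈ D, cj g d ∈ D) :
    (centralizer {c}).relIndex K + (perp D x).ncard + 1 = D.ncard := by
  have e1 : {y | ∃ g ∈ K, cj g c = y} = {y | y ∈ D ∧ ¬ Commute x y} := by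
    ext y
    constructor
    · rintro ⟨g, hg, rfl⟩
      exact ⟨h3 g hg c hc, fun t => k (commute_of_cj (h2 g hg).symm t)⟩
    · intro hy
      obtain ⟨g, hg, e⟩ := h.tr hn x hx c hc y hy.1 k hy.2
      exact ⟨g, h1 hg, e⟩
  have e2 := ncard_split D (Commute x)
  have e3 := ncard_single (S := {y | y ∈ D ∧ Commute x y}) (a := x) ⟨hx, Commute.refl x⟩
  rw [show {y | y ∈ {y | y ∈ D ∧ Commute x y} ∧ y ≠ x} = perp D x from Set.ext fun y => by
    simp only [Set.mem_ofPred_eq, mem_perp]; tauto] at e3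
  rw [relIndex_cent, e1]
  omega

end UMod

theorem UMod.six [Finite G] {v : G → Fin 6 → F4} (h : UMod D v) {u b : G} (hu : u ∈ D) (hb : b ∈ D)
    (hub : ¬ Commute u b) : (∀ g ∈ closure D, Commute g u → g ∈ KK D u ⊔ centralizer D ⊓ closure D) ∧
      ∀ g ∈ closure (perp D u ∩ perp D b), (∀ d ∈ perp D u ∩ perp D b, Commute g d) →
        ∀ d ∈ D, Commute g d := by
  obtain ⟨v', h'⟩ := h.sub hu hb hub
  have n1 := h.ncard
  have n2 := h'.ncard
  have n3 := h.ncard_perp hu hb hub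
  have o1 := h.ord_eq (by norm_num)
  have o2 := h'.ord_eq (by norm_num)
  rw [index_center_six, ord] at o1
  rw [index_center_four, ord] at o2
  set Z := perp D u ∩ perp D b
  set C := centralizer D ⊓ closure D with hC
  set K := KK D u ⊔ C with hK
  set S := centralizer {u} ⊓ closure D with hS
  have hZ : Z ⊆ D := fun _ k => k.1.1
  have CS : ∀ d ∈ D, C ≤ centralizer {d} := fun d hd =>
    inf_le_left.trans (centralizer_le (Set.singleton_subset_iff.mpr hd))
  have KS : K ≤ S := sup_le (fun g hg => ⟨mem_centralizer_singleton_iff.mpr (commute_KK hg),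
    KK_le hu hg⟩) (le_inf (CS u hu) inf_le_right)
  have i1 : S.relIndex (closure D) = 693 := by
    rw [hS, inf_relIndex_right, relIndex_cent, show {y | ∃ g ∈ closure D, cj g u = y} = D from
      Set.ext fun y => ⟨by rintro ⟨g, hg, rfl⟩; exact h.ts.cj_closure subset_rfl hg u hu,
        fun hy => h.conn u hu y hy⟩]
    omega
  have i2 : C.relIndex S * 693 = 9196830720 := by
    rw [← i1, relIndex_mul_relIndex _ _ _ (le_inf (CS u hu) inf_le_right) inf_le_right, hC,
      inf_relIndex_right, o1]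
  have i3 := h.relIndex_nc (by norm_num) hu hb hub (K := K) le_sup_left
    (fun g hg => mem_centralizer_singleton_iff.mp (KS hg).1)
    fun g hg => h.ts.cj_closure subset_rfl (KS hg).2
  have i4 := relIndex_mul_relIndex C (centralizer {b} ⊓ K) K (le_inf (CS b hb) le_sup_right)
    inf_le_right
  rw [inf_relIndex_right, show (centralizer {b}).relIndex K = 512 by omega] at i4
  have i5 := relIndex_mul_relIndex C K S le_sup_right KS
  have i6 : C.relIndex (closure Z) ≤ C.relIndex (centralizer {b} ⊓ K) := relIndex_le_of_le_right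
    ((closure_le _).mpr fun z hz => ⟨mem_centralizer_singleton_iff.mpr hz.2.2.2.symm,
      mem_sup_left (mem_KK hz.1.1 hz.1.2.2)⟩) index_ne_zero_of_finite
  have i7 := relIndex_mul_relIndex (C ⊓ closure Z) (centralizer Z ⊓ closure Z) (closure Z)
    (inf_le_inf_right _ (inf_le_left.trans (centralizer_le hZ))) inf_le_right
  rw [inf_relIndex_right, inf_relIndex_right, o2] at i7
  have i8 : K.relIndex S ≠ 0 := index_ne_zero_of_finite
  have i9 : (C ⊓ closure Z).relIndex (centralizer Z ⊓ closure Z) ≠ 0 := index_ne_zero_of_finite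
  have i10 : K.relIndex S = 1 := by
    by_contra t
    have : C.relIndex K * 2 ≤ C.relIndex K * K.relIndex S := Nat.mul_le_mul_left _ (by omega)
    omega
  have i11 : (C ⊓ closure Z).relIndex (centralizer Z ⊓ closure Z) = 1 := by
    rw [i10] at i5; omega
  exact ⟨fun g hg k => relIndex_eq_one.mp i10 ⟨mem_centralizer_singleton_iff.mpr k, hg⟩,
    fun g hg k d hd => ((relIndex_eq_one.mp i11 ⟨fun z hz => (k z hz).symm, hg⟩).1.1 d hd).symm⟩

theorem UMod.cent_sub [Finite G] {v : G → Fin 6 → F4} (h : UMod D v) {u b g : G} (hu : u ∈ D)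
    (hb : b ∈ D) (hub : ¬ Commute u b) (hg : g ∈ closure (perp D u ∩ perp D b))
    (k : ∀ d ∈ perp D u ∩ perp D b, Commute g d) : ∀ d ∈ D, Commute g d :=
  (h.six hu hb hub).2 g hg k

theorem UMod.pp6 [Finite G] {v : G → Fin 6 → F4} (h : UMod D v) : PP D := fun u hu g hg k => by
  obtain ⟨b, hb, hub⟩ := h.exists_nc hu
  have := (h.six hu hb hub).1 g hg k
  rw [← closure_eq (centralizer D ⊓ closure D), ← Subgroup.closure_union] at this
  obtain ⟨a, ha, c, hc, rfl⟩ := exists_split (fun β hβ d hd =>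
    Commute.symm (hβ.1 d (Set.insert_subset hu perp_sub hd))) this
  rw [closure_eq] at hc
  exact ⟨a, ha, fun d hd => by rw [cj_mul, cj_of_commute (Commute.symm (hc.1 d hd))]⟩

theorem UMod.odd_four [Finite G] {v : G → Fin 4 → F4} (h : UMod D v) {B : Set G}
    (hB : ∀ b ∈ B, ∀ d ∈ D, Commute b d) {w : G} (hw : w ∈ D) (hC : CB D B) :
    Odd ((closure (insert w (perp D w) ∪ B)).relIndex (closure (D ∪ B))) := by
  obtain ⟨b, hb, hwb⟩ := h.exists_nc hw
  obtain ⟨v', h'⟩ := h.sub hw hb hwb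
  have n1 := h.ncard
  have n2 := h'.ncard
  have n3 := h.ncard_perp hw hb hwb
  have o1 := hC.index hB
  rw [h.ord_eq le_rfl, index_center_four] at o1
  set K := closure (insert w (perp D w) ∪ B) with hK
  have BK : closure B ≤ K := closure_mono Set.subset_union_right
  have i1 := relIndex_mul_relIndex _ K _ BK (KB_le hw)
  have i3 := h.relIndex_nc le_rfl hw hb hwb (K := K) (closure_mono Set.subset_union_left)
    (fun g hg => commute_KB hB hw hg) fun g hg d hd => (cj_KB h.ts hB (KB_le hw hg) d hd).1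
  have Bb : closure B ≤ centralizer {b} ⊓ K := le_inf ((closure_le _).mpr fun β hβ =>
    mem_centralizer_singleton_iff.mpr (hB β hβ b hb)) BK
  have i4 := relIndex_mul_relIndex _ _ K Bb inf_le_right
  rw [inf_relIndex_right, show (centralizer {b}).relIndex K = 32 by omega] at i4
  obtain ⟨t, ht⟩ := Set.nonempty_of_ncard_ne_zero (s := perp D w ∩ perp D b) (by omega)
  have i5 : 2 ∣ (closure B).relIndex (centralizer {b} ⊓ K) := by
    have m : t ∈ centralizer {b} ⊓ K :=
      ⟨mem_centralizer_singleton_iff.mpr ht.2.2.2.symm, mem_KB ht.1.1 ht.1.2.2⟩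
    rw [← even_iff_two_dvd, relIndex, index, ← Set.ncard_univ]
    refine even_ncard_of_involution (Set.toFinite _)
      (fun q => (⟨t, m⟩ : ↥(centralizer {b} ⊓ K)) • q) (fun _ _ => trivial) (fun q _ => ?_)
      fun q _ e => ?_
    · rw [smul_smul, show (⟨t, m⟩ : ↥(centralizer {b} ⊓ K)) * ⟨t, m⟩ = 1 from
        Subtype.ext (h.ts.sq ht.1.1), one_smul]
    · obtain ⟨g, rfl⟩ := QuotientGroup.mk_surjective q
      have e0 := QuotientGroup.eq.mp (show ((⟨t, m⟩ * g : ↥(centralizer {b} ⊓ K)) :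
        _ ⧸ (closure B).subgroupOf (centralizer {b} ⊓ K)) = g from e)
      have e1 : (t * g)⁻¹ * g ∈ closure B := e0
      have e2 := (cj_KB h.ts hB (inv_mem (KB_le hw g.2.2)) t ht.1.1).1
      obtain ⟨c, hc, k⟩ := h.exists_nc e2
      refine k (commute_closure (fun β hβ => hB β hβ c hc) ?_)
      rwa [cj_def, inv_inv, ← inv_eq h.ts.set ht.1.1, ← _root_.mul_inv_rev]
  rw [o1, ← i4] at i1
  obtain ⟨a, ha⟩ := i5
  rw [ha] at i1
  exact Odd.of_dvd_nat (show Odd 405 by decide) (Dvd.intro_left a (by linarith))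

end Cfsg.Agent.Fis
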