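import Cfsg.Agent.Lib.Fis.F24a
import Cfsg.Agent.Lib.Fis.EP
import Cfsg.Agent.Lib.Fis.UApi2
import Cfsg.Agent.Lib.Fis.Heis

set_option autoImplicit false

/-! # Fischer's theorem: the sign character of `Fi24` -/

namespace Cfsg.Agent.Fis

open Subgroup Cfsg.Agent.Lib.Fischer Cfsg.Agent.Lib.Invol Cfsg.Agent.Spor

universe u

section
variable {G : Type*} [Group G]

theorem no_two {E : Set G} (hT : TS E) (hN : NT E) {u u' p q r : G} (hu : u ∈ E) (hu' : u' ∈ E)
    (hp : p ∈ E) (hq : q ∈ E) (hr : r ∈ E) (hne : u ≠ u') (hc : Commute u u') (n1 : p ≠ u)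
    (n2 : p ≠ u') (n3 : p ≠ q) (n4 : p ≠ r) (hpq : Commute p q)
    (h : ∀ c ∈ E, Commute (u * u' * p * q * r) c) : False := by
  obtain ⟨c, hc, c1, c2, c3⟩ := hN u hu u' ⟨hu', hne.symm, hc⟩ p hp n1 n2
  have k : Commute (p * q * r) c := by
    simpa [mul_assoc] using c2.symm.inv_left.mul_left (c1.symm.inv_left.mul_left (h c hc))
  by_cases l1 : Commute c q <;> by_cases l2 : Commute c r
  · exact c3 (by simpa using (k.mul_left l2.symm.inv_left).mul_left l1.symm.inv_left :
      Commute p c).symm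
  · rw [hpq.eq] at k
    exact n4 (hT.eq_of_mul hc hp hr c3 (by simpa [mul_assoc] using l1.symm.inv_left.mul_left k))
  · exact n3 (hT.eq_of_mul hc hp hq c3 (by simpa using k.mul_left l2.symm.inv_left))
  · exact hT.not_three hc hp hq hr c3 l1 l2 hpq k

/-- the covering situation -/
structure SG (D : Set G) (ζ : G) : Prop where
  g24 : G24 D
  cen : ∀ g, Commute ζ g
  sq : ζ * ζ = 1
  sgn : ∃ s : G →* ℤˣ, s ζ = -1 ∧ ∀ d ∈ D, s d = -1
  cb : CB D {ζ}

theorem cent_ins {D B : Set G} (hB : ∀ b ∈ B, ∀ d ∈ D, Commute b d) (x : G) :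
    ∀ b ∈ insert x B, ∀ d ∈ perp D x, Commute b d := by
  rintro b (rfl | hb) d hd
  exacts [hd.2.2, hB b hb d hd.1]

theorem ins_union (x : G) (S B : Set G) : insert x S ∪ B = S ∪ insert x B := by
  rw [Set.insert_union, Set.union_insert]

namespace SG
variable {D : Set G} {ζ : G} (h : SG D ζ)
include h

theorem ts : TS D := h.g24.1.r3.ts

theorem cent0 (E : Set G) : ∀ b ∈ ({ζ} : Set G), ∀ d ∈ E, Commute b d := by
  rintro b rfl d _; exact h.cen d

theorem cb3 {x y z : G} (hx : x ∈ D) (hy : y ∈ perp D x) (hz : z ∈ perp (perp D x) y) :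
    CB (perp (perp (perp D x) y) z) (insert z (insert y (insert x {ζ}))) := by
  have s1 := h.g24.1
  have s2 := (h.g24.2 x hx).1
  have s3 := ((h.g24.2 x hx).2 y hy).1
  exact ((h.cb.perp s1.r3 s1.ker (h.cent0 _) hx).perp s2.r3 s2.ker (cent_ins (h.cent0 _) x) hy).perp
    s3.r3 s3.ker (cent_ins (cent_ins (h.cent0 _) x) y) hz

theorem octad {x y z u u' : G} (hx : x ∈ D) (hy : y ∈ perp D x) (hz : z ∈ perp (perp D x) y)
    (hu : u ∈ perp (perp (perp D x) y) z) (hu' : u' ∈ perp (perp (perp D x) y) z) (hne : u ≠ u')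
    (hc : Commute u u') : ∃ p ∈ D, ∃ q ∈ D, ∃ r ∈ D, x * y * z * u * u' = p * q * r ∧
      ∀ w ∈ ({p, q, r} : Set G), (Commute w x ∧ Commute w y ∧ Commute w z ∧ Commute w u ∧
        Commute w u') ∧ ∀ t ∈ D, Commute t x → Commute t y → Commute t z → Commute t u →
        Commute t u' → Commute t w := by
  obtain ⟨-, -, v, hv⟩ := ((h.g24.2 x hx).2 y hy).2 z hz
  obtain ⟨p, hp, q, hq, r, hr, n1, n2, n3, n4, k1, k2⟩ := hv.five hu hu' hne hc
  have hT := h.ts
  have a1 := k1 u hu (Commute.refl _) hc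
  have a2 := k1 u' hu' hc.symm (Commute.refl _)
  have a3 := k1 p hp a1.1.symm a2.1.symm
  have a4 := k1 q hq a1.2.1.symm a2.2.1.symm
  have hl := h.cb3 hx hy hz _ (mul_mem (mul_mem (mul_mem (mul_mem (subset_closure (Or.inl hu))
    (subset_closure (Or.inl hu'))) (subset_closure (Or.inl hp))) (subset_closure (Or.inl hq)))
    (subset_closure (Or.inl hr))) k2
  have no : ∀ a ∈ D, ∀ b ∈ perp D a, (∀ w ∈ perp (perp (perp D x) y) z, w ∈ perp (perp D a) b) →
      ¬ ∀ c, Commute a c → Commute b c → Commute (u * u' * p * q * r) c := fun a ha b hb k H => by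
    have s := ((h.g24.2 a ha).2 b hb).1
    exact no_two s.r3.ts s.nt (k u hu) (k u' hu') (k p hp) (k q hq) (k r hr) hne hc n1 n2 n3 n4
      a3.2.1 fun c hc => H c hc.1.2.2 hc.2.2
  have cxy := hy.2.2
  have cxz := hz.1.2.2
  have cyz := hz.2.2
  have sx := hT.sq hx
  have sy := hT.sq hy.1
  have sz := hT.sq hz.1.1
  have cl : ∀ {S : Set G} {g c : G}, g ∈ closure S → (∀ s ∈ S, Commute s c) → Commute g c :=
    fun hg k => commute_closure k hg
  have e : x * (y * (z * (u * u' * p * q * r))) = 1 := by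
    rcases mem_closure_insert sz (by
      rintro _ (rfl | rfl | rfl); exacts [cyz, cxz, h.cen _]) hl with l | l
    · exact (no x hx y hy (fun w hw => hw.1) fun c c1 c2 => cl l (by
        rintro _ (rfl | rfl | rfl); exacts [c2, c1, h.cen _])).elim
    rcases mem_closure_insert sy (by rintro _ (rfl | rfl); exacts [cxy, h.cen _]) l with l | l
    · refine (no x hx z hz.1 (fun w hw => ⟨hw.1.1, hw.2⟩) fun c c1 c2 => ?_).elim
      simpa using c2.inv_left.mul_left (cl l (by rintro _ (rfl | rfl); exacts [c1, h.cen _]))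
    rcases mem_closure_insert sx (by rintro _ rfl; exact h.cen _) l with l | l
    · refine (no y hy.1 z ⟨hz.1.1, hz.2⟩ (fun w hw => ⟨⟨hw.1.1.1, hw.1.2⟩, hw.2⟩)
        fun c c1 c2 => ?_).elim
      simpa using c2.inv_left.mul_left (c1.inv_left.mul_left (cl l (by rintro _ rfl; exact h.cen _)))
    rw [← insert_empty_eq] at l
    rcases mem_closure_insert h.sq (by simp) l with l | l
    · simpa using l
    · obtain ⟨s, s1, s2⟩ := h.sgn
      rw [Subgroup.closure_empty, mem_bot] at l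
      have := congrArg s l
      simp only [map_mul, map_one, s1, s2 x hx, s2 y hy.1, s2 z hz.1.1, s2 u hu.1.1.1,
        s2 u' hu'.1.1.1, s2 p hp.1.1.1, s2 q hq.1.1.1, s2 r hr.1.1.1] at this
      exact absurd this (by decide)
  have main : ∀ w ∈ perp (perp (perp D x) y) z, Commute w u → Commute w u' →
      (∀ t ∈ perp (perp (perp D x) y) z, Commute t u → Commute t u' → Commute t w) →
      (Commute w x ∧ Commute w y ∧ Commute w z ∧ Commute w u ∧
        Commute w u') ∧ ∀ t ∈ D, Commute t x → Commute t y → Commute t z → Commute t u →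
        Commute t u' → Commute t w := fun w hw c1 c2 H => by
    refine ⟨⟨hw.1.1.2.2.symm, hw.1.2.2.symm, hw.2.2.symm, c1, c2⟩, fun t ht t1 t2 t3 t4 t5 => ?_⟩
    by_cases e1 : t = x
    · exact e1 ▸ hw.1.1.2.2
    by_cases e2 : t = y
    · exact e2 ▸ hw.1.2.2
    by_cases e3 : t = z
    · exact e3 ▸ hw.2.2
    exact H t ⟨⟨⟨ht, e1, t1.symm⟩, e2, t2.symm⟩, e3, t3.symm⟩ t4 t5
  refine ⟨p, hp.1.1.1, q, hq.1.1.1, r, hr.1.1.1, ?_, ?_⟩
  · have e2 : x * y * z * u * u' = (p * q * r)⁻¹ :=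
      eq_inv_of_mul_eq_one_left (by rw [← e]; simp only [mul_assoc])
    rw [e2, mul_inv_rev, mul_inv_rev, inv_eq hT.set hp.1.1.1, inv_eq hT.set hq.1.1.1,
      inv_eq hT.set hr.1.1.1, ← a3.2.1.eq, ← (a3.2.2.mul_left a4.2.2).eq]
  · rintro w (rfl | rfl | rfl)
    · exact main _ hp a1.1.symm a2.1.symm fun t ht c1 c2 => (k1 t ht c1 c2).1
    · exact main _ hq a1.2.1.symm a2.2.1.symm fun t ht c1 c2 => (k1 t ht c1 c2).2.1
    · exact main _ hr a1.2.2.symm a2.2.2.symm fun t ht c1 c2 => (k1 t ht c1 c2).2.2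

theorem list_ne (n : ℕ) : ∀ l : List G, l.length ≤ n → (∀ a ∈ l, a ∈ D) →
    (∀ a ∈ l, ∀ b ∈ l, Commute a b) → l.prod ≠ ζ := by
  obtain ⟨s, s1, s2⟩ := h.sgn
  have hT := h.ts
  induction n using Nat.strong_induction_on with
  | _ n ih =>
  intro l hn hD hc e
  by_cases hl : l.Nodup
  swap
  · rw [List.nodup_iff_sublist] at hl
    push Not at hl
    obtain ⟨a, ha⟩ := hl
    obtain ⟨l', hp⟩ := ha.exists_perm_append
    have m : ∀ b ∈ l', b ∈ l := fun b hb => hp.symm.subset (by simp [hb])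
    have := hp.length_eq
    simp only [List.length_append, List.length_cons, List.length_nil] at this
    refine ih l'.length (by omega) l' le_rfl (fun b hb => hD b (m b hb))
      (fun b hb c hc' => hc b (m b hb) c (m c hc')) ?_
    rw [← e, hp.prod_eq' (List.pairwise_of_forall_mem_list hc)]
    simp [← mul_assoc, hT.sq (hD a (hp.symm.subset (by simp)))]
  have hs := congrArg s e
  match l, hn, hD, hc, e, hl, hs with
  | [], _, _, _, _, _, hs => simp [s1] at hs
  | [x], _, hD, _, e, _, _ =>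
    obtain ⟨c, -, k⟩ := h.g24.1.r3.nc x (hD x (by simp))
    exact k ((by simpa using e : x = ζ) ▸ h.cen c)
  | [x, y], _, hD, _, _, _, hs =>
    simp [s1, s2 x (hD x (by simp)), s2 y (hD y (by simp))] at hs
  | [x, y, z], _, hD, hc, e, hl, _ =>
    simp only [List.nodup_cons, List.mem_cons, List.not_mem_nil, or_false, not_or] at hl
    obtain ⟨c, -, c1, c2, c3⟩ := h.g24.1.nt x (hD x (by simp)) y ⟨hD y (by simp), Ne.symm hl.1.1,
      hc x (by simp) y (by simp)⟩ z (hD z (by simp)) (Ne.symm hl.1.2) (Ne.symm hl.2.1)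
    have := h.cen c
    rw [← e] at this
    exact c3 (by simpa using c2.symm.inv_left.mul_left (c1.symm.inv_left.mul_left this) :
      Commute z c).symm
  | [x, y, z, u], _, hD, _, _, _, hs =>
    simp [s1, s2 x (hD x (by simp)), s2 y (hD y (by simp)), s2 z (hD z (by simp)),
      s2 u (hD u (by simp))] at hs
  | x :: y :: z :: u :: u' :: l0, hn, hD, hc, e, hl, _ =>
    simp only [List.nodup_cons, List.mem_cons, not_or] at hl
    obtain ⟨⟨n1, n2, n3, n4, -⟩, ⟨n5, n6, n7, -⟩, ⟨n8, n9, -⟩, ⟨n10, -⟩, -⟩ := hl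
    obtain ⟨p, hp, q, hq, r, hr, e1, k⟩ := h.octad (x := x) (y := y) (z := z) (u := u) (u' := u')
      (hD x (by simp)) ⟨hD y (by simp), Ne.symm n1, hc _ (by simp) _ (by simp)⟩
      ⟨⟨hD z (by simp), Ne.symm n2, hc _ (by simp) _ (by simp)⟩, Ne.symm n5,
        hc _ (by simp) _ (by simp)⟩
      ⟨⟨⟨hD u (by simp), Ne.symm n3, hc _ (by simp) _ (by simp)⟩, Ne.symm n6,
        hc _ (by simp) _ (by simp)⟩, Ne.symm n8, hc _ (by simp) _ (by simp)⟩
      ⟨⟨⟨hD u' (by simp), Ne.symm n4, hc _ (by simp) _ (by simp)⟩, Ne.symm n7,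
        hc _ (by simp) _ (by simp)⟩, Ne.symm n9, hc _ (by simp) _ (by simp)⟩
      n10 (hc _ (by simp) _ (by simp))
    have k1 : ∀ t ∈ p :: q :: r :: l0, t ∈ D ∧ Commute t x ∧ Commute t y ∧ Commute t z ∧
        Commute t u ∧ Commute t u' := fun t ht => by
      simp only [List.mem_cons] at ht
      rcases ht with rfl | rfl | rfl | ht
      · exact ⟨hp, (k _ (by simp)).1⟩
      · exact ⟨hq, (k _ (by simp)).1⟩
      · exact ⟨hr, (k _ (by simp)).1⟩
      · exact ⟨hD t (by simp [ht]), hc _ (by simp [ht]) _ (by simp), hc _ (by simp [ht]) _ (by simp),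
          hc _ (by simp [ht]) _ (by simp), hc _ (by simp [ht]) _ (by simp),
          hc _ (by simp [ht]) _ (by simp)⟩
    have k2 : ∀ t ∈ p :: q :: r :: l0, ∀ w ∈ ({p, q, r} : Set G), Commute t w := fun t ht w hw => by
      obtain ⟨a0, a1, a2, a3, a4, a5⟩ := k1 t ht
      exact (k w hw).2 t a0 a1 a2 a3 a4 a5
    have k3 : ∀ t ∈ p :: q :: r :: l0, t ∈ ({p, q, r} : Set G) ∨ t ∈ l0 := fun t ht => by
      simp only [List.mem_cons] at ht
      simp only [Set.mem_insert_iff, Set.mem_singleton_iff]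
      tauto
    simp only [List.length_cons] at hn
    refine ih (l0.length + 3) (by omega) (p :: q :: r :: l0) le_rfl (fun t ht => (k1 t ht).1)
      (fun a ha b hb => ?_) ?_
    · rcases k3 b hb with l | l
      · exact k2 a ha b l
      rcases k3 a ha with l' | l'
      · exact (k2 b hb a l').symm
      · exact hc a (by simp [l']) b (by simp [l])
    · rw [← e]
      simp only [List.prod_cons, ← mul_assoc, e1]

theorem comm_ne {S : Set G} (hS : S ⊆ D) (hc : ∀ a ∈ S, ∀ b ∈ S, Commute a b) : ζ ∉ closure S := by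
  intro hz
  obtain ⟨l, h3, h2⟩ : ∃ l : List G, (∀ a ∈ l, a ∈ S) ∧ l.prod = ζ := by
    refine closure_induction_left (p := fun g _ => ∃ l : List G, (∀ a ∈ l, a ∈ S) ∧ l.prod = g)
      ⟨[], by simp, rfl⟩ ?_ ?_ hz
    · rintro x hx _ _ ⟨l, h1, rfl⟩
      exact ⟨x :: l, by simpa [hx] using h1, rfl⟩
    · rintro x hx _ _ ⟨l, h1, rfl⟩
      exact ⟨x :: l, by simpa [hx] using h1, by rw [inv_eq h.ts.set (hS hx)]; rfl⟩
  exact h.list_ne _ l le_rfl (fun a ha => hS (h3 a ha)) (fun a ha b hb => hc a (h3 a ha) b (h3 b hb))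
    h2

/-- one step up in the unitary tower -/
theorem up [Finite G] {n : ℕ} {E B : Set G} {v : G → Fin n → F4} (hv : UMod E v) (hE : E ⊆ D)
    (hBD : B ⊆ D) (hB : ∀ β ∈ B, ∀ d ∈ E, Commute β d) (hBB : ∀ a ∈ B, ∀ b ∈ B, Commute a b)
    (hC : CB E (insert ζ B)) {u b : G} (hu : u ∈ E) (hb : b ∈ E) (hub : ¬ Commute u b)
    (ho : Odd ((closure (insert u (perp E u) ∪ insert ζ B)).relIndex (closure (E ∪ insert ζ B))))
    (hz : ζ ∉ closure ((perp E u ∩ perp E b) ∪ insert u B)) : ζ ∉ closure (E ∪ B) := by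
  have hB' : ∀ β ∈ insert ζ B, ∀ d ∈ E, Commute β d := by
    rintro β (rfl | k) d hd
    exacts [h.cen d, hB β k d hd]
  have sub : E ∪ B ⊆ E ∪ insert ζ B := Set.union_subset_union_right _ (Set.subset_insert _ _)
  have h1 := heis_step hv hu hb hub hB h.cen h.sq
    (fun g hg k => mem_closure_insert h.sq (fun s _ => (h.cen s).symm)
      (hC g (closure_mono sub hg) k))
    (fun S hS k => h.comm_ne (Set.union_subset (hS.trans hE) hBD) (by
      rintro a (ha | ha) c (hc | hc)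
      exacts [k a ha c hc, (hB c hc a (hS ha)).symm, hB a ha c (hS hc), hBB a ha c hc]))
    (by rwa [ins_union])
  refine not_mem_of_odd h.cen h.sq h1 (fun g hg => mem_closure_insert h.sq
    (fun s _ => (h.cen s).symm) (by rwa [← Set.union_insert])) ho
    (fun s hs => subset_closure (sub hs)) (fun s hs => h.ts.sq (hs.elim (hE ·) (hBD ·))) ?_
  rintro s (hs | hs) g hg k
  · exact mem_KB (cj_KB hv.ts hB' hg s hs).1 (commute_KB hB' hu k).symm
  · rw [cj_of_commute (commute_closure (by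
      rintro a (ha | rfl | ha)
      exacts [(hB s hs a ha).symm, h.cen s, hBB a ha s hs]) hg)]
    exact subset_closure (Or.inr hs)

theorem star [Finite G] {x y z : G} (hx : x ∈ D) (hy : y ∈ perp D x) (hz : z ∈ perp (perp D x) y) :
    ζ ∉ closure (perp (perp (perp D x) y) z ∪ insert z (insert y (insert x ∅))) := by
  obtain ⟨hR, -, v, hv⟩ := ((h.g24.2 x hx).2 y hy).2 z hz
  have hC := h.cb3 hx hy hz
  have hB := cent_ins (cent_ins (cent_ins (B := ∅) (D := D) (by simp) x) y) z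
  have hBD : insert z (insert y (insert x ∅)) ⊆ D := by
    rintro _ (rfl | rfl | rfl | k)
    exacts [hz.1.1, hy.1, hx, k.elim]
  have hBB : ∀ a ∈ insert z (insert y (insert x (∅ : Set G))),
      ∀ b ∈ insert z (insert y (insert x (∅ : Set G))), Commute a b := by
    have := hy.2.2
    have := hz.1.2.2
    have := hz.2.2
    simp only [Set.mem_insert_iff, Set.mem_empty_iff_false, or_false]
    rintro _ (rfl | rfl | rfl) _ (rfl | rfl | rfl) <;>
      first | exact Commute.refl _ | assumption | exact Commute.symm ‹_›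
  rw [show insert z (insert y (insert x ({ζ} : Set G))) =
    insert ζ (insert z (insert y (insert x ∅))) by ext; simp; tauto] at hC
  have hU : perp (perp (perp D x) y) z ⊆ D := fun a ha => ha.1.1.1
  obtain ⟨u, hu⟩ := ((h.g24.2 x hx).2 y hy).1.r3.pp z hz
  generalize perp (perp (perp D x) y) z = U at *
  generalize insert z (insert y (insert x (∅ : Set G))) = B at *
  obtain ⟨b, hb, hub⟩ := hv.exists_nc hu
  have hB0 : ∀ {E B : Set G}, (∀ β ∈ B, ∀ d ∈ E, Commute β d) →
      ∀ β ∈ insert ζ B, ∀ d ∈ E, Commute β d := by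
    rintro E B hB β (rfl | k) d hd
    exacts [h.cen d, hB β k d hd]
  refine h.up hv hU hBD hB hBB hC hu hb hub ?_ ?_
  · rw [(EP.of_pp hv.ts hv.pp6 (hB0 hB) hC).index hv.ts hv.conn (hB0 hB) hu]
    have := hv.ncard
    exact ⟨346, by omega⟩
  obtain ⟨v', hv'⟩ := hv.sub hu hb hub
  have hB1 : ∀ β ∈ insert u B, ∀ d ∈ perp U u ∩ perp U b, Commute β d :=
    fun β k d hd => cent_ins hB u β k d hd.1
  have hBB1 : ∀ a ∈ insert u B, ∀ c ∈ insert u B, Commute a c := by
    rintro a (rfl | ha) c (rfl | hc)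
    exacts [Commute.refl _, (hB c hc _ hu).symm, hB a ha _ hu, hBB a ha c hc]
  have hC1 : CB (perp U u ∩ perp U b) (insert ζ (insert u B)) := fun g hg k => by
    obtain ⟨g0, h0, β, hβ, rfl⟩ := exists_split (hB0 hB1) hg
    refine mul_mem (closure_mono (Set.insert_subset_insert (Set.subset_insert _ _)) (hC g0
      (closure_mono (fun a ha => Or.inl ha.1.1) h0) (hv.cent_sub hu hb hub h0 fun d hd => ?_))) hβ
    simpa using (k d hd).mul_left (commute_closure (fun s hs => hB0 hB1 s hs d hd) hβ).inv_left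
  have hZ : perp U u ∩ perp U b ⊆ D := fun a ha => hU ha.1.1
  have hBD1 : insert u B ⊆ D := Set.insert_subset (hU hu) hBD
  generalize perp U u ∩ perp U b = Z at *
  generalize insert u B = B1 at *
  obtain ⟨w, hw⟩ : Z.Nonempty := Set.nonempty_of_ncard_ne_zero (by have := hv'.ncard; omega)
  obtain ⟨c, hc, hwc⟩ := hv'.exists_nc hw
  refine h.up hv' hZ hBD1 hB1 hBB1 hC1 hw hc hwc (hv'.odd_four (hB0 hB1) hw hC1) fun k => ?_
  obtain ⟨v2, hv2⟩ := hv'.sub hw hc hwc
  have hB2 : ∀ β ∈ insert w B1, ∀ d ∈ perp Z w ∩ perp Z c, Commute β d :=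
    fun β k d hd => cent_ins hB1 w β k d hd.1
  obtain ⟨g0, h0, β, hβ, e⟩ := exists_split hB2 k
  have := hv2.two h0 fun d hd => by
    have := h.cen d
    rw [e] at this
    simpa using this.mul_left (commute_closure (fun s hs => hB2 s hs d hd) hβ).inv_left
  rw [this, one_mul] at e
  refine h.comm_ne (Set.insert_subset (hZ hw) hBD1) ?_ (e ▸ hβ)
  rintro a (rfl | ha) c (rfl | hc)
  exacts [Commute.refl _, (hB1 c hc _ hw).symm, hB1 a ha _ hw, hBB1 a ha c hc]

theorem not_mem [Finite G] : ζ ∉ closure D := by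
  have c0 : ∀ b ∈ (∅ : Set G), ∀ d ∈ D, Commute b d := by simp
  have e3 : ∀ x ∈ D, ∀ y ∈ perp D x, ∀ z ∈ perp (perp D x) y,
      EP (perp (perp (perp D x) y) z) (insert z (insert y (insert x ∅))) := fun x hx y hy z hz => by
    obtain ⟨-, -, v, hv⟩ := ((h.g24.2 x hx).2 y hy).2 z hz
    refine EP.of_pp hv.ts hv.pp6 (cent_ins (cent_ins (cent_ins c0 x) y) z) fun g hg k => ?_
    have hC := h.cb3 hx hy hz
    rw [show insert z (insert y (insert x ({ζ} : Set G))) =
      insert ζ (insert z (insert y (insert x ∅))) by ext; simp; tauto] at hC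
    refine (mem_closure_insert h.sq (fun s _ => (h.cen s).symm) (hC g (closure_mono
      (Set.union_subset_union_right _ (Set.subset_insert _ _)) hg) k)).resolve_right fun l => ?_
    exact h.star hx hy hz (by simpa using mul_mem (closure_mono Set.subset_union_right l) (inv_mem hg))
  have e2 : ∀ x ∈ D, ∀ y ∈ perp D x, EP (perp (perp D x) y) (insert y (insert x ∅)) :=
    fun x hx y hy => by
      have s := (h.g24.2 x hx).2 y hy
      exact EP.of_local s.1.r3 s.1.cov (fun z hz => (s.2 z hz).1) (cent_ins (cent_ins c0 x) y)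
        (e3 x hx y hy)
  have e1 : ∀ x ∈ D, EP (perp D x) (insert x ∅) := fun x hx => by
    have s := h.g24.2 x hx
    exact EP.of_local s.1.r3 s.1.cov (fun z hz => (s.2 z hz).1.r3) (cent_ins c0 x) (e2 x hx)
  have e0 : EP D ∅ := EP.of_local h.g24.1.r3 h.g24.1.cov (fun z hz => (h.g24.2 z hz).1.r3) c0 e1
  intro hz
  obtain ⟨x, hx⟩ : D.Nonempty := Set.nonempty_of_ncard_ne_zero (by rw [h.g24.1.srg.hn]; decide)
  obtain ⟨y, hy⟩ := h.g24.1.r3.pp x hx
  obtain ⟨z, hz'⟩ := (h.g24.2 x hx).1.r3.pp y hy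
  have k0 := e0 x hx ζ (by rwa [Set.union_empty]) (h.cen x)
  rw [ins_union] at k0
  have k1 := e1 x hx y hy ζ k0 (h.cen y)
  rw [ins_union] at k1
  have k2 := e2 x hx y hy z hz' ζ k1 (h.cen z)
  rw [ins_union] at k2
  exact h.star hx hy hz' k2

end SG

end

theorem sign_of_g24 {G : Type u} [Group G] [Finite G] {D : Set G} (h : Good D) (h24 : G24 D) :
    ∃ ε : G →* ℤˣ, ∀ d ∈ D, ε d = -1 := by
  have hD := h.cl
  let T : Set (G × ℤˣ) := (fun d => (d, -1)) '' D
  have hcm : ∀ a b : G × ℤˣ, Commute a.1 b.1 ↔ Commute a b := fun a b =>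
    ⟨fun k => Prod.ext k (mul_comm _ _), fun k => congrArg Prod.fst k⟩
  have hT : TS T := by
    refine ⟨⟨?_, ?_⟩, ?_⟩
    · rintro _ ⟨d, hd, rfl⟩
      exact orderOf_eq_prime (Prod.ext (by simpa [sq] using threeTransp_mul_self hD.1 hd) (by simp))
        fun k => ne_one hD.1 hd (congrArg Prod.fst k)
    · rintro _ ⟨d, hd, rfl⟩ _ ⟨e, he, rfl⟩
      exact (hD.1.2 d hd e he).imp (fun k => Prod.ext k (by simp)) fun k => Prod.ext k (by simp)
    · rintro _ ⟨d, hd, rfl⟩ _ ⟨e, he, rfl⟩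
      exact ⟨_, cj_mem_D hD he d, Prod.ext rfl (by simp [cj_def])⟩
  have hC : Cover T D Prod.fst := ⟨hT, fun _ _ _ _ => rfl, ⟨by rintro _ ⟨d, hd, rfl⟩; exact hd,
    by rintro _ ⟨d, hd, rfl⟩ _ ⟨e, he, rfl⟩ k; exact Prod.ext k rfl,
    fun d hd => ⟨_, ⟨d, hd, rfl⟩, rfl⟩⟩, fun d _ e _ => hcm d e⟩
  have hS : SG T (1, -1) := by
    refine ⟨hC.g24 h24, fun g => (hcm _ _).mp (Commute.one_left _), by simp,
      ⟨MonoidHom.snd _ _, rfl, by rintro _ ⟨d, hd, rfl⟩; rfl⟩, fun g _ k => ?_⟩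
    have : g.1 = 1 := eq_one_of_commute hD h.cen fun d hd => (hcm _ _).mpr (k _ ⟨d, hd, rfl⟩)
    rcases Int.units_eq_one_or g.2 with l | l
    · rw [show g = 1 from Prod.ext this l]; exact one_mem _
    · rw [show g = (1, -1) from Prod.ext this l]; exact subset_closure rfl
  obtain ⟨φ, hφ⟩ := Subgroup.exists_eq_graph (G := closure T) ⟨fun x y hxy => by
      have e1 : x.1.1 = y.1.1 := hxy
      refine Subtype.ext (Prod.ext e1 ?_)
      by_contra k
      refine hS.not_mem ?_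
      convert mul_mem x.2 (inv_mem y.2) using 1
      refine Prod.ext (by simp [e1]) ?_
      rcases Int.units_eq_one_or x.1.2 with l | l <;> rcases Int.units_eq_one_or y.1.2 with l' | l' <;>
        simp_all, fun g => by
      obtain ⟨k, hk⟩ := exists_snd_of_closure (S := T) (by
        rw [Set.image_image]; simpa using hD.2.2) g
      exact ⟨⟨_, hk⟩, rfl⟩⟩
  refine ⟨φ, fun d hd => ?_⟩
  have : (d, (-1 : ℤˣ)) ∈ closure T := subset_closure ⟨d, hd, rfl⟩
  rw [hφ] at this
  exact this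

end Cfsg.Agent.Fis
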