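import Cfsg.Agent.Lib.Fis.UApi

set_option autoImplicit false

/-! # Fischer's theorem: tools for the sign character of `Fi24` -/

namespace Cfsg.Agent.Fis

open Subgroup Cfsg.Agent.Lib.Fischer Cfsg.Agent.Lib.Invol Cfsg.Agent.Spor Matrix

variable {G : Type*} [Group G]

theorem mem_closure_insert {a g : G} {S : Set G} (ha : a * a = 1) (hc : ∀ s ∈ S, Commute s a)
    (hg : g ∈ closure (insert a S)) : g ∈ closure S ∨ a * g ∈ closure S := by
  have ai : a⁻¹ = a := inv_eq_of_mul_eq_one_right ha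
  have step : ∀ x ∈ closure S, ∀ g, (g ∈ closure S ∨ a * g ∈ closure S) →
      (x * g ∈ closure S ∨ a * (x * g) ∈ closure S) := fun x hx g h => by
    refine h.imp (mul_mem hx) fun k => ?_
    rw [← mul_assoc, ← (commute_closure hc hx).eq, mul_assoc]
    exact mul_mem hx k
  have stepa : ∀ g, (g ∈ closure S ∨ a * g ∈ closure S) →
      (a * g ∈ closure S ∨ a * (a * g) ∈ closure S) := fun g h => by
    rw [← mul_assoc, ha, one_mul]; exact h.symm
  refine closure_induction_left (p := fun g _ => g ∈ closure S ∨ a * g ∈ closure S)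
    (Or.inl (one_mem _)) ?_ ?_ hg
  · rintro x (rfl | hx) g _ ih
    exacts [stepa g ih, step x (subset_closure hx) g ih]
  · rintro x (rfl | hx) g _ ih
    · rw [ai]; exact stepa g ih
    · exact step _ (inv_mem (subset_closure hx)) g ih

theorem mem_closure_union {S T : Set G} (hc : ∀ t ∈ T, ∀ s ∈ S, Commute t s) {g : G}
    (hg : g ∈ closure (S ∪ T)) : ∃ a ∈ closure S, ∃ b ∈ closure T, g = a * b := by
  have cc : ∀ a ∈ closure S, ∀ b ∈ closure T, Commute b a := fun a ha b hb =>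
    commute_closure (fun t ht => (commute_closure (fun s hs => (hc t ht s hs).symm) ha).symm) hb
  refine closure_induction (p := fun g _ => ∃ a ∈ closure S, ∃ b ∈ closure T, g = a * b) ?_
    ⟨1, one_mem _, 1, one_mem _, (mul_one _).symm⟩ ?_ ?_ hg
  · rintro x (hx | hx)
    exacts [⟨x, subset_closure hx, 1, one_mem _, (mul_one _).symm⟩,
      ⟨1, one_mem _, x, subset_closure hx, (one_mul _).symm⟩]
  · rintro _ _ _ _ ⟨a, ha, b, hb, rfl⟩ ⟨a', ha', b', hb', rfl⟩
    exact ⟨_, mul_mem ha ha', _, mul_mem hb hb', (cc a' ha' b hb).mul_mul_mul_comm _ _⟩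
  · rintro _ _ ⟨a, ha, b, hb, rfl⟩
    exact ⟨_, inv_mem ha, _, inv_mem hb, by
      rw [_root_.mul_inv_rev, (cc _ (inv_mem ha) _ (inv_mem hb)).eq]⟩

theorem not_mem_of_odd0 [Finite G] {ζ : G} (hζ : ∀ g, Commute ζ g) (hζ2 : ζ * ζ = 1)
    {P H : Subgroup G} (hP : ζ ∉ P) (hPH : ∀ g ∈ H, g ∈ P ∨ ζ * g ∈ P)
    (ho : Odd H.index) {S : Set G} (h2 : ∀ s ∈ S, s * s = 1)
    (h : ∀ s ∈ S, ∀ g, cj g s ∈ H → cj g s ∈ P) : ζ ∉ closure S := by
  classical
  intro hz
  obtain ⟨χ, hχ⟩ : ∃ χ : H →* ℤˣ, ∀ g, χ g = if g.1 ∈ P then 1 else -1 := by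
    refine ⟨MonoidHom.mk' (fun g => if g.1 ∈ P then 1 else -1) fun a b => ?_, fun _ => rfl⟩
    have ha := hPH _ a.2
    have hb := hPH _ b.2
    rw [coe_mul]
    by_cases k1 : a.1 ∈ P <;> by_cases k2 : b.1 ∈ P
    · rw [if_pos k1, if_pos k2, if_pos (mul_mem k1 k2), one_mul]
    · rw [if_pos k1, if_neg k2, if_neg fun k => k2 ((P.mul_mem_cancel_left k1).mp k), one_mul]
    · rw [if_neg k1, if_pos k2, if_neg fun k => k1 ((P.mul_mem_cancel_right k2).mp k), mul_one]
    · rw [if_neg k1, if_neg k2, if_pos]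
      · rfl
      have := mul_mem (ha.resolve_left k1) (hb.resolve_left k2)
      rwa [((hζ _).symm.mul_mul_mul_comm _ _), hζ2, one_mul] at this
  have h1 : closure S ≤ (MonoidHom.transfer χ).ker := (closure_le _).mpr fun s hs => by
    haveI := Fintype.ofFinite (Quotient (MulAction.orbitRel (zpowers s) (G ⧸ H)))
    refine (MonoidHom.transfer_eq_prod_quotient_orbitRel_zpowers_quot χ _).trans
      (Finset.prod_eq_one fun q _ => ?_)
    have key : ∀ (k : ℕ) (g : G), g⁻¹ * s ^ k * g ∈ H → g⁻¹ * s ^ k * g ∈ P := fun k g hk => by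
      rcases Nat.even_or_odd' k with ⟨j, rfl | rfl⟩
      · simp [pow_mul, sq, h2 s hs]
      · rw [pow_succ, pow_mul, sq, h2 s hs, one_pow, one_mul] at hk ⊢
        have := h s hs g⁻¹ (by rwa [cj_def, inv_inv])
        rwa [cj_def, inv_inv] at this
    rw [hχ, if_pos (key _ _ (QuotientGroup.out_conj_pow_minimalPeriod_mem H s q.out))]
  have h3 := MonoidHom.transfer_eq_pow χ ζ fun k g _ => by
    rw [mul_assoc, ((hζ _).pow_left k).eq, inv_mul_cancel_left]
  rw [MonoidHom.mem_ker.mp (h1 hz), hχ, if_neg] at h3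
  · exact absurd h3 (by decide)
  obtain ⟨j, hj⟩ := ho
  change ζ ^ H.index ∉ P
  rwa [hj, pow_succ, pow_mul, sq, hζ2, one_pow, one_mul]

/-- transfer of a sign character from a subgroup of odd index -/
theorem not_mem_of_odd [Finite G] {ζ : G} (hζ : ∀ g, Commute ζ g) (hζ2 : ζ * ζ = 1)
    {P H L : Subgroup G} (hP : ζ ∉ P) (hPH : ∀ g ∈ H, g ∈ P ∨ ζ * g ∈ P)
    (ho : Odd (H.relIndex L)) {S : Set G} (hS : S ⊆ L) (h2 : ∀ s ∈ S, s * s = 1)
    (h : ∀ s ∈ S, ∀ g ∈ L, cj g s ∈ H → cj g s ∈ P) : ζ ∉ closure S := by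
  intro hz
  have hL : closure S ≤ L := (closure_le _).mpr hS
  refine not_mem_of_odd0 (G := L) (ζ := ⟨ζ, hL hz⟩) (fun g => Subtype.ext (hζ g.1))
    (Subtype.ext hζ2) (P := P.subgroupOf L) (H := H.subgroupOf L) hP (fun g hg => hPH g.1 hg) ho
    (S := L.subtype ⁻¹' S) (fun s hs => Subtype.ext (h2 _ hs)) (fun s hs g k => h _ hs _ g.2 k) ?_
  have : (closure (L.subtype ⁻¹' S)).map L.subtype = closure S := by
    rw [MonoidHom.map_closure, Set.image_preimage_eq_of_subset]
    exact fun s hs => ⟨⟨s, hS hs⟩, rfl⟩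
  rw [← this] at hz
  obtain ⟨y, hy, e⟩ := hz
  exact (show y = ⟨ζ, _⟩ from Subtype.ext e) ▸ hy

theorem closure_pair_center {t t' s : G} (h1 : t * t = 1) (h2 : t' * t' = 1)
    (h3 : t * t' * t = t' * t * t') (hn : ¬ Commute t t') (hs : s ∈ closure ({t, t'} : Set G))
    (c1 : Commute s t) (c2 : Commute s t') : s = 1 := by
  have i1 : t⁻¹ = t := inv_eq_of_mul_eq_one_right h1
  have i2 : t'⁻¹ = t' := inv_eq_of_mul_eq_one_right h2
  have a1 : ∀ x, t * (t * x) = x := fun x => by rw [← mul_assoc, h1, one_mul]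
  have a2 : ∀ x, t' * (t' * x) = x := fun x => by rw [← mul_assoc, h2, one_mul]
  have step : ∀ x ∈ ({t, t'} : Set G), ∀ g, (g = 1 ∨ g = t ∨ g = t' ∨ g = t * t' ∨ g = t' * t ∨
      g = t * t' * t) → (x * g = 1 ∨ x * g = t ∨ x * g = t' ∨ x * g = t * t' ∨ x * g = t' * t ∨
      x * g = t * t' * t) := by
    rintro x (rfl | rfl) g (rfl | rfl | rfl | rfl | rfl | rfl)
    · simp
    · simp [h1]
    · simp
    · simp [a1]
    · simp [mul_assoc]
    · simp [mul_assoc, a1]
    · simp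
    · simp
    · simp [h2]
    · simp [h3, mul_assoc]
    · simp [a2]
    · rw [h3]; simp [mul_assoc, a2]
  have := closure_induction_left (p := fun g _ => g = 1 ∨ g = t ∨ g = t' ∨ g = t * t' ∨
    g = t' * t ∨ g = t * t' * t) (Or.inl rfl) (fun x hx g _ ih => step x hx g ih)
    (fun x hx g _ ih => by
      rw [show x⁻¹ = x by rcases hx with rfl | rfl <;> assumption]; exact step x hx g ih) hs
  rcases this with rfl | rfl | rfl | rfl | rfl | rfl
  · rfl
  · exact absurd c2 hn
  · exact absurd c1.symm hn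
  · exact absurd (by simpa [a1] using (Commute.refl t).mul_left c1 : Commute t' t).symm hn
  · exact absurd (by simpa [a2] using (Commute.refl t').mul_left c2) hn
  · exact absurd (by
      simpa [a1, mul_assoc, h1] using ((Commute.refl t).mul_left c1).mul_left (Commute.refl t) :
      Commute t' t).symm hn

theorem UMod.two [Finite G] {D : Set G} {v : G → Fin 2 → F4} (h : UMod D v) {s : G}
    (hs : s ∈ closure D) (hc : ∀ d ∈ D, Commute s d) : s = 1 := by
  obtain ⟨t, ht, l, hl, e⟩ := h.surj' (y := ![1, 1]) (by decide) (by decide)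
  obtain ⟨t', ht', l', hl', e'⟩ := h.surj' (y := ![1, F4.w]) (by decide) (by decide)
  have hn : ¬ Commute t t' := fun k => by
    have := (h.pol t ht t' ht').mpr k
    rw [e, e'] at this
    simp only [map_smul, map_smulₛₗ, LinearMap.smul_apply, smul_eq_mul, mul_eq_zero, hl,
      map_eq_zero, hl', false_or] at this
    revert this; decide
  have h3 : D.ncard = 3 := by have := h.ncard; omega
  have hD : ({t, t', cj t t'} : Set G) = D := by
    refine Set.eq_of_subset_of_ncard_le ?_ (by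
      rw [h3, Set.ncard_eq_three.mpr ⟨t, t', cj t t', fun k => hn (k ▸ Commute.refl t),
        (cj_ne_left h.ts.set ht ht' hn).symm, (cj_ne_right hn).symm, rfl⟩])
    rintro _ (rfl | rfl | rfl)
    exacts [ht, ht', h.ts.cjm _ ht _ ht']
  have := cj_comm h.ts.set ht ht' hn
  rw [cj_def, cj_def, inv_eq h.ts.set ht, inv_eq h.ts.set ht'] at this
  refine closure_pair_center (h.ts.sq ht) (h.ts.sq ht') this hn ?_ (hc t ht) (hc t' ht')
  refine (closure_le _).mpr ?_ hs
  rw [← hD]
  have m1 : t ∈ closure ({t, t'} : Set G) := subset_closure (by simp)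
  have m2 : t' ∈ closure ({t, t'} : Set G) := subset_closure (by simp)
  rintro _ (rfl | rfl | rfl)
  exacts [m1, m2, cj_mem m1 m2]

theorem UMod.five {n : ℕ} {D : Set G} {v : G → Fin n → F4} (h : UMod D v) {u u' : G} (hu : u ∈ D)
    (hu' : u' ∈ D) (hne : u ≠ u') (hc : Commute u u') :
    ∃ p ∈ D, ∃ q ∈ D, ∃ r ∈ D, p ≠ u ∧ p ≠ u' ∧ p ≠ q ∧ p ≠ r ∧
      (∀ t ∈ D, Commute t u → Commute t u' → Commute t p ∧ Commute t q ∧ Commute t r) ∧
      ∀ d ∈ D, Commute (u * u' * p * q * r) d := by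
  have i1 := h.iso hu
  have i2 := h.iso hu'
  have i3 := (h.pol u hu u' hu').mpr hc
  have i4 := hf_comm.mp i3
  have pt : ∀ c : F4, ∃ p ∈ D, ∃ l : F4, l ≠ 0 ∧ v p = l • (v u' + c • v u) := fun c =>
    h.surj' (fun k => hne (h.inj u' hu' u hu (-c) (by
      rw [neg_smul]; exact eq_neg_of_add_eq_zero_left k)).symm) (by simp [i1, i2, i3, i4])
  have ind : ∀ a b : F4, a • v u' + b • v u = 0 → a = 0 ∧ b = 0 := fun a b k => by
    have ha : a = 0 := by
      by_contra ha
      exact hne (h.inj u' hu' u hu (-(a⁻¹ * b)) (by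
        rw [neg_smul, ← smul_smul, ← smul_neg, ← eq_neg_of_add_eq_zero_left k, smul_smul,
          inv_mul_cancel₀ ha, one_smul])).symm
    rw [ha, zero_smul, zero_add] at k
    exact ⟨ha, (smul_eq_zero.mp k).resolve_right (h.ne u hu)⟩
  obtain ⟨p, hp, l1, n1, e1⟩ := pt 1
  obtain ⟨q, hq, l2, n2, e2⟩ := pt F4.w
  obtain ⟨r, hr, l3, n3, e3⟩ := pt F4.v
  refine ⟨p, hp, q, hq, r, hr, fun k => ?_, fun k => ?_, fun k => ?_, fun k => ?_,
    fun t ht c1 c2 => ?_, fun d hd => h.cent ?_ hd⟩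
  · rw [k] at e1
    exact n1 (ind l1 (l1 - 1) (by linear_combination (norm := module) -e1)).1
  · rw [k] at e1
    exact n1 (ind (l1 - 1) l1 (by linear_combination (norm := module) -e1)).2
  · rw [k, e2] at e1
    have := ind (l1 - l2) (l1 - l2 * F4.w) (by linear_combination (norm := module) -e1)
    revert this n2; generalize l1 = a; generalize l2 = b; revert a b; decide
  · rw [k, e3] at e1
    have := ind (l1 - l3) (l1 - l3 * F4.v) (by linear_combination (norm := module) -e1)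
    revert this n3; generalize l1 = a; generalize l3 = b; revert a b; decide
  · have k1 := (h.pol t ht u hu).mpr c1
    have k2 := (h.pol t ht u' hu').mpr c2
    refine ⟨(h.pol t ht p hp).mp ?_, (h.pol t ht q hq).mp ?_, (h.pol t ht r hr).mp ?_⟩
    · simp [e1, k1, k2]
    · simp [e2, k1, k2]
    · simp [e3, k1, k2]
  · have := ((((h.act hu).mul (h.act hu')).mul (h.act hp)).mul (h.act hq)).mul (h.act hr)
    rw [e1, e2, e3, qT_smul _ _ n1, qT_smul _ _ n2, qT_smul _ _ n3] at this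
    convert this using 1
    refine mat_ext fun y => ?_
    simp only [← mulVec_mulVec, qT_mulVec, one_mulVec, map_add, map_smul, map_smulₛₗ,
      LinearMap.add_apply, LinearMap.smul_apply, i1, i2, i3, i4, smul_eq_mul, mul_zero, add_zero,
      one_mul, RingHom.id_apply]
    ext i
    simp only [Pi.add_apply, Pi.smul_apply, smul_eq_mul]
    have k : ∀ a b c d : F4, (fr 1 * b + a) * (c + 1 * d) + (fr F4.w * b + a) * (c + F4.w * d) +
      (fr F4.v * b + a) * (c + F4.v * d) + a * c + b * d = 0 := by decide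
    linear_combination -k (hf y (v u')) (hf y (v u)) (v u' i) (v u i)

end Cfsg.Agent.Fis
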