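import Cfsg.Agent.Lib.Fischer.Lines

set_option autoImplicit false

/-! # Fischer's theorem: geometric vocabulary and transport along coverings -/

namespace Cfsg.Agent.Fis

open Subgroup Cfsg.Agent.Lib.Fischer Cfsg.Agent.Lib.Invol

variable {G : Type*} [Group G] {G' : Type*} [Group G']

/-- a set of 3-transpositions closed under its own conjugations -/
structure TS (D : Set G) : Prop where
  set : IsThreeTranspositionSet D
  cjm : ∀ d ∈ D, ∀ e ∈ D, cj d e ∈ D

theorem TS.of_class {D : Set G} (hD : IsThreeTranspositionClass D) : TS D :=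
  ⟨hD.1, fun d _ _ he => cj_mem_D hD he d⟩

theorem cj_ne_of {x d e : G} (h : Commute x d) (he : e ≠ x) : cj d e ≠ x := fun k =>
  he (by rw [← cj_inj (g := d), k, cj_of_commute h.symm])

theorem perp_sub {D : Set G} {x : G} : perp D x ⊆ D := fun _ h => h.1

theorem TS.sub {D E : Set G} (h : TS D) (hE : E ⊆ D) (hc : ∀ d ∈ E, ∀ e ∈ E, cj d e ∈ E) : TS E :=
  ⟨⟨fun d hd => h.set.1 d (hE hd), fun d hd e he => h.set.2 d (hE hd) e (hE he)⟩, hc⟩

theorem TS.perp {D : Set G} (h : TS D) (x : G) : TS (perp D x) :=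
  h.sub perp_sub fun d hd e he =>
    ⟨h.cjm d hd.1 e he.1, cj_ne_of hd.2.2 he.2.1, commute_cj_of hd.2.2 he.2.2⟩

theorem TS.sq {D : Set G} (h : TS D) {d : G} (hd : d ∈ D) : d * d = 1 :=
  threeTransp_mul_self h.set hd

theorem TS.cj_closure {D S : Set G} (h : TS D) (hS : S ⊆ D) {g : G} (hg : g ∈ closure S) :
    ∀ e ∈ D, cj g e ∈ D := by
  refine closure_induction_left (p := fun g _ => ∀ e ∈ D, cj g e ∈ D) (fun e he => by simpa)
    (fun x hx y _ ih e he => ?_) (fun x hx y _ ih e he => ?_) hg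
  · rw [cj_mul]; exact h.cjm x (hS hx) _ (ih e he)
  · rw [cj_mul, inv_eq h.set (hS hx)]; exact h.cjm x (hS hx) _ (ih e he)

theorem commute_closure {S : Set G} {x g : G} (h : ∀ s ∈ S, Commute s x) (hg : g ∈ closure S) :
    Commute g x := by
  have : closure S ≤ centralizer {x} := (closure_le _).mpr
    fun y hy => mem_centralizer_singleton_iff.mpr (h y hy)
  exact mem_centralizer_singleton_iff.mp (this hg)

theorem perp_perp (D : Set G) (x y : G) : perp (perp D x) y = perp D x ∩ perp D y := by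
  ext w; simp only [mem_perp, Set.mem_inter_iff]; tauto

theorem perp_comm (D : Set G) (x y : G) : perp (perp D x) y = perp (perp D y) x := by
  rw [perp_perp, perp_perp, Set.inter_comm]

theorem mem_perp_symm {D : Set G} {x y : G} (hx : x ∈ D) (h : y ∈ perp D x) : x ∈ perp D y :=
  ⟨hx, h.2.1.symm, h.2.2.symm⟩

/-- the group generated by `x` and the members commuting with it -/
abbrev KK (D : Set G) (x : G) : Subgroup G := closure (insert x (perp D x))

theorem KK_le {D : Set G} {x : G} (hx : x ∈ D) : KK D x ≤ closure D :=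
  closure_mono (Set.insert_subset hx perp_sub)

theorem self_mem_KK {D : Set G} {x : G} : x ∈ KK D x := subset_closure (Set.mem_insert _ _)

theorem mem_KK {D : Set G} {x y : G} (hy : y ∈ D) (h : Commute x y) : y ∈ KK D x := by
  by_cases e : y = x
  · exact e ▸ self_mem_KK
  · exact subset_closure (Set.mem_insert_of_mem _ ⟨hy, e, h⟩)

theorem commute_KK {D : Set G} {x g : G} (hg : g ∈ KK D x) : Commute g x :=
  commute_closure (by rintro s (rfl | h); exacts [Commute.refl _, h.2.2.symm]) hg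

/-- strongly regular commuting graph -/
structure Srg (D : Set G) (n k l m : ℕ) : Prop where
  hn : D.ncard = n
  hk : ∀ x ∈ D, (perp D x).ncard = k
  hl : ∀ x ∈ D, ∀ y ∈ perp D x, (perp D x ∩ perp D y).ncard = l
  hm : ∀ x ∈ D, ∀ c ∈ D, ¬ Commute x c → (perp D x ∩ perp D c).ncard = m

/-- no affine planes -/
def Sym (D : Set G) : Prop := ∀ a ∈ D, ∀ b ∈ D, ∀ e ∈ D, ¬ Commute a b → ¬ Commute e a →
  ¬ Commute e b → Commute e (cj a b)

/-- lines are determined by their perps -/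
def Ker (D : Set G) : Prop := ∀ x ∈ D, ∀ c ∈ D, ∀ c' ∈ D, ¬ Commute x c → ¬ Commute x c' →
  (∀ z ∈ D, Commute x z → Commute c z → Commute c' z) → c' = c ∨ c' = cj x c

def Conn (D : Set G) : Prop := ∀ d ∈ D, ∀ e ∈ D, ∃ g ∈ closure D, cj g d = e

/-- no singular lines -/
def NT (D : Set G) : Prop := ∀ x ∈ D, ∀ u ∈ perp D x, ∀ v ∈ D, v ≠ x → v ≠ u →
  ∃ c ∈ D, Commute c x ∧ Commute c u ∧ ¬ Commute c v

/-- geometric consequences of the rank 3 property -/
structure R3 (D : Set G) : Prop where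
  ts : TS D
  conn : Conn D
  lconn : ∀ x ∈ D, Conn (perp D x)
  tr : ∀ x ∈ D, ∀ c ∈ D, ∀ c' ∈ D, ¬ Commute x c → ¬ Commute x c' → ∃ g ∈ KK D x, cj g c = c'
  zne : ∀ x ∈ D, ∀ c ∈ D, ¬ Commute x c → ∃ z ∈ D, Commute x z ∧ Commute c z
  nc : ∀ x ∈ D, ∃ c ∈ D, ¬ Commute x c
  pp : ∀ x ∈ D, ∃ y, y ∈ perp D x

/-- affine planes and symmetric groups of degree four have perps -/
structure Cov (D : Set G) : Prop where
  h1 : ∀ x ∈ D, ∀ c ∈ D, ∀ e ∈ D, ¬ Commute x c → ¬ Commute e x → ¬ Commute e c →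
    ¬ Commute e (cj x c) → ∃ w ∈ D, Commute w x ∧ Commute w c ∧ Commute w e
  h2 : ∀ x ∈ D, ∀ c ∈ D, ∀ y ∈ D, ¬ Commute x c → Commute x y → ¬ Commute c y →
    ∃ w ∈ D, Commute w x ∧ Commute w c ∧ Commute w y

/-- centralizers are generated by transpositions -/
def PP (D : Set G) : Prop := ∀ x ∈ D, ∀ g ∈ closure D, Commute g x →
  ∃ k ∈ KK D x, ∀ d ∈ D, cj g d = cj k d

/-- order of the group induced on `D` -/
noncomputable def ord (D : Set G) : ℕ := (centralizer D).relIndex (closure D)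

/-- a covering -/
structure Cover (D : Set G) (D' : Set G') (π : G → G') : Prop where
  ts : TS D
  mul : ∀ a ∈ closure D, ∀ b ∈ closure D, π (a * b) = π a * π b
  bij : Set.BijOn π D D'
  comm : ∀ d ∈ D, ∀ e ∈ D, Commute (π d) (π e) ↔ Commute d e

namespace Cover
variable {D : Set G} {D' : Set G'} {π : G → G'} (h : Cover D D' π)
include h

theorem mem {d : G} (hd : d ∈ D) : π d ∈ D' := h.bij.mapsTo hd

theorem inj {d e : G} (hd : d ∈ D) (he : e ∈ D) : π d = π e ↔ d = e :=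
  ⟨fun k => h.bij.injOn hd he k, fun k => k ▸ rfl⟩

theorem surj {d' : G'} (hd : d' ∈ D') : ∃ d ∈ D, π d = d' := h.bij.surjOn hd

/-- the homomorphism -/
def hom : closure D →* G' := MonoidHom.mk' (fun g => π g) fun a b => h.mul a a.2 b b.2

theorem one : π 1 = 1 := h.hom.map_one

theorem inv {g : G} (hg : g ∈ closure D) : π g⁻¹ = (π g)⁻¹ := h.hom.map_inv ⟨g, hg⟩

theorem cj_eq {g e : G} (hg : g ∈ closure D) (he : e ∈ closure D) :
    π (cj g e) = cj (π g) (π e) := by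
  rw [cj_def, cj_def, h.mul _ (mul_mem hg he) _ (inv_mem hg), h.mul _ hg _ he, h.inv hg]

theorem cj' {d e : G} (hd : d ∈ D) (he : e ∈ D) : π (cj d e) = cj (π d) (π e) :=
  h.cj_eq (subset_closure hd) (subset_closure he)

theorem lift {S : Set G} (hS : S ⊆ D) {g' : G'} (hg : g' ∈ closure (π '' S)) :
    ∃ g ∈ closure S, π g = g' := by
  refine closure_induction (p := fun g' _ => ∃ g ∈ closure S, π g = g') ?_ ⟨1, one_mem _, h.one⟩
    ?_ ?_ hg
  · rintro _ ⟨s, hs, rfl⟩; exact ⟨s, subset_closure hs, rfl⟩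
  · rintro _ _ _ _ ⟨a, ha, rfl⟩ ⟨b, hb, rfl⟩
    exact ⟨a * b, mul_mem ha hb, h.mul _ (closure_mono hS ha) _ (closure_mono hS hb)⟩
  · rintro _ _ ⟨a, ha, rfl⟩
    exact ⟨a⁻¹, inv_mem ha, h.inv (closure_mono hS ha)⟩

theorem push {S : Set G} (hS : S ⊆ D) {g : G} (hg : g ∈ closure S) : π g ∈ closure (π '' S) := by
  refine closure_induction (p := fun g _ => π g ∈ closure (π '' S))
    (fun s hs => subset_closure ⟨s, hs, rfl⟩) (h.one ▸ one_mem _) (fun a b ha hb k1 k2 => ?_)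
    (fun a ha k => ?_) hg
  · rw [h.mul _ (closure_mono hS ha) _ (closure_mono hS hb)]; exact mul_mem k1 k2
  · rw [h.inv (closure_mono hS ha)]; exact inv_mem k

theorem mem_perp {x y : G} (hx : x ∈ D) (hy : y ∈ D) : π y ∈ perp D' (π x) ↔ y ∈ perp D x := by
  simp only [Lib.Fischer.mem_perp, h.mem hy, hy, ne_eq, h.inj hy hx, h.comm x hx y hy]

theorem image_perp {x : G} (hx : x ∈ D) : π '' perp D x = perp D' (π x) := by
  ext y
  constructor
  · rintro ⟨y, hy, rfl⟩; exact (h.mem_perp hx hy.1).mpr hy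
  · intro hy
    obtain ⟨y, k, rfl⟩ := h.surj hy.1
    exact ⟨y, (h.mem_perp hx k).mp hy, rfl⟩

theorem sub {E : Set G} (hE : E ⊆ D) (hT : TS E) : Cover E (π '' E) π :=
  ⟨hT, fun a ha b hb => h.mul a (closure_mono hE ha) b (closure_mono hE hb),
    (h.bij.injOn.mono hE).bijOn_image, fun d hd e he => h.comm d (hE hd) e (hE he)⟩

theorem perp {x : G} (hx : x ∈ D) : Cover (perp D x) (perp D' (π x)) π :=
  h.image_perp hx ▸ h.sub perp_sub (h.ts.perp x)

theorem image : π '' D = D' := h.bij.image_eq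

theorem ncard {S : Set G} (hS : S ⊆ D) : (π '' S).ncard = S.ncard :=
  (h.bij.injOn.mono hS).ncard_image

theorem image_KK {x : G} (hx : x ∈ D) :
    π '' insert x (Lib.Fischer.perp D x) = insert (π x) (Lib.Fischer.perp D' (π x)) := by
  rw [Set.image_insert_eq, h.image_perp hx]

theorem srg {n k l m : ℕ} (s : Srg D' n k l m) : Srg D n k l m := by
  have e : ∀ x ∈ D, ∀ y ∈ D, (Lib.Fischer.perp D x ∩ Lib.Fischer.perp D y).ncard =
      (Lib.Fischer.perp D' (π x) ∩ Lib.Fischer.perp D' (π y)).ncard := fun x hx y hy => by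
    rw [← h.image_perp hx, ← h.image_perp hy,
      ← h.bij.injOn.image_inter perp_sub perp_sub, h.ncard fun _ k => k.1.1]
  refine ⟨by rw [← s.hn, ← h.image, h.ncard subset_rfl], fun x hx => ?_, fun x hx y hy => ?_,
    fun x hx c hc k => ?_⟩
  · rw [← s.hk _ (h.mem hx), ← h.image_perp hx, h.ncard perp_sub]
  · rw [e x hx y hy.1, s.hl _ (h.mem hx) _ ((h.mem_perp hx hy.1).mpr hy)]
  · rw [e x hx c hc, s.hm _ (h.mem hx) _ (h.mem hc) (by rwa [h.comm x hx c hc])]

theorem sym (s : Sym D') : Sym D := fun a ha b hb e he h1 h2 h3 => by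
  rw [← h.comm _ he _ (h.ts.cjm a ha b hb), h.cj' ha hb]
  exact s _ (h.mem ha) _ (h.mem hb) _ (h.mem he) (by rwa [h.comm a ha b hb])
    (by rwa [h.comm e he a ha]) (by rwa [h.comm e he b hb])

theorem ker (s : Ker D') : Ker D := fun x hx c hc c' hc' h1 h2 h3 => by
  rw [← h.inj hc' hc, ← h.inj hc' (h.ts.cjm x hx c hc), h.cj' hx hc]
  refine s _ (h.mem hx) _ (h.mem hc) _ (h.mem hc') (by rwa [h.comm x hx c hc])
    (by rwa [h.comm x hx c' hc']) fun z hz => ?_
  obtain ⟨z, k, rfl⟩ := h.surj hz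
  rw [h.comm x hx z k, h.comm c hc z k, h.comm c' hc' z k]
  exact h3 z k

theorem conn (s : Conn D') : Conn D := fun d hd e he => by
  obtain ⟨g, hg0, k⟩ := s _ (h.mem hd) _ (h.mem he)
  rw [← h.image] at hg0
  obtain ⟨g, hg, rfl⟩ := h.lift subset_rfl hg0
  rw [← h.cj_eq hg (subset_closure hd), h.inj (h.ts.cj_closure subset_rfl hg d hd) he] at k
  exact ⟨g, hg, k⟩

theorem nt (s : NT D') : NT D := fun x hx u hu v hv h1 h2 => by
  obtain ⟨c, hc0, k⟩ := s _ (h.mem hx) _ ((h.mem_perp hx hu.1).mpr hu) _ (h.mem hv)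
    (by rwa [ne_eq, h.inj hv hx]) (by rwa [ne_eq, h.inj hv hu.1])
  obtain ⟨c, hc, rfl⟩ := h.surj hc0
  rw [h.comm c hc x hx, h.comm c hc u hu.1, h.comm c hc v hv] at k
  exact ⟨c, hc, k⟩

theorem r3 (s : R3 D') : R3 D := by
  refine ⟨h.ts, h.conn s.conn, fun x hx => (h.perp hx).conn (s.lconn _ (h.mem hx)),
    fun x hx c hc c' hc' h1 h2 => ?_, fun x hx c hc h1 => ?_, fun x hx => ?_, fun x hx => ?_⟩
  · obtain ⟨g, hg0, k⟩ := s.tr _ (h.mem hx) _ (h.mem hc) _ (h.mem hc') (by rwa [h.comm x hx c hc])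
      (by rwa [h.comm x hx c' hc'])
    rw [KK, ← h.image_KK hx] at hg0
    obtain ⟨g, hg, rfl⟩ := h.lift (Set.insert_subset hx perp_sub) hg0
    rw [← h.cj_eq (KK_le hx hg) (subset_closure hc),
      h.inj (h.ts.cj_closure subset_rfl (KK_le hx hg) c hc) hc'] at k
    exact ⟨g, hg, k⟩
  · obtain ⟨z, hz0, k⟩ := s.zne _ (h.mem hx) _ (h.mem hc) (by rwa [h.comm x hx c hc])
    obtain ⟨z, hz, rfl⟩ := h.surj hz0
    rw [h.comm x hx z hz, h.comm c hc z hz] at k
    exact ⟨z, hz, k⟩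
  · obtain ⟨z, hz0, k⟩ := s.nc _ (h.mem hx)
    obtain ⟨z, hz, rfl⟩ := h.surj hz0
    rw [h.comm x hx z hz] at k
    exact ⟨z, hz, k⟩
  · obtain ⟨z, hz⟩ := s.pp _ (h.mem hx)
    obtain ⟨z, k, rfl⟩ := h.surj hz.1
    exact ⟨z, (h.mem_perp hx k).mp hz⟩

theorem cov (s : Cov D') : Cov D := by
  refine ⟨fun x hx c hc e he h1 h2 h3 h4 => ?_, fun x hx c hc y hy h1 h2 h3 => ?_⟩
  · obtain ⟨z, hz0, k⟩ := s.h1 _ (h.mem hx) _ (h.mem hc) _ (h.mem he) (by rwa [h.comm x hx c hc])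
      (by rwa [h.comm e he x hx]) (by rwa [h.comm e he c hc])
      (by rwa [← h.cj' hx hc, h.comm e he _ (h.ts.cjm x hx c hc)])
    obtain ⟨z, hz, rfl⟩ := h.surj hz0
    rw [h.comm z hz x hx, h.comm z hz c hc, h.comm z hz e he] at k
    exact ⟨z, hz, k⟩
  · obtain ⟨z, hz0, k⟩ := s.h2 _ (h.mem hx) _ (h.mem hc) _ (h.mem hy) (by rwa [h.comm x hx c hc])
      (by rwa [h.comm x hx y hy]) (by rwa [h.comm c hc y hy])
    obtain ⟨z, hz, rfl⟩ := h.surj hz0
    rw [h.comm z hz x hx, h.comm z hz c hc, h.comm z hz y hy] at k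
    exact ⟨z, hz, k⟩

theorem pp (s : PP D') : PP D := fun x hx g hg h1 => by
  obtain ⟨k, hk0, h2⟩ := s _ (h.mem hx) (π g) (h.image ▸ h.push subset_rfl hg) (by
    rw [← cj_eq_self_iff, ← h.cj_eq hg (subset_closure hx), cj_of_commute h1])
  rw [KK, ← h.image_KK hx] at hk0
  obtain ⟨k, hk, rfl⟩ := h.lift (Set.insert_subset hx perp_sub) hk0
  refine ⟨k, hk, fun d hd => ?_⟩
  rw [← h.inj (h.ts.cj_closure subset_rfl hg d hd) (h.ts.cj_closure subset_rfl (KK_le hx hk) d hd),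
    h.cj_eq hg (subset_closure hd), h.cj_eq (KK_le hx hk) (subset_closure hd), h2 _ (h.mem hd)]

theorem ord_eq : ord D = ord D' := by
  let f : closure D →* closure D' := h.hom.codRestrict _ fun g => h.image ▸ h.push subset_rfl g.2
  have hs : Function.Surjective f := fun g => by
    obtain ⟨g, hg, e⟩ := h.lift subset_rfl (g' := g.1) (by rw [h.image]; exact g.2)
    exact ⟨⟨g, hg⟩, Subtype.ext e⟩
  rw [ord, ord, relIndex, relIndex, ← index_comap_of_surjective _ hs]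
  congr 1
  ext g
  simp only [mem_subgroupOf, mem_comap, mem_centralizer_iff]
  constructor
  · intro k d hd0
    obtain ⟨d, hd, rfl⟩ := h.surj hd0
    show π d * π g = π g * π d
    rw [← h.mul _ (subset_closure hd) _ g.2, ← h.mul _ g.2 _ (subset_closure hd), k d hd]
  · intro k d hd
    have : Commute (π g) (π d) := (k _ (h.mem hd)).symm
    rw [← cj_eq_self_iff, ← h.cj_eq g.2 (subset_closure hd),
      h.inj (h.ts.cj_closure subset_rfl g.2 d hd) hd, cj_eq_self_iff] at this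
    exact this.symm

end Cover

theorem cover_cj {D : Set G} (h : TS D) (g : G) : Cover D (cj g '' D) (cj g) :=
  ⟨h, fun a _ b _ => cj_mul_right g a b, (cj_injective g).injOn.bijOn_image,
    fun _ _ _ _ => commute_cj⟩

theorem cover_perp {D : Set G} (hD : IsThreeTranspositionClass D) {x w : G} (hx : x ∈ D)
    (hw : w ∈ D) : ∃ π : G → G, Cover (perp D w) (perp D x) π := by
  obtain ⟨g, rfl⟩ := exists_cj hD hw hx
  exact ⟨cj g, image_perp hD w g ▸ cover_cj ((TS.of_class hD).perp w) g⟩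

theorem R3.of_fi [Finite G] {D : Set G} (hF : Fi D) : R3 D := by
  refine ⟨TS.of_class hF.cl, fun d hd e he => ?_, fun x hx d hd e he => hF.perp_trans hx hd he,
    fun x hx c hc c' hc' h1 h2 => ?_, fun x hx c hc h1 => ?_, fun x hx => hF.exists_nc hx,
    fun x hx => ?_⟩
  · obtain ⟨g, hg⟩ := exists_cj hF.cl hd he
    exact ⟨g, hF.cl.2.2 ▸ mem_top g, hg⟩
  · obtain ⟨g, hg, k⟩ := hF.nc_trans hx hc hc' h1 h2
    exact ⟨g, (closure_le _).mpr (fun y hy => mem_KK hy.1 hy.2) hg, k⟩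
  · by_contra h2
    push Not at h2
    have hD := hF.cl
    obtain ⟨y, hy, k1, k2⟩ := hF.exists_perp hx
    obtain ⟨w, hw, k3, k4⟩ := hF.exists_comm_nc hy hx k1
    obtain ⟨g, e1, e2⟩ := hF.pair_nc hy hw (fun k => k4 k.symm) hx hc h1
    refine h2 _ (cj_mem_D hD hx g) ?_ ?_
    · conv_lhs => rw [← e1]
      exact commute_cj.mpr k2.symm
    · rw [← e2]; exact commute_cj.mpr k3
  · obtain ⟨y, hy, k⟩ := hF.exists_perp hx
    exact ⟨y, hy, k⟩

theorem exists_srg [Finite G] {D : Set G} (hF : Fi D) : ∃ n k l m, Srg D n k l m := by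
  have hD := hF.cl
  obtain ⟨x, hx, -⟩ := hD.2.1
  obtain ⟨y, hy⟩ := hF.exists_perp hx
  obtain ⟨c, hc, hxc⟩ := hF.exists_nc hx
  have e : ∀ g a b : G, (perp D (cj g a) ∩ perp D (cj g b)).ncard =
      (perp D a ∩ perp D b).ncard := fun g a b => by
    rw [← image_perp hD, ← image_perp hD, ← Set.image_inter (cj_injective g),
      Set.ncard_image_of_injective _ (cj_injective g)]
  refine ⟨_, (perp D x).ncard, (perp D x ∩ perp D y).ncard, (perp D x ∩ perp D c).ncard, rfl,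
    fun a ha => ?_, fun a ha b hb => ?_, fun a ha b hb k => ?_⟩
  · obtain ⟨g, rfl⟩ := exists_cj hD hx ha
    rw [← image_perp hD, Set.ncard_image_of_injective _ (cj_injective g)]
  · obtain ⟨g, rfl, rfl⟩ := hF.pair_perp hx hy ha hb
    exact e g x y
  · obtain ⟨g, rfl, rfl⟩ := hF.pair_nc hx hc hxc ha hb k
    exact e g x c

/-- `Ker` is inherited from the local spaces -/
theorem Ker.of_local {D : Set G} (h : R3 D) (hL : ∀ z ∈ D, Ker (perp D z)) : Ker D := by
  intro x hx c hc c' hc' h1 h2 h3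
  obtain ⟨z, hz, k1, k2⟩ := h.zne x hx c hc h1
  refine hL z hz x ⟨hx, fun e => h1 (e ▸ k2.symm), k1.symm⟩ c ⟨hc, fun e => h1 (e ▸ k1), k2.symm⟩ c'
    ⟨hc', fun e => h2 (e ▸ k1), (h3 z hz k1 k2).symm⟩ h1 h2 fun w hw => h3 w hw.1

end Cfsg.Agent.Fis
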