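import Cfsg.Agent.Lib.Fis.UApi

set_option autoImplicit false

/-! # Fischer's theorem: there is no space on 870 points that is locally `U₅(2)` -/

namespace Cfsg.Agent.Fis

open Subgroup Cfsg.Agent.Lib.Fischer Cfsg.Agent.Lib.Invol Cfsg.Agent.Spor Matrix Module
open Cfsg.Agent.Lib.GL.Herm

universe u

theorem ti_dep {n k : ℕ} (A : Fin k → Fin n → F4) (h : ∀ i j, hf (A i) (A j) = 0)
    (hk : n < 2 * k) : ¬ LinearIndependent F4 A := fun hA => by
  have hB : LinearIndependent F4 (fun i j => fr (A i j)) := by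
    rw [Fintype.linearIndependent_iff] at hA ⊢
    intro g hg i
    have := hA (fun i => fr (g i)) (funext fun j => by
      have := congrArg fr (congrFun hg j)
      simpa [fr_fr] using this) i
    exact (map_eq_zero fr).mp this
  have h1 : (Matrix.of A).rank = k := by simpa using LinearIndependent.rank_matrix (M := of A) hA
  have h2 : (Matrix.of fun i j => fr (A i j)).rank = k := by
    simpa using LinearIndependent.rank_matrix (M := of fun i j => fr (A i j)) hB
  have h3 := rank_add_rank_le_card_of_mul_eq_zero (A := of A)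
    (B := (of fun i j => fr (A i j))ᵀ) (Matrix.ext fun i j => by
      have := h i j
      rw [stdHerm_apply] at this
      simpa [Matrix.mul_apply] using this)
  rw [rank_transpose, h1, h2, Fintype.card_fin] at h3
  omega

theorem qT_five {n : ℕ} {u w : Fin n → F4} (h1 : hf u u = 0) (h2 : hf w w = 0) (h3 : hf u w = 0) :
    qT u 1 * qT (w + (0 : F4) • u) 1 * qT (w + (1 : F4) • u) 1 * qT (w + F4.w • u) 1 *
      qT (w + F4.v • u) 1 = 1 := mat_ext fun y => by
  have h4 := hf_comm.mp h3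
  simp only [← mulVec_mulVec, qT_mulVec, one_mulVec, map_add, map_smulₛₗ, LinearMap.add_apply,
    LinearMap.smul_apply, h1, h2, h3, h4, smul_eq_mul, mul_zero, add_zero, one_mul]
  generalize hf y u = α
  generalize hf y w = β
  ext i
  simp only [Pi.add_apply, Pi.smul_apply, smul_eq_mul]
  generalize y i = s
  generalize u i = t
  generalize w i = r
  revert α β s t r
  decide

variable {G : Type u} [Group G]

/-- the members commuting with three given members -/
def XX (D : Set G) (a b e : G) : Set G := {d | d ∈ D ∧ Commute a d ∧ Commute b d ∧ Commute e d}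

theorem line_five {E : Set G} {v : G → Fin 5 → F4} (h : UMod E v) {b e : G} (hb : b ∈ E)
    (he : e ∈ E) (hne : e ≠ b) (hc : Commute b e) : ∃ p q r,
      (∀ d, (d ∈ E ∧ Commute b d ∧ Commute e d) ↔ d = b ∨ d = e ∨ d = p ∨ d = q ∨ d = r) ∧
      [b, e, p, q, r].Nodup ∧ Commute p q ∧ Commute p r ∧ Commute q r ∧
      ∀ d ∈ E, Commute (b * e * p * q * r) d := by
  have h1 := h.iso hb
  have h2 := h.iso he
  have h3 := (h.pol b hb e he).mpr hc
  have h4 := hf_comm.mp h3
  have ind : ∀ s t : F4, s • v e + t • v b = 0 → s = 0 ∧ t = 0 := fun s t k => by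
    have hs : s = 0 := by
      by_contra hs
      refine hne (h.inj e he b hb (-(s⁻¹ * t)) ?_)
      rw [neg_smul, ← smul_smul, eq_neg_iff_add_eq_zero, ← inv_smul_smul₀ hs (v e), ← smul_add, k,
        smul_zero]
    rw [hs, zero_smul, zero_add, smul_eq_zero] at k
    exact ⟨hs, k.resolve_right (h.ne b hb)⟩
  choose P hP l hl hv using fun c : F4 => h.surj' (y := v e + c • v b)
    (fun k => one_ne_zero (ind 1 c (by rwa [one_smul])).1) (by simp [h1, h2, h3, h4])
  have P0 : P 0 = e := h.inj _ (hP 0) e he (l 0) (by rw [hv]; simp)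
  have Pinj : ∀ c c', P c = P c' → c = c' := fun c c' k => by
    have e1 := hv c
    rw [k, hv c'] at e1
    obtain ⟨k1, k2⟩ := ind (l c' - l c) (l c' * c' - l c * c) (by
      rw [← sub_eq_zero] at e1
      rw [← e1]; module)
    rw [sub_eq_zero] at k1 k2
    rw [k1] at k2
    exact (mul_left_cancel₀ (hl c) k2).symm
  have Pb : ∀ c, b ≠ P c := fun c k => by
    have e1 := hv c
    rw [← k] at e1
    exact hl c (ind (l c) (l c * c - 1) (by
      rw [eq_comm, ← sub_eq_zero] at e1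
      rw [← e1]; module)).1
  have Pc : ∀ c c', Commute (P c) (P c') := fun c c' =>
    (h.pol _ (hP c) _ (hP c')).mp (by rw [hv, hv]; simp [h1, h2, h3, h4])
  have Pbc : ∀ c, Commute b (P c) := fun c =>
    (h.pol _ hb _ (hP c)).mp (by rw [hv]; simp [h1, h3])
  refine ⟨P 1, P F4.w, P F4.v, fun d => ⟨fun ⟨hd, k1, k2⟩ => ?_, ?_⟩, ?_, Pc _ _, Pc _ _, Pc _ _,
    fun d hd => h.cent ?_ hd⟩
  · have k3 := (h.pol _ hb _ hd).mpr k1
    have k4 := (h.pol _ he _ hd).mpr k2
    have := ti_dep ![v b, v e, v d] (by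
      simp [Fin.forall_fin_succ, h1, h2, h3, h4, k3, k4, hf_comm.mp k3, hf_comm.mp k4, h.iso hd])
      (by norm_num)
    obtain ⟨g, g1, g2⟩ := Fintype.not_linearIndependent_iff.mp this
    simp only [Fin.sum_univ_three, cons_val_zero, cons_val_one, cons_val_two, Nat.succ_eq_add_one,
      Nat.reduceAdd, tail_cons, head_cons] at g1
    have g3 : g 2 ≠ 0 := fun k => by
      rw [k, zero_smul, add_zero, add_comm] at g1
      obtain ⟨i, hi⟩ := g2
      fin_cases i
      exacts [hi (ind _ _ g1).2, hi (ind _ _ g1).1, hi k]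
    by_cases g4 : g 1 = 0
    · refine Or.inl (h.inj d hd b hb (-((g 2)⁻¹ * g 0)) ?_)
      rw [g4, zero_smul, add_zero, add_comm] at g1
      rw [neg_smul, ← smul_smul, eq_neg_iff_add_eq_zero, ← inv_smul_smul₀ g3 (v d), ← smul_add, g1,
        smul_zero]
    · have : d = P (g 0 / g 1) := h.inj d hd _ (hP _) (-((g 2)⁻¹ * g 1 * (l (g 0 / g 1))⁻¹)) (by
        rw [hv, smul_smul, neg_mul, inv_mul_cancel_right₀ (hl _), neg_smul, ← smul_smul,
          eq_neg_iff_add_eq_zero, ← inv_smul_smul₀ g3 (v d), ← smul_add, smul_add (g 1), smul_smul,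
          mul_div_cancel₀ _ g4, add_comm, add_comm (g 1 • v e), g1, smul_zero])
      rw [this, ← P0]
      generalize g 0 / g 1 = c
      cases c
      exacts [Or.inr (Or.inl rfl), Or.inr (Or.inr (Or.inl rfl)),
        Or.inr (Or.inr (Or.inr (Or.inl rfl))), Or.inr (Or.inr (Or.inr (Or.inr rfl)))]
  · rw [← P0]
    rintro (rfl | rfl | rfl | rfl | rfl)
    · exact ⟨hb, Commute.refl _, (Pbc 0).symm⟩
    all_goals exact ⟨hP _, Pbc _, Pc _ _⟩
  · have k : ∀ c c', c ≠ c' → P c ≠ P c' := fun c c' k t => k (Pinj c c' t)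
    rw [← P0]
    simp only [List.nodup_cons, List.mem_cons, List.not_mem_nil, or_false, not_or, not_false_eq_true,
      List.nodup_nil, and_true]
    exact ⟨⟨Pb _, Pb _, Pb _, Pb _⟩, ⟨k _ _ (by decide), k _ _ (by decide), k _ _ (by decide)⟩,
      ⟨k _ _ (by decide), k _ _ (by decide)⟩, k _ _ (by decide)⟩
  · have k : ∀ c, Act E v (P c) (qT (v e + c • v b) 1) := fun c => by
      have := h.act (hP c)
      rwa [hv, qT_smul _ _ (hl c)] at this
    have := ((((h.act hb).mul (k 0)).mul (k 1)).mul (k F4.w)).mul (k F4.v)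
    rwa [qT_five h1 h2 h3, P0] at this

variable [Finite G] {D : Set G}

theorem hexad (h : Good D) (hN : NT D) (hL : ∀ x ∈ D, Uni (perp D x) 5) {a b e : G} (ha : a ∈ D)
    (hb : b ∈ perp D a) (he : e ∈ perp D a) (hne : e ≠ b) (hc : Commute b e) : ∃ p q r,
      (∀ d, d ∈ XX D a b e ↔ d = a ∨ d = b ∨ d = e ∨ d = p ∨ d = q ∨ d = r) ∧
      [a, b, e, p, q, r].Nodup ∧ (∀ d ∈ XX D a b e, ∀ d' ∈ XX D a b e, Commute d d') ∧
      a * (b * e * p * q * r) = 1 := by
  obtain ⟨-, -, v, hv⟩ := hL a ha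
  obtain ⟨p, q, r, k1, k2, c1, c2, c3, k3⟩ := line_five hv hb he hne hc
  have hT := TS.of_class h.cl
  obtain ⟨hp, p1, p2⟩ := (k1 p).mpr (by simp)
  obtain ⟨hq, q1, q2⟩ := (k1 q).mpr (by simp)
  obtain ⟨hr, r1, r2⟩ := (k1 r).mpr (by simp)
  have mem : ∀ d, d ∈ XX D a b e ↔ d = a ∨ d = b ∨ d = e ∨ d = p ∨ d = q ∨ d = r := fun d => by
    rw [← k1]
    constructor
    · rintro ⟨t1, t2, t3, t4⟩
      exact (eq_or_ne d a).imp_right fun t => ⟨⟨t1, t, t2⟩, t3, t4⟩
    · rintro (rfl | ⟨t1, t3, t4⟩)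
      exacts [⟨ha, Commute.refl _, hb.2.2.symm, he.2.2.symm⟩, ⟨t1.1, t1.2.2, t3, t4⟩]
  have cen : ∀ g, (∀ d ∈ D, Commute g d) → g = 1 := fun g hg => by
    rw [← mem_bot, ← h.cen, mem_center_iff]
    intro t
    exact commute_closure (S := D) (fun s hs => (hg s hs).symm) (h.cl.2.2 ▸ mem_top t)
  refine ⟨p, q, r, mem, ?_, fun d hd d' hd' => ?_, ?_⟩
  · rw [List.nodup_cons]
    refine ⟨?_, k2⟩
    simp only [List.mem_cons, List.not_mem_nil, or_false, not_or]
    exact ⟨hb.2.1.symm, he.2.1.symm, hp.2.1.symm, hq.2.1.symm, hr.2.1.symm⟩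
  · rcases (mem d).mp hd with rfl | rfl | rfl | rfl | rfl | rfl
    · exact hd'.2.1
    · exact hd'.2.2.1
    · exact hd'.2.2.2
    all_goals rcases (mem d').mp hd' with rfl | rfl | rfl | rfl | rfl | rfl
    all_goals first | exact hd.2.1.symm | exact hd.2.2.1.symm | exact hd.2.2.2.symm |
      exact Commute.refl _ | assumption | (symm; assumption)
  · have hR := R3.of_fi h.fi
    refine cen _ ((kerC hR (Ker.of_local hR fun z hz => (hL z hz).2.1) ha
      (fun d hd => cj_mem_D h.cl hd _) ((((hb.2.2.mul_right he.2.2).mul_right hp.2.2).mul_right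
        hq.2.2).mul_right hr.2.2).symm k3).resolve_left fun k => ?_)
    simp only [List.nodup_cons, List.mem_cons, List.not_mem_nil, or_false, not_or] at k2
    obtain ⟨c, hc', t1, t2, t3⟩ := hN b hb.1 e ⟨he.1, hne, hc⟩ p hp.1 (Ne.symm k2.1.2.1)
      (Ne.symm k2.2.1.1)
    have t4 : Commute (p * q * r) c := by
      have := k c hc'
      rw [mul_assoc (b * e), mul_assoc (b * e)] at this
      simpa only [inv_mul_cancel_left] using (t1.mul_right t2).symm.inv_left.mul_left this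
    by_cases t5 : Commute c r
    · exact k2.2.2.1.1 (hT.eq_of_mul hc' hp.1 hq.1 t3 (by simpa using t4.mul_left t5.symm.inv_left))
    by_cases t6 : Commute c q
    · refine k2.2.2.1.2 (hT.eq_of_mul hc' hp.1 hr.1 t3 ?_)
      rw [mul_assoc, c3.eq, ← mul_assoc] at t4
      simpa using t4.mul_left t6.symm.inv_left
    · exact hT.not_three hc' hp.1 hq.1 hr.1 t3 t6 t5 c1 t4

theorem ncard_XX (h : Good D) (hN : NT D) (hL : ∀ x ∈ D, Uni (perp D x) 5) {a b e : G} (ha : a ∈ D)
    (hb : b ∈ perp D a) (he : e ∈ perp D a) (hne : e ≠ b) (hc : Commute b e) :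
    (XX D a b e).ncard = 6 := by
  classical
  obtain ⟨p, q, r, k1, k2, -⟩ := hexad h hN hL ha hb he hne hc
  have : XX D a b e = ([a, b, e, p, q, r].toFinset : Set G) := Set.ext fun d => by simp [k1]
  rw [this, Set.ncard_coe_finset, List.toFinset_card_of_nodup k2]
  rfl

omit [Finite G] in
/-- the highest root of `D₄` -/
theorem d4_root (h : TS D) {c x y z : G} (hc : c ∈ D) (hx : x ∈ D) (hy : y ∈ D) (hz : z ∈ D)
    (h1 : ¬ Commute c x) (h2 : ¬ Commute c y) (h3 : ¬ Commute c z) (hxy : Commute x y)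
    (hxz : Commute x z) (hyz : Commute y z) :
    ∃ d ∈ XX D x y z, Commute (d * (x * y * z)) c := by
  have key : ∀ {x y z : G}, x ∈ D → y ∈ D → z ∈ D → ¬ Commute c x → ¬ Commute c y →
      ¬ Commute c z → Commute y z → Commute c (cj y (cj z c)) ∧
      Commute x (cj c (cj (x * y * z) c)) := fun {x y z} hx hy hz h1 h2 h3 hyz => by
    have t : Commute c (cj y (cj z c)) := by
      rw [← commute_cj_left h.set hy, ← cj_comm h.set hc hy h2, ← cj_comm h.set hc hz h3,
        commute_cj]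
      exact hyz
    refine ⟨t, ?_⟩
    rw [← commute_cj_left h.set hc, cj_comm h.set hc hx h1, cj_mul, cj_mul, commute_cj]
    exact t
  have hm := cj_mul x y (cj z c) ▸ cj_mul (x * y) z c
  have ht : cj (x * y * z) c ∈ D := hm ▸ h.cjm x hx _ (h.cjm y hy _ (h.cjm z hz c hc))
  refine ⟨cj c (cj (x * y * z) c), ⟨h.cjm c hc _ ht, (key hx hy hz h1 h2 h3 hyz).2, ?_, ?_⟩, ?_⟩
  · rw [hxy.eq]; exact (key hy hx hz h2 h1 h3 hxz).2
  · rw [mul_assoc, hyz.eq, ← mul_assoc, hxz.eq]; exact (key hz hx hy h3 h1 h2 hxy).2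
  · rw [← cj_eq_self_iff, cj_mul]
    refine cj_cj_right h.set hc ht fun k => h1 ?_
    rw [hm, ← commute_cj_left h.set hx] at k
    have := commute_of_cj' h.set hx hc (fun k => h1 k.symm) (key hx hy hz h1 h2 h3 hyz).1.symm k.symm
    exact (commute_of_cj hxz (commute_of_cj hxy this.symm)).symm

theorem two_le_perp (h : Good D) (hN : NT D) (hL : ∀ x ∈ D, Uni (perp D x) 5) {a b e c : G}
    (ha : a ∈ D) (hb : b ∈ perp D a) (he : e ∈ perp D a) (hne : e ≠ b) (hbe : Commute b e)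
    (hc : c ∈ D) (hc' : c ∉ XX D a b e) : 2 ≤ (perp (XX D a b e) c).ncard := by
  by_contra hlt
  have hT := TS.of_class h.cl
  have e1 := ncard_split (XX D a b e) (Commute c)
  have e2 : {x | x ∈ XX D a b e ∧ Commute c x}.ncard ≤ (perp (XX D a b e) c).ncard :=
    Set.ncard_le_ncard fun x hx => ⟨hx.1, fun k => hc' (k ▸ hx.1), hx.2⟩
  rw [ncard_XX h hN hL ha hb he hne hbe] at e1
  obtain ⟨x, hx, y, hy, z, hz, hxy, hxz, hyz⟩ := (Set.two_lt_ncard
    (s := {x | x ∈ XX D a b e ∧ ¬ Commute c x})).mp (by omega)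
  obtain ⟨-, -, -, -, -, cm, -⟩ := hexad h hN hL ha hb he hne hbe
  have c1 := cm x hx.1 y hy.1
  have c2 := cm x hx.1 z hz.1
  have c3 := cm y hy.1 z hz.1
  have hy' : y ∈ perp D x := ⟨hy.1.1, hxy.symm, c1⟩
  have hz' : z ∈ perp D x := ⟨hz.1.1, hxz.symm, c2⟩
  have e3 : XX D a b e = XX D x y z := Set.eq_of_subset_of_ncard_le
    (fun d hd => ⟨hd.1, cm x hx.1 d hd, cm y hy.1 d hd, cm z hz.1 d hd⟩) (by
      rw [ncard_XX h hN hL ha hb he hne hbe, ncard_XX h hN hL hx.1.1 hy' hz' hyz.symm c3])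
  obtain ⟨p, q, r, k1, k2, -, k3⟩ := hexad h hN hL hx.1.1 hy' hz' hyz.symm c3
  obtain ⟨d, hd, k4⟩ := d4_root hT hc hx.1.1 hy.1.1 hz.1.1 hx.2 hy.2 hz.2 c1 c2 c3
  rw [e3] at hlt cm hc'
  have hp := (k1 p).mpr (by simp)
  have hq := (k1 q).mpr (by simp)
  have hr := (k1 r).mpr (by simp)
  have fin : ∀ s ∈ XX D x y z, ∀ t ∈ XX D x y z, s ≠ t → d * (x * y * z) * (s * t) = 1 → False :=
    fun s hs t ht hst k => by
      have k5 : Commute (s * t) c := eq_inv_of_mul_eq_one_right k ▸ k4.inv_left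
      have k6 : Commute c s := by_contra fun k6 => hst (hT.eq_of_mul hc hs.1 ht.1 k6 k5)
      have k7 : Commute c t := by simpa using k6.inv_right.mul_right k5.symm
      exact hlt ((Set.one_lt_ncard (Set.toFinite _)).mpr ⟨s, ⟨hs, fun k => hc' (k ▸ hs), k6⟩, t,
        ⟨ht, fun k => hc' (k ▸ ht), k7⟩, hst⟩)
  simp only [List.nodup_cons, List.mem_cons, List.not_mem_nil, or_false, not_or] at k2
  have k5 := (hd.2.1.mul_left hd.2.2.1).mul_left hd.2.2.2
  rcases (k1 d).mp hd with rfl | rfl | rfl | rfl | rfl | rfl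
  · refine hyz (hT.eq_of_mul hc hy.1.1 hz.1.1 hy.2 ?_)
    rwa [mul_assoc d y, ← mul_assoc, hT.sq hd.1, one_mul] at k4
  · refine hxz (hT.eq_of_mul hc hx.1.1 hz.1.1 hx.2 ?_)
    rwa [c1.eq, mul_assoc d x, ← mul_assoc, hT.sq hd.1, one_mul] at k4
  · refine hxy (hT.eq_of_mul hc hx.1.1 hy.1.1 hx.2 ?_)
    rwa [← k5.eq, mul_assoc, hT.sq hd.1, mul_one] at k4
  · refine fin q hq r hr k2.2.2.2.2.1 ?_
    rw [← k5.eq, ← k3]; simp only [mul_assoc]
  · refine fin p hp r hr k2.2.2.2.1.2 ?_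
    rw [← k5.eq, ← k3, mul_assoc (y * z) p d, (cm p hp d hd).eq]; simp only [mul_assoc]
  · refine fin p hp q hq k2.2.2.2.1.1 ?_
    rw [← k5.eq, ← k3, mul_assoc (x * y * z), ← ((cm p hp d hd).mul_left (cm q hq d hd)).eq]
    simp only [mul_assoc]

theorem no_870 {G : Type u} [Group G] [Finite G] {D : Set G} (h : Good D) (hN : NT D)
    (hL : ∀ x ∈ D, Uni (perp D x) 5) {l m : ℕ} (s : Srg D 870 165 l m) : False := by
  obtain ⟨a, ha, -⟩ := h.cl.2.1
  obtain ⟨b, hb⟩ := (R3.of_fi h.fi).pp a ha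
  obtain ⟨e, he, hne, hbe⟩ := (hL a ha).1.pp b hb
  have e1 := dc1 (XX D a b e) (D \ XX D a b e)
  have e2 := ncard_XX h hN hL ha hb he hne hbe
  have e3 : (D \ XX D a b e).ncard = 864 := by
    rw [Set.ncard_diff (fun _ k => k.1), s.hn, e2]
  have e4 := Finset.sum_le_card_nsmul (fs (XX D a b e))
    (fun p => ((perp (D \ XX D a b e) p).ncard : ℤ)) 165 fun p hp => by
      have := Set.ncard_le_ncard (s := perp (D \ XX D a b e) p) (t := perp D p)
        fun x hx => ⟨hx.1.1, hx.2⟩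
      rw [s.hk p (mem_fs.mp hp).1] at this
      exact_mod_cast this
  have e5 := Finset.card_nsmul_le_sum (fs (D \ XX D a b e))
    (fun p => ((perp (XX D a b e) p).ncard : ℤ)) 2 fun c hc => by
      exact_mod_cast two_le_perp h hN hL ha hb he hne hbe (mem_fs.mp hc).1 (mem_fs.mp hc).2
  rw [card_fs, e2, e1] at e4
  rw [card_fs, e3] at e5
  have := e5.trans e4
  norm_num at this

end Cfsg.Agent.Fis
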