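import Cfsg.Agent.Lib.Fis.Mod

set_option autoImplicit false

/-! # Fischer's theorem: numerical analysis of the extensions -/

namespace Cfsg.Agent.Fis

open Subgroup Cfsg.Agent.Lib.Fischer Cfsg.Agent.Lib.Invol Finset

theorem num_uni {n k l m l1 m1 ν α S1 S2 : ℤ} (h : Eqs n k l m l1 m1 ν α S1 S2)
    (hcs : S1 ^ 2 ≤ α * S2) (h3 : 3 ∣ α) {j : ℕ} (hk : 2 * (3 * k + 1) = 4 ^ (j + 4) + (-2) ^ (j + 4))
    (hm : 2 * (3 * m1 + 1) = 4 ^ (j + 2) + (-2) ^ (j + 2)) (hl : l = 4 * m1) :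
    (j = 0 ∧ m = 18 ∧ m1 = 3) ∨ (j = 1 ∧ n = 870 ∧ k = 165) ∨ (j = 2 ∧ n = 3510 ∧ k = 693 ∧
      l = 180 ∧ m = 126 ∧ 0 < ν ∧ S1 = α * 18 ∧ S2 = α * 18 ^ 2) := by
  obtain ⟨e0, e0', e1, e3, eA, eB, eC, mpos, -⟩ := h
  obtain ⟨τ, hτ⟩ : ∃ τ : ℤ, τ = (-2) ^ j := ⟨_, rfl⟩
  have h4 : (4 : ℤ) ^ j = τ ^ 2 := by rw [hτ, ← pow_mul, mul_comm, pow_mul]; norm_num
  have hb : |τ| = 2 ^ j := by rw [hτ, abs_pow]; norm_num
  rw [pow_add, pow_add, h4, ← hτ] at hk hm
  have hk' : 3 * k = (16 * τ - 1) * (8 * τ + 1) := by linarith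
  have hm' : 3 * m1 = (4 * τ - 1) * (2 * τ + 1) := by linarith
  have n1 : m1 ≠ 0 := fun e => by
    rw [e, mul_zero, eq_comm, mul_eq_zero] at hm'; omega
  have k1 : k - 1 - l = 32 * τ ^ 2 := by linarith
  have k2 : l1 = 4 * m1 - 1 - 8 * τ ^ 2 := by
    rw [k1, hl] at e0'
    exact mul_left_cancel₀ n1 (by linarith)
  have k3 : m = 3 * ν - 2 - 2 * m1 + 8 * τ ^ 2 := by
    rw [k2, hl] at e3
    exact mul_left_cancel₀ n1 (by linarith)
  have k4 : (m1 - ν - 4 * τ + 1) * (m1 - ν + 2 * τ + 1) = 0 := by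
    have a1 : 3 * m = 32 * τ ^ 2 + 2 * τ - 7 - 9 * (m1 - ν) := by linarith
    have a2 : (3 * m) * (4 * (3 * m1) - 3 * (m1 - ν)) = (3 * k) * (3 * m1 - 3 * (m1 - ν)) := by
      rw [hl] at e1; linarith
    rw [a1, hk', hm'] at a2
    linarith
  rw [k1] at e0
  have hj : j ≤ 7 := by
    have : |τ| < 2 ^ 8 := by
      rcases mul_eq_zero.mp k4 with e | e
      · have a1 : 3 * m = (16 * τ - 1) * (2 * τ - 2) := by linarith
        have a2 : (2 * τ - 2) * (n - 1 - k) = (8 * τ + 1) * (32 * τ ^ 2) :=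
          mul_left_cancel₀ (a := 16 * τ - 1) (by omega) (by
            rw [← mul_assoc, ← mul_assoc, ← a1, ← hk']; linarith)
        have a3 : (τ - 1) ∣ 144 := ⟨n - 1 - k - (128 * τ ^ 2 + 144 * τ + 144), by linarith⟩
        have := Int.le_of_dvd (by norm_num) ((abs_dvd _ _).mpr a3)
        rw [abs_le] at this; rw [abs_lt]; omega
      · have a1 : 3 * m = (8 * τ + 1) * (4 * τ + 2) := by linarith
        have a2 : (4 * τ + 2) * (n - 1 - k) = (16 * τ - 1) * (32 * τ ^ 2) :=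
          mul_left_cancel₀ (a := 8 * τ + 1) (by omega) (by
            rw [← mul_assoc, ← mul_assoc, ← a1, mul_comm (8 * τ + 1), ← hk']; linarith)
        have a3 : (2 * τ + 1) ∣ 36 :=
          ⟨-(n - 1 - k) + (128 * τ ^ 2 - 72 * τ + 36), by linarith⟩
        have := Int.le_of_dvd (by norm_num) ((abs_dvd _ _).mpr a3)
        rw [abs_le] at this; rw [abs_lt]; omega
    rw [hb] at this
    exact Nat.lt_succ_iff.mp ((pow_lt_pow_iff_right₀ (by norm_num)).mp this)
  clear hk hm h4 hb e0' e1 e3 n1 k1 k2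
  interval_cases j <;> norm_num at hτ <;> subst hτ <;> norm_num at hk' hm' k3 k4 e0 ⊢
  · obtain rfl : m1 = 3 := by omega
    obtain rfl : k = 45 := by omega
    omega
  · obtain rfl : m1 = 9 := by omega
    obtain rfl : k = 165 := by omega
    rcases k4 with e | e
    · obtain rfl : ν = 18 := by omega
      obtain rfl : m = 66 := by omega
      obtain rfl : n = 486 := by omega
      obtain rfl : α = 120 := by omega
      obtain rfl : S1 = 4752 := by omega
      omega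
    · obtain rfl : m = 30 := by omega
      omega
  · obtain rfl : m1 = 45 := by omega
    obtain rfl : k = 693 := by omega
    rcases k4 with e | e
    · obtain rfl : ν = 30 := by omega
      obtain rfl : m = 126 := by omega
      omega
    · obtain rfl : m = 198 := by omega
      omega
  · obtain rfl : m1 = 165 := by omega
    obtain rfl : k = 2709 := by omega
    rcases k4 with e | e
    · obtain rfl : ν = 198 := by omega
      obtain rfl : m = 774 := by omega
      obtain rfl : n = 9878 := by omega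
      omega
    · obtain rfl : m = 630 := by omega
      omega
  · obtain rfl : k = 10965 := by omega
    obtain rfl | rfl : m = 2550 ∨ m = 2838 := by omega
    all_goals omega
  · obtain rfl : k = 43605 := by omega
    obtain rfl | rfl : m = 11286 ∨ m = 10710 := by omega
    all_goals omega
  · obtain rfl : k = 174933 := by omega
    obtain rfl | rfl : m = 42966 ∨ m = 44118 := by omega
    all_goals omega
  · obtain rfl : k = 698709 := by omega
    obtain rfl | rfl : m = 176214 ∨ m = 173910 := by omega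
    all_goals omega

theorem num_22 {n m ν α S1 S2 : ℤ} (h : Eqs n 3510 693 m 180 126 ν α S1 S2) :
    n = 31671 ∧ m = 351 ∧ 0 < ν ∧ S1 = α * 27 ∧ S2 = α * 27 ^ 2 := by
  obtain ⟨e0, -, e1, e3, eA, eB, eC, mpos, -⟩ := h
  have k : (ν - 63) * (ν - 135) = 0 := by
    have a1 : 2 * m = 9 * ν + 135 := by linarith
    have a2 : (2 * m) * 567 = (7020 - 2 * m) * ν := by linarith
    rw [a1] at a2; linarith
  rcases mul_eq_zero.mp k with e | e
  · obtain rfl : ν = 63 := by omega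
    obtain rfl : m = 351 := by omega
    omega
  · obtain rfl : ν = 135 := by omega
    obtain rfl : m = 675 := by omega
    omega

theorem num_23 {n m ν α S1 S2 : ℤ} (h : Eqs n 31671 3510 m 693 351 ν α S1 S2) :
    n = 306936 ∧ m = 3240 ∧ 0 < ν ∧ S1 = α * 324 ∧ S2 = α * 324 ^ 2 := by
  obtain ⟨e0, -, e1, e3, eA, eB, eC, mpos, -⟩ := h
  obtain rfl : m = 9 * ν := by linarith
  have k : ν * (ν - 360) = 0 := by linarith
  obtain rfl : ν = 360 := by rcases mul_eq_zero.mp k with e | e <;> omega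
  omega

theorem num_24 {n m ν α S1 S2 : ℤ} (h : Eqs n 306936 31671 m 3510 3240 ν α S1 S2) : False := by
  obtain ⟨e0, -, e1, e3, -⟩ := h
  have a1 : 40 * m = 351 * ν + 118449 := by linarith
  have k : (ν - 2889) * (ν - 3321) = 0 := by
    have a2 : (40 * m) * 28431 = (12277440 - 40 * m) * ν := by linarith
    rw [a1] at a2; linarith
  rcases mul_eq_zero.mp k with e | e
  · omega
  · obtain rfl : m = 32103 := by omega
    omega

variable {G : Type*} [Group G] [Finite G]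

theorem three_dvd_AA {D : Set G} (h : TS D) {x c : G} (hx : x ∈ D) (hc : c ∈ D)
    (hxc : ¬ Commute x c) : 3 ∣ (AA D x c).ncard := by
  classical
  have hD := h.set
  have hc' := h.cjm x hx c hc
  have mx : ∀ p ∈ AA D x c, cj x p ∈ AA D x c := fun p hp =>
    ⟨h.cjm x hx p hp.1, by rw [commute_cj_left hD hx, cj_self]; exact hp.2.1,
      by rw [commute_cj_left hD hx]; exact hp.2.2.2, by rw [commute_cj]; exact hp.2.2.1⟩
  have mc : ∀ p ∈ AA D x c, cj c p ∈ AA D x c := fun p hp =>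
    ⟨h.cjm c hc p hp.1, by rw [commute_cj_left hD hc, ← cj_comm hD hx hc hxc]; exact hp.2.2.2,
      by rw [commute_cj_left hD hc, cj_self]; exact hp.2.2.1,
      by rw [cj_comm hD hx hc hxc, commute_cj]; exact hp.2.1⟩
  have := Fintype.ofFinite (AA D x c)
  let f : Function.End (AA D x c) := fun p => ⟨cj x (cj c p), mx _ (mc _ p.2)⟩
  have h3 : f ^ 3 ^ 1 = 1 := by
    funext p
    apply Subtype.ext
    show cj x (cj c (cj x (cj c (cj x (cj c p))))) = p
    have : (x * c) ^ 3 = 1 :=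
      (hD.2 x hx c hc).resolve_left fun k => hxc (commute_of_pow_two hD hx hc (k := 1) k)
    rw [← cj_mul, ← cj_mul, ← cj_mul, ← cj_mul, ← cj_mul, show x * c * x * c * x * c = (x * c) ^ 3 by
      simp only [pow_succ, pow_zero, one_mul, mul_assoc], this, cj_one]
  have : Fact (Nat.Prime 3) := ⟨Nat.prime_three⟩
  have k := Equiv.Perm.card_fixedPoints_modEq h3
  have : IsEmpty f.fixedPoints := ⟨fun ⟨p, hp⟩ => by
    have e : cj (x * c) p = p := by rw [cj_mul]; exact congrArg Subtype.val hp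
    exact hxc (h.eq_of_mul p.2.1 hx hc p.2.2.1 (cj_eq_self_iff.mp e) ▸ Commute.refl x)⟩
  rw [Fintype.card_eq_zero (α := f.fixedPoints), Nat.modEq_zero_iff_dvd] at k
  rwa [← Nat.card_coe_set_eq, Nat.card_eq_fintype_card]

theorem exists_eqs {D : Set G} (hF : Fi D) {n k l m l1 m1 : ℕ} (s : Srg D n k l m)
    (sL : ∀ w ∈ D, Srg (perp D w) k l l1 m1) : ∃ ν α S1 S2 : ℤ, Eqs n k l m l1 m1 ν α S1 S2 ∧
      S1 ^ 2 ≤ α * S2 ∧ 3 ∣ α ∧ (0 < ν → ∀ t, 0 < t → S1 = α * t → S2 = α * t ^ 2 → Cov D) := by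
  have hD := hF.cl
  obtain ⟨ν, hν⟩ := exists_nu hF
  obtain ⟨x, hx, -⟩ := hD.2.1
  obtain ⟨c, hc, hxc⟩ := hF.exists_nc hx
  refine ⟨_, _, _, _, counts hF s sL hν hx hc hxc, sum_cs _ _,
    Int.natCast_dvd_natCast.mpr (three_dvd_AA (TS.of_class hD) hx hc hxc), fun h0 t ht h1 h2 =>
    ⟨fun a ha b hb e he k1 k2 k3 k4 => ?_, fun a ha b hb y hy k1 k2 k3 => ?_⟩⟩
  · obtain ⟨g, rfl, rfl⟩ := hF.pair_nc hx hc hxc ha hb k1
    obtain ⟨e, rfl⟩ : ∃ e', e = cj g e' := ⟨_, (cj_cj_inv g e).symm⟩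
    simp only [cj_cj_cj, commute_cj, cj_mem_D_iff hD] at he k2 k3 k4
    have := eq_of_var h1 h2 (p := e) ⟨he, k2, k3, k4⟩
    obtain ⟨w, hw⟩ := Set.nonempty_of_ncard_ne_zero (s := perp (perp D x ∩ perp D c) e) (by omega)
    exact ⟨cj g w, cj_mem_D hD hw.1.1.1 g, commute_cj.mpr hw.1.1.2.2.symm,
      commute_cj.mpr hw.1.2.2.2.symm, commute_cj.mpr hw.2.2.symm⟩
  · by_cases e : y = a
    · obtain ⟨z, hz, z1, z2⟩ := (R3.of_fi hF).zne a ha b hb k1
      exact ⟨z, hz, z1.symm, z2.symm, e ▸ z1.symm⟩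
    have := hν a ha b hb k1 y ⟨hy, e, k2⟩ k3
    obtain ⟨w, hw⟩ := Set.nonempty_of_ncard_ne_zero (s := perp (perp D a ∩ perp D b) y) (by omega)
    exact ⟨w, hw.1.1.1, hw.1.1.2.2.symm, hw.1.2.2.2.symm, hw.2.2.symm⟩

end Cfsg.Agent.Fis
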