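import Cfsg.Agent.Lib.Fis.OExt1

set_option autoImplicit false

/-! # Fischer's theorem: locally orthogonal spaces are orthogonal -/

namespace Cfsg.Agent.Fis

open Subgroup Cfsg.Agent.Lib.Fischer Cfsg.Agent.Lib.Invol Module QuadraticMap
open Cfsg.Agent.Lib.Forms (Nondeg Q_add Q_smul Q_neg Q_sub polar_self')

variable {G : Type*} [Group G] {V : Type*} [AddCommGroup V] [Module (ZMod 3) V]
  {Q : QuadraticForm (ZMod 3) V} {D : Set G} {v : G → V}

open Classical in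
/-- the expected value of the form -/
noncomputable def sg (D : Set G) (x c c' : G) : ZMod 3 :=
  if c' ∈ perp D c then -1 else if cj x c' ∈ perp D c then 1 else 0

theorem OO.flip {x c : G} {r : V} (hD : IsThreeTranspositionClass D) (h : OO D x Q v c r) :
    OO D x Q v (cj x c) r :=
  ⟨cj_mem_D hD h.mem x, not_commute_cj_self h.nc, h.ne, h.q, fun u hu => by
    rw [← h.iff u hu, Commute.symm_iff, commute_cj_iff hu.2.2.symm, Commute.symm_iff]⟩

theorem OO.neg {x c : G} {r : V} (h : OO D x Q v c r) : OO D x Q v c (-r) :=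
  neg_one_smul (ZMod 3) r ▸ h.smul (by decide)

section
variable (hD : IsThreeTranspositionClass D) {x c c' : G} (hx : x ∈ D)
include hD hx

theorem not_both (hc' : c' ∈ D) (h1 : ¬ Commute x c) (h2 : ¬ Commute x c')
    (k1 : c' ∈ perp D c) (k2 : cj x c' ∈ perp D c) : False :=
  h1 (commute_of_cj' hD.1 hx hc' h2 k1.2.2 k2.2.2).symm

theorem sg_flip (hc' : c' ∈ D) (h1 : ¬ Commute x c) (h2 : ¬ Commute x c') :
    sg D x c (cj x c') = -sg D x c c' := by
  unfold sg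
  rw [cj_cj hD.1 hx]
  split_ifs with k1 k2 k2
  · exact (not_both hD hx hc' h1 h2 k2 k1).elim
  all_goals simp

theorem sg_comm (hc : c ∈ D) (hc' : c' ∈ D) : sg D x c c' = sg D x c' c := by
  have e1 : c' ∈ perp D c ↔ c ∈ perp D c' := ⟨mem_perp_symm hc, mem_perp_symm hc'⟩
  have e2 : cj x c' ∈ perp D c ↔ cj x c ∈ perp D c' := by
    rw [← cj_mem_perp hD (g := x), cj_cj hD.1 hx]
    exact ⟨mem_perp_symm (cj_mem_D hD hc x), mem_perp_symm hc'⟩
  classical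
  unfold sg
  rw [propext e1, propext e2]

end

namespace OS
variable {x : G} (h : OS D x Q v)
include h

theorem O_cj {c u : G} {r : V} (hO : OO D x Q v c r) (hu : u ∈ perp D x) :
    OO D x Q v (cj u c) (r + polar Q r (v u) • v u) := by
  have hD := h.fi.cl
  have qu := h.om.q u hu
  refine ⟨cj_mem_D hD hO.mem u, fun k => hO.nc (commute_of_cj hu.2.2 k), fun k => hO.ne ?_, ?_,
    fun p hp => ?_⟩
  · have := congrArg (fun t => polar Q t (v u)) k
    qsimp at this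
    rw [qu] at this
    rw [show polar Q r (v u) = 0 by linear_combination -this] at k
    simpa using k
  · qsimp; rw [hO.q, qu]; ring
  · obtain ⟨s, hs, e⟩ := h.om.eqv' hu hp
    rw [commute_cj_left hD.1 hu.1, hO.iff _ (h.om.ts.cjm u hu p hp), e]
    qsimp
    rw [mul_eq_zero_iff_left hs, polar_comm Q (v u) r, mul_comm]

variable [FiniteDimensional (ZMod 3) V] [Finite G]

theorem ker : Ker D := Ker.of_local (R3.of_fi h.fi) fun z hz => by
  obtain ⟨V', _, _, _, Q', v', -, h'⟩ := h.loc z hz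
  exact h'.ker

theorem O_eq {c c' : G} {r : V} (h1 : OO D x Q v c r) (h2 : OO D x Q v c' r) :
    c' = c ∨ c' = cj x c := by
  refine h.ker x h.hx c h1.mem c' h2.mem h1.nc h2.nc fun z hz k1 k2 => ?_
  have : z ∈ perp D x := ⟨hz, fun e => h1.nc (e ▸ k2.symm), k1⟩
  exact (h2.iff z this).mpr ((h1.iff z this).mp k2)

theorem F1 {c c' : G} {r r' : V} (h1 : OO D x Q v c r) (h2 : OO D x Q v c' r')
    (k : c' ∈ perp D c) : cj c (cj x c') ∈ perp D x ∧ polar Q r r' ≠ 0 ∧ (polar Q r r' = -1 →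
      ∃ s : ZMod 3, s ≠ 0 ∧ r + r' = s • v (cj c (cj x c'))) := by
  have hD := h.fi.cl
  obtain ⟨k1, k2⟩ := step0 hD.1 h.hx h1.mem h2.mem (cj_mem_D hD h1.mem x) h1.nc h2.nc k.2.2
  rw [← cj_comm hD.1 h.hx h2.mem h2.nc] at k1 k2
  have hu : cj c (cj x c') ∈ perp D x := ⟨cj_mem_D hD (cj_mem_D hD h2.mem x) c, fun e => by
    rw [e, cj_cj hD.1 h.hx] at k2
    exact k.2.1 k2.symm, k1⟩
  refine ⟨hu, ?_⟩
  generalize cj c (cj x c') = u at hu k2
  have h3 := h.O_cj (h1.flip hD) hu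
  rw [k2] at h3
  obtain ⟨s, hs, e⟩ := h.O_unique h3 h2
  have n : polar Q r (v u) ≠ 0 := fun e => by
    rw [polar_comm, ← (h1.flip hD).iff u hu] at e
    rw [cj_of_commute e.symm] at k2
    exact not_commute_cj_self' hD.1 h.hx h1.mem h1.nc (k2 ▸ k.2.2)
  have e1 : polar Q r r' = s := by rw [e]; qsimp; rw [h1.q, f3_sq n]; ring
  refine ⟨e1 ▸ hs, fun k => ⟨-polar Q r (v u), neg_ne_zero.mpr n, ?_⟩⟩
  rw [e, ← e1, k]
  module

theorem F2 {c c' : G} {r r' : V} (h1 : OO D x Q v c r) (h2 : OO D x Q v c' r')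
    (k : polar Q r r' ≠ 0) : c' ∈ perp D c ∨ cj x c' ∈ perp D c := by
  have hD := h.fi.cl
  obtain ⟨u, hu, s, hs, e⟩ := h.om.surj' (y := r - polar Q r r' • r') (by
    qsimp; rw [h1.q, h2.q, f3_sq k]; ring)
  have e1 : polar Q r (v u) = -s := by rw [e]; qsimp; rw [h1.q, f3_sq k]; ring
  have h3 := h.O_cj h1 hu
  rw [show r + polar Q r (v u) • v u = polar Q r r' • r' by
    rw [e1, e, smul_smul, neg_mul, f3_sq hs]; module] at h3
  have n : ¬ Commute c u := by rw [h1.iff u hu, polar_comm, e1]; exact neg_ne_zero.mpr hs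
  have k1 : cj x (cj u c) ∈ perp D c := ⟨cj_mem_D hD (cj_mem_D hD h1.mem u) x,
    fun e => hu.2.1 (eq_of_cj_cj hD h1.mem h.hx hu.1 (fun k => h1.nc k.symm) n e.symm).symm,
    commute_cj_cj hD h1.mem h.hx hu.1 (fun k => h1.nc k.symm) n hu.2.2⟩
  rcases h.O_eq (h2.smul k) h3 with e | e
  · exact Or.inr (e ▸ k1)
  · rw [e, cj_cj hD.1 h.hx] at k1
    exact Or.inl k1

theorem sg_zero {c c' : G} {r r' : V} (h1 : OO D x Q v c r) (h2 : OO D x Q v c' r') :
    sg D x c c' = 0 ↔ polar Q r r' = 0 := by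
  unfold sg
  split_ifs with k1 k2
  · exact iff_of_false (by decide) (h.F1 h1 h2 k1).2.1
  · exact iff_of_false (by decide) (h.F1 h1 (h2.flip h.fi.cl) k2).2.1
  · exact iff_of_true rfl (by_contra fun k => (h.F2 h1 h2 k).elim k1 k2)

theorem fix {c c' : G} {r r' : V} (h1 : OO D x Q v c r) (h2 : OO D x Q v c' r') :
    ∃ s : ZMod 3, s ≠ 0 ∧ polar Q r (s • r') = sg D x c c' := by
  have := h.sg_zero h1 h2
  simp only [polar_smul_right, smul_eq_mul]
  revert this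
  generalize polar Q r r' = a
  generalize sg D x c c' = b
  revert a b
  decide

theorem tri0 {c1 c2 c3 : G} {r1 r2 r3 : V} (h1 : OO D x Q v c1 r1) (h2 : OO D x Q v c2 r2)
    (h3 : OO D x Q v c3 r3) (k2 : c2 ∈ perp D c1) (k3 : c3 ∈ perp D c1)
    (e2 : polar Q r1 r2 = -1) (e3 : polar Q r1 r3 = -1) : polar Q r2 r3 = sg D x c2 c3 := by
  have hD := h.fi.cl
  obtain ⟨a1, -, a2⟩ := h.F1 h1 h2 k2
  obtain ⟨b1, -, b2⟩ := h.F1 h1 h3 k3
  obtain ⟨s, hs, a3⟩ := a2 e2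
  obtain ⟨t, ht, b3⟩ := b2 e3
  have key : c3 ∈ perp D c2 ↔ polar Q r2 r3 = -1 := by
    rw [← cj_mem_perp hD (g := x), ← cj_mem_perp hD (g := c1), ← h.pol a1 b1,
      ← mul_eq_zero_iff_left hs, ← mul_eq_zero_iff_left ht, ← smul_eq_mul, ← smul_eq_mul,
      ← polar_smul_left, ← polar_smul_right, ← a3, ← b3]
    qsimp
    rw [h1.q, e3, polar_comm Q r2 r1, e2]
    generalize polar Q r2 r3 = a
    revert a; decide
  have := h.sg_zero h2 h3
  unfold sg at this ⊢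
  split_ifs at this ⊢ with l1 l2
  · exact key.mp l1
  · rcases f3 (polar Q r2 r3) with e | e | e
    exacts [absurd (this.mpr e) (by decide), e, absurd (key.mpr e) l1]
  · exact this.mp rfl

theorem tri1 {c1 c2 c3 : G} {r1 r2 r3 : V} (h1 : OO D x Q v c1 r1) (h2 : OO D x Q v c2 r2)
    (h3 : OO D x Q v c3 r3) (n2 : polar Q r1 r2 ≠ 0) (n3 : polar Q r1 r3 ≠ 0)
    (e2 : polar Q r1 r2 = sg D x c1 c2) (e3 : polar Q r1 r3 = sg D x c1 c3) :
    polar Q r2 r3 = sg D x c2 c3 := by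
  have hD := h.fi.cl
  have nrm : ∀ {c r}, OO D x Q v c r → polar Q r1 r ≠ 0 → polar Q r1 r = sg D x c1 c →
      (c ∈ perp D c1 ∧ polar Q r1 r = -1) ∨ (cj x c ∈ perp D c1 ∧ polar Q r1 (-r) = -1) := by
    intro c r _ n e
    unfold sg at e
    split_ifs at e with l1 l2
    exacts [Or.inl ⟨l1, e⟩, Or.inr ⟨l2, by rw [polar_neg_right, e]⟩, absurd e n]
  have f2 := (h2.flip hD).neg
  have f3 := (h3.flip hD).neg
  rcases nrm h2 n2 e2 with ⟨a1, a2⟩ | ⟨a1, a2⟩ <;> rcases nrm h3 n3 e3 with ⟨b1, b2⟩ | ⟨b1, b2⟩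
  · exact h.tri0 h1 h2 h3 a1 b1 a2 b2
  · have := h.tri0 h1 h2 f3 a1 b1 a2 b2
    rwa [polar_neg_right, sg_flip hD h.hx h3.mem h2.nc h3.nc, neg_inj] at this
  · have := h.tri0 h1 h3 f2 b1 a1 b2 a2
    rwa [polar_neg_right, sg_flip hD h.hx h2.mem h3.nc h2.nc, neg_inj, polar_comm,
      sg_comm hD h.hx h3.mem h2.mem] at this
  · have := h.tri0 h1 f2 f3 a1 b1 a2 b2
    rwa [polar_neg_right, sg_flip hD h.hx h3.mem f2.nc h3.nc, neg_inj, polar_neg_left,
      sg_comm hD h.hx f2.mem h3.mem, sg_flip hD h.hx h2.mem h3.nc h2.nc, neg_inj,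
      sg_comm hD h.hx h3.mem h2.mem] at this

theorem O_surj {r : V} (h0 : r ≠ 0) (hr : Q r = 0) : ∃ c, OO D x Q v c r := by
  have step : ∀ {c r r'}, OO D x Q v c r → Q r' = 0 → polar Q r r' ≠ 0 →
      ∃ c', OO D x Q v c' r' := by
    intro c r r' h1 h2 k
    obtain ⟨u, hu, s, hs, e⟩ := h.om.surj' (y := r - polar Q r r' • r') (by
      qsimp; rw [h1.q, h2, f3_sq k]; ring)
    have e1 : polar Q r (v u) = -s := by rw [e]; qsimp; rw [h1.q, f3_sq k]; ring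
    have h3 := (h.O_cj h1 hu).smul k
    rw [show r + polar Q r (v u) • v u = polar Q r r' • r' by
      rw [e1, e, smul_smul, neg_mul, f3_sq hs]; module, smul_smul, f3_sq k, one_smul] at h3
    exact ⟨_, h3⟩
  obtain ⟨c, hc, hxc⟩ := h.fi.exists_nc h.hx
  obtain ⟨r0, hO⟩ := h.exists_O hc hxc
  by_cases k : polar Q r0 r = 0
  · obtain ⟨u, u1, u2, u3⟩ := exists_nbr2 h.om.nd hO.q hO.ne h0 k
    obtain ⟨c', hO'⟩ := step hO u1 u2
    exact step hO' hr u3
  · exact step hO hr k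

theorem exists_rho : ∃ ρ : G → V, (∀ c ∈ D, ¬ Commute x c → OO D x Q v c (ρ c)) ∧
    ∀ c ∈ D, ¬ Commute x c → ∀ c' ∈ D, ¬ Commute x c' → polar Q (ρ c) (ρ c') = sg D x c c' := by
  have hD := h.fi.cl
  obtain ⟨c0, hc0, hxc0⟩ := h.fi.exists_nc h.hx
  obtain ⟨r0, h0⟩ := h.exists_O hc0 hxc0
  have sy : ∀ {c c' r r'}, OO D x Q v c r → OO D x Q v c' r' → polar Q r r' = sg D x c c' →
      polar Q r' r = sg D x c' c := fun k1 k2 e => by
    rw [polar_comm, e, sg_comm hD h.hx k1.mem k2.mem]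
  have good : ∀ u, Q u = 0 → polar Q r0 u ≠ 0 → ∃ c, ∃ s : ZMod 3, s ≠ 0 ∧ OO D x Q v c (s • u) ∧
      polar Q r0 (s • u) = sg D x c0 c := fun u k1 k2 => by
    obtain ⟨c, hc⟩ := h.O_surj (r := u) (fun e => k2 (by simp [e])) k1
    obtain ⟨s, hs, e⟩ := h.fix h0 hc
    exact ⟨c, s, hs, hc.smul hs, e⟩
  have ex : ∀ c, ∃ r, c ∈ D → ¬ Commute x c → OO D x Q v c r ∧ polar Q r0 r = sg D x c0 c ∧
      ∀ c1 r1, OO D x Q v c1 r1 → polar Q r0 r1 ≠ 0 → polar Q r0 r1 = sg D x c0 c1 →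
        polar Q r1 r = sg D x c1 c := fun c => by
    by_cases k : c ∈ D ∧ ¬ Commute x c
    swap
    · exact ⟨0, fun k1 k2 => absurd ⟨k1, k2⟩ k⟩
    obtain ⟨r, hO⟩ := h.exists_O k.1 k.2
    by_cases n : polar Q r0 r = 0
    swap
    · obtain ⟨s, hs, e⟩ := h.fix h0 hO
      exact ⟨s • r, fun _ _ => ⟨hO.smul hs, e, fun c1 r1 k1 k2 k3 =>
        h.tri1 h0 k1 (hO.smul hs) k2 (by simpa [hs] using n) k3 e⟩⟩
    obtain ⟨u, u1, u2, u3⟩ := exists_nbr2 h.om.nd h0.q h0.ne hO.ne n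
    obtain ⟨c1, s1, hs1, h1, e1⟩ := good u u1 u2
    obtain ⟨s, hs, e⟩ := h.fix h1 hO
    have h2 := hO.smul hs
    have n01 : polar Q r0 (s1 • u) ≠ 0 := by simpa [hs1] using u2
    have n12 : polar Q (s1 • u) (s • r) ≠ 0 := by simpa [hs1, hs] using u3
    have n02 : polar Q r0 (s • r) = 0 := by simp [n]
    generalize s1 • u = r1 at *
    generalize s • r = r2 at *
    refine ⟨r2, fun _ _ => ⟨h2, by rw [n02, (h.sg_zero h0 h2).mpr n02], fun c3 r3 h3 n03 e3 => ?_⟩⟩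
    by_cases n32 : polar Q r3 r2 = 0
    · rw [n32, (h.sg_zero h3 h2).mpr n32]
    by_cases n13 : polar Q r1 r3 = 0
    swap
    · exact h.tri1 h1 h3 h2 n13 n12 (h.tri1 h0 h1 h3 n01 n03 e1 e3) e
    obtain ⟨t, t1, t2, t3, t4, t5⟩ := exists_nbr4 h.om.nd h.dim h0.q h1.q n01 n12 n03 n02 n13
    obtain ⟨c4, s4, hs4, h4, e4⟩ := good t t1 t2
    have n04 : polar Q r0 (s4 • t) ≠ 0 := by simpa [hs4] using t2
    exact h.tri1 h4 h3 h2 (by simpa [hs4] using t5) (by simpa [hs4] using t4)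
      (h.tri1 h0 h4 h3 n04 n03 e4 e3) (h.tri1 h1 h4 h2 (by simpa [hs4] using t3) n12
        (h.tri1 h0 h1 h4 n01 n04 e1 e4) e)
  choose ρ hρ using ex
  refine ⟨ρ, fun c hc k => (hρ c hc k).1, fun c hc k c' hc' k' => ?_⟩
  obtain ⟨a1, a2, a3⟩ := hρ c hc k
  obtain ⟨b1, b2, b3⟩ := hρ c' hc' k'
  by_cases n : polar Q (ρ c) (ρ c') = 0
  · rw [n, (h.sg_zero a1 b1).mpr n]
  by_cases n1 : polar Q r0 (ρ c) = 0
  swap
  · exact b3 _ _ a1 n1 a2
  by_cases n2 : polar Q r0 (ρ c') = 0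
  swap
  · exact sy b1 a1 (a3 _ _ b1 n2 b2)
  obtain ⟨t, t1, t2, t3, t4⟩ := exists_nbr3 h.om.nd h0.q a1.q b1.q h0.ne n1 n2 n
  obtain ⟨c4, s4, hs4, h4, e4⟩ := good t t1 t2
  have n04 : polar Q r0 (s4 • t) ≠ 0 := by simpa [hs4] using t2
  exact h.tri1 h4 a1 b1 (by simpa [hs4] using t3) (by simpa [hs4] using t4)
    (a3 _ _ h4 n04 e4) (b3 _ _ h4 n04 e4)

theorem exists_om : ∃ (Q' : QuadraticForm (ZMod 3) (V × ZMod 3)) (v' : G → V × ZMod 3),
    OM D Q' v' := by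
  classical
  have hD := h.fi.cl
  obtain ⟨ρ, h1, h2⟩ := h.exists_rho
  let Q' : QuadraticForm (ZMod 3) (V × ZMod 3) := Q.prod (-QuadraticMap.sq)
  have eQ : ∀ a : V, ∀ t : ZMod 3, Q' (a, t) = Q a - t * t := fun a t => by
    simp [Q', sub_eq_add_neg]
  have eP : ∀ a b : V, ∀ s t : ZMod 3, polar Q' (a, s) (b, t) = polar Q a b + s * t :=
    fun a b s t => by
      simp only [polar, Prod.mk_add_mk, eQ]
      linear_combination (-s * t) * f3_three
  let v' : G → V × ZMod 3 := fun d =>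
    if d = x then (0, 1) else if Commute x d then (v d, 0) else (ρ d, 1)
  have e1 : v' x = (0, 1) := if_pos rfl
  have e2 : ∀ d ∈ perp D x, v' d = (v d, 0) := fun d hd => by simp [v', hd.2.1, hd.2.2]
  have e3 : ∀ d, ¬ Commute x d → v' d = (ρ d, 1) := fun d hd => by
    have : d ≠ x := fun e => hd (e ▸ Commute.refl _)
    simp [v', this, hd]
  have cases : ∀ d ∈ D, d = x ∨ d ∈ perp D x ∨ ¬ Commute x d := fun d hd => by
    rw [mem_perp]; tauto
  have fl : ∀ c ∈ D, ¬ Commute x c → ρ (cj x c) = -ρ c := fun c hc k => by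
    have a1 := h1 c hc k
    have a2 := a1.flip hD
    obtain ⟨u, u1, u2⟩ := h.om.nd.exists_hyperbolic a1.ne a1.q
    obtain ⟨c1, hc1⟩ := h.O_surj (r := u) (fun e => by simp [e] at u2) u1
    obtain ⟨s, hs, e⟩ := h.O_unique hc1 (h1 c1 hc1.mem hc1.nc)
    obtain ⟨t, ht, e'⟩ := h.O_unique a2 (h1 _ a2.mem a2.nc)
    have a3 := h2 c1 hc1.mem hc1.nc _ a2.mem a2.nc
    rw [sg_flip hD h.hx hc hc1.nc k, ← h2 c1 hc1.mem hc1.nc c hc k, e, e'] at a3
    qsimp at a3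
    rw [polar_comm Q u, u2] at a3
    rw [e', show t = -1 by linear_combination s * a3 - (t + 1) * f3_sq hs, neg_one_smul]
  refine ⟨Q', v', TS.of_class hD, h.ker, ?_, fun d hd => ?_, fun d hd e he => ?_, ?_,
    fun d hd e he => ?_⟩
  · refine Lib.Forms.nondeg_of fun ⟨a, s⟩ k => ?_
    have k1 : a = 0 := h.om.nd.eq_zero fun b => by simpa [eP] using k (b, 0)
    have k2 : s = 0 := by simpa [eP] using k (0, 1)
    rw [k1, k2]; rfl
  · rcases cases d hd with rfl | k | k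
    · rw [e1, eQ]; simp
    · rw [e2 d k, eQ, h.om.q d k]; simp
    · rw [e3 d k, eQ, (h1 d hd k).q]; simp
  · rcases cases d hd with rfl | k | k <;> rcases cases e he with rfl | k' | k'
    · rw [e1, eP]; simp [mem_perp]
    · rw [e1, e2 e k', eP]; simpa using k'
    · rw [e1, e3 e k', eP]; simp [mem_perp, k']
    · rw [e1, e2 d k, eP]; simpa using mem_perp_symm he k
    · rw [e2 d k, e2 e k', eP, mul_zero, add_zero, h.pol k k']
    · rw [e2 d k, e3 e k', eP, zero_mul, add_zero, ← (h1 e he k').iff d k]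
      exact ⟨fun t => ⟨he, fun e => k' (e ▸ k.2.2), t.symm⟩, fun t => t.2.2.symm⟩
    · rw [e1, e3 d k, eP]
      exact iff_of_false (by simp) fun t => k t.2.2.symm
    · rw [e3 d k, e2 e k', eP, mul_zero, add_zero, polar_comm, ← (h1 d hd k).iff e k']
      exact ⟨fun t => ⟨he, fun e => k (e ▸ k'.2.2), t⟩, fun t => t.2.2⟩
    · rw [e3 d k, e3 e k', eP, h2 d hd k e he k', sg]
      split_ifs with l1 l2
      exacts [iff_of_true rfl l1, iff_of_false (by decide) l1, iff_of_false (by decide) l1]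
  · have key : ∀ y, Q y = 0 → ∃ d ∈ D, v' d = (y, 1) := fun y hy => by
      by_cases k : y = 0
      · exact ⟨x, h.hx, by rw [e1, k]⟩
      obtain ⟨c, hc⟩ := h.O_surj k hy
      obtain ⟨s, hs, e⟩ := h.O_unique hc (h1 c hc.mem hc.nc)
      rcases smul_pm hs y with e' | e'
      · exact ⟨c, hc.mem, by rw [e3 c hc.nc, e, e']⟩
      · exact ⟨_, (hc.flip hD).mem, by rw [e3 _ (hc.flip hD).nc, fl c hc.mem hc.nc, e, e', neg_neg]⟩
    rintro ⟨y, t⟩ hy
    rw [eQ] at hy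
    rcases f3 t with rfl | rfl | rfl
    · obtain ⟨d, hd, k⟩ := h.om.surj y (by simpa using hy)
      exact ⟨d, hd.1, by rw [e2 d hd]; simpa using k⟩
    · obtain ⟨d, hd, k⟩ := key y (by linear_combination hy)
      exact ⟨d, hd, Or.inl k.symm⟩
    · obtain ⟨d, hd, k⟩ := key (-y) (by rw [Q_neg]; linear_combination hy)
      exact ⟨d, hd, Or.inr (by simp [k])⟩
  · have n1 : (1 : ZMod 3) ≠ -1 := by decide
    rcases cases d hd with rfl | k | k <;> rcases cases e he with rfl | k' | k'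
    · exact fun _ => rfl
    · rw [e1, e2 e k']; simp
    · rw [e1, e3 e k']; simp [n1, (h1 e he k').ne.symm]
    · rw [e1, e2 d k]; simp
    · rw [e2 d k, e2 e k']; simpa using h.om.inj d k e k'
    · rw [e2 d k, e3 e k']; simp
    · rw [e1, e3 d k]; simp [n1, (h1 d hd k).ne]
    · rw [e3 d k, e2 e k']; simp
    · rw [e3 d k, e3 e k']
      simp only [Prod.mk.injEq, and_true, Prod.neg_mk, n1, and_false, or_false]
      intro t
      refine (h.O_eq (h1 e he k') (t ▸ h1 d hd k)).resolve_right fun t' => (h1 e he k').ne ?_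
      rw [t', fl e he k'] at t
      linear_combination (norm := module) t + f3_three • ρ e

end OS

theorem orth_step [Finite G] (hF : Fi D) {n : ℕ} (hn : 5 ≤ n) (hL : ∀ w ∈ D, Orth (perp D w) n)
    (hR : ∀ w ∈ D, R3 (perp D w)) (hT : 6 ≤ n ∨ ∃ N k l m l1 m1, Srg D N k l m ∧
      (∀ w ∈ D, Srg (perp D w) k l l1 m1) ∧ (m = 9 ∧ m1 = 6 ∨ m = 18 ∧ m1 = 3)) :
    Orth D (n + 1) := by
  obtain ⟨x, hx, -⟩ := hF.cl.2.1
  obtain ⟨V, _, _, _, Q, v, h1, h2⟩ := hL x hx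
  obtain ⟨Q', v', k⟩ := OS.exists_om (x := x) (Q := Q) (v := v) ⟨hF, hx, h2, fun w hw => by
    obtain ⟨V, _, _, _, Q, v, h1, h2⟩ := hL w hw
    exact ⟨V, _, _, inferInstance, Q, v, hn.trans h1, h2⟩, hR, hn.trans h1,
    hT.imp (fun k => k.trans h1) fun ⟨N, k, l, m, l1, m1, s, sL, e⟩ => ⟨m, m1, e, fun c hc hxc =>
      ⟨s.hm x hx c hc hxc, fun z hz => local_reg sL hx hc hxc hz⟩⟩⟩
  exact ⟨_, _, _, inferInstance, Q', v', by simpa using h1, k⟩

end Cfsg.Agent.Fis
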