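import Cfsg.Agent.Lib.Fis.E6Tab

set_option autoImplicit false

/-! # Fischer's theorem: extensions of spaces of symplectic type -/

namespace Cfsg.Agent.Fis

open Subgroup Cfsg.Agent.Lib.Fischer Cfsg.Agent.Lib.Invol Finset

universe u

theorem sym_num {n k l m l1 m1 ν α : ℤ} (e : Eqs n k l m l1 m1 ν α 0 0) (hα : 0 < α)
    (h1 : 0 < m1) : 3 ≤ ν ∧ m = 3 * ν ∧ m1 = 3 * ν - 3 ∧ k = 21 * ν - 27 := by
  obtain ⟨e0, e0', e1, e3, eA, eB, eC, mpos, νpos⟩ := e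
  obtain ⟨s, rfl⟩ : ∃ s, l = m1 + s := ⟨l - m1, by ring⟩
  obtain ⟨t, rfl⟩ : ∃ t, m1 = m - 3 - t := ⟨m - 3 - m1, by ring⟩
  obtain rfl : k = m - t + 3 * s := mul_left_cancel₀ mpos.ne' (by linear_combination eB - 3 * e1)
  have hC : m * s - t * s + t * (m - 1) = 3 * s * ν :=
    mul_left_cancel₀ mpos.ne' (by linear_combination eC - 3 * ν * e1)
  subst eA
  have hm : m * α = 2 * (3 * s ^ 2 + 3 * s - 2 * m * s - t * s + t * (m - 1)) := by
    linear_combination e0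
  have hp := mul_pos mpos hα
  have h2 : t * (m - 1 - s - ν) = 0 := by linear_combination hC - e1
  obtain rfl : t = 0 := (mul_eq_zero.mp h2).resolve_right fun h => by
    obtain rfl : ν = m - 1 - s := by linarith
    exact hp.ne' (by linear_combination hm + 2 * e1)
  have hs : s ≠ 0 := by rintro rfl; exact hp.ne' (by linear_combination hm)
  obtain rfl : m = 3 * ν := mul_left_cancel₀ hs (by linear_combination e1)
  have h3 : 3 * l1 = 3 * (3 * ν - 3) - 9 + s :=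
    mul_left_cancel₀ h1.ne' (by linear_combination -3 * e3)
  obtain rfl : s = 6 * ν - 9 := mul_left_cancel₀ (mul_ne_zero two_ne_zero hs) (by
    linear_combination -3 * e0' + (3 * ν - 3 + s) * h3)
  refine ⟨?_, rfl, by ring, by ring⟩
  by_contra h
  obtain rfl : ν = 2 := by omega
  omega

variable {G : Type u} [Group G] [Finite G]

/-- the common perp of a line is a union of mutually orthogonal lines -/
theorem two_nb {Z : Set G} (h : TS Z) {z : G} (hz : z ∈ Z)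
    (h3 : (Z.ncard : ℤ) = (perp Z z).ncard + 3) :
    (∃ y ∈ Z, ¬ Commute z y) ∧ ∀ y ∈ Z, ∀ y' ∈ Z, ¬ Commute z y → ¬ Commute z y' →
      y' = y ∨ y' = cj z y := by
  have h1 := ncard_split {y | y ∈ Z ∧ y ≠ z} (Commute z)
  rw [show {x | x ∈ {y | y ∈ Z ∧ y ≠ z} ∧ Commute z x} = perp Z z from Set.ext fun _ => and_assoc,
    show {x | x ∈ {y | y ∈ Z ∧ y ≠ z} ∧ ¬ Commute z x} = {y | y ∈ Z ∧ ¬ Commute z y} from
      Set.ext fun y => ⟨fun k => ⟨k.1.1, k.2⟩, fun k => ⟨⟨k.1, fun e => k.2 (e ▸ Commute.refl _)⟩, k.2⟩⟩]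
    at h1
  have h2 : {y | y ∈ Z ∧ ¬ Commute z y}.ncard = 2 := by
    have := ncard_single hz
    omega
  refine ⟨(Set.ncard_pos (Set.toFinite _)).mp (h2 ▸ two_pos), fun y hy y' hy' k k' => ?_⟩
  have : ({y, cj z y} : Set G) = {y | y ∈ Z ∧ ¬ Commute z y} :=
    Set.eq_of_subset_of_ncard_le (by
      rintro _ (rfl | rfl)
      exacts [⟨hy, k⟩, ⟨h.cjm _ hz _ hy, not_commute_cj_self k⟩])
      (by rw [h2, Set.ncard_pair (cj_ne_right k).symm])
  exact this.ge ⟨hy', k'⟩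

theorem one_pt {E Z : Set G} (h : TS Z) (hZ : Z ⊆ E) (hS : Sym E) {w : G} (hw : w ∈ E) (hw' : w ∉ Z)
    {ν : ℕ} (h1 : (Z.ncard : ℤ) = 3 * ν) (h2 : ∀ z ∈ Z, ((perp Z z).ncard : ℤ) = 3 * ν - 3)
    (h3 : (perp Z w).ncard = ν) : ∀ y ∈ perp Z w, ∀ y' ∈ perp Z w, Commute y y' := by
  have a1 : ∀ z ∈ Z, ((perp (perp Z w) z).ncard : ℤ) =
      ν - {y | y ∈ perp Z w ∧ ¬ (y ≠ z ∧ Commute z y)}.ncard := fun z hz => by
    have := ncard_split (perp Z w) fun y => y ≠ z ∧ Commute z y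
    rw [h3] at this
    exact eq_sub_of_add_eq this.symm
  have a2 : ∀ z ∈ Z, (1 : ℤ) ≤ {y | y ∈ perp Z w ∧ ¬ (y ≠ z ∧ Commute z y)}.ncard := fun z hz => by
    obtain ⟨y, hy, k⟩ := (two_nb h hz (by rw [h1, h2 z hz]; ring)).1
    have a : ∀ y ∈ Z, Commute w y → y ∈ perp Z w := fun y hy k => ⟨hy, fun e => hw' (e ▸ hy), k⟩
    refine mod_cast (Set.ncard_pos (Set.toFinite _)).mpr ?_
    by_cases k1 : Commute w z
    · exact ⟨z, a z hz k1, fun k => k.1 rfl⟩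
    by_cases k2 : Commute w y
    · exact ⟨y, a y hy k2, fun k' => k k'.2⟩
    · exact ⟨_, a _ (h.cjm _ hz _ hy) (hS z (hZ hz) y (hZ hy) w hw k k1 k2),
        fun k' => not_commute_cj_self k k'.2⟩
  have a3 : ∑ z ∈ fs Z, (({y | y ∈ perp Z w ∧ ¬ (y ≠ z ∧ Commute z y)}.ncard : ℤ) - 1) = 0 := by
    have := dc1 Z (perp Z w)
    rw [sum_fs_const (S := perp Z w) fun z hz => h2 z hz.1, h3,
      sum_congr rfl fun z hz => a1 z (mem_fs.mp hz)] at this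
    simp only [sum_sub_distrib, sum_const, card_fs, nsmul_eq_mul, h1] at this ⊢
    linear_combination -this
  intro y hy y' hy'
  by_contra k
  have a4 := (sum_eq_zero_iff_of_nonneg fun z hz => sub_nonneg.mpr (a2 z (mem_fs.mp hz))).mp a3 y
    (mem_fs.mpr hy.1)
  have a5 : ({y, y'} : Set G).ncard ≤ {x | x ∈ perp Z w ∧ ¬ (x ≠ y ∧ Commute y x)}.ncard :=
    Set.ncard_le_ncard (by
      rintro _ (rfl | rfl)
      exacts [⟨hy, fun k => k.1 rfl⟩, ⟨hy', fun k' => k k'.2⟩])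
  rw [Set.ncard_pair fun e : y = y' => k (e ▸ Commute.refl _)] at a5
  omega

theorem partner {E Z : Set G} (h : TS Z) (hZ : Z ⊆ E) (hS : Sym E) {w : G} (hw : w ∈ E) (hw' : w ∉ Z)
    {ν : ℕ} (h1 : (Z.ncard : ℤ) = 3 * ν) (h2 : ∀ z ∈ Z, ((perp Z z).ncard : ℤ) = 3 * ν - 3)
    (h3 : (perp Z w).ncard = ν) : ∃ b : G → G, ∀ y ∈ perp Z w, b y ∈ Z ∧ ¬ Commute y (b y) ∧
      ¬ Commute w (b y) ∧ ∀ y' ∈ perp Z w, y' ≠ y →
        Commute y y' ∧ Commute (b y) y' ∧ Commute (b y) (b y') := by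
  have o := one_pt h hZ hS hw hw' h1 h2 h3
  have t := fun z hz => two_nb h (z := z) hz (by rw [h1, h2 z hz]; ring)
  choose! b hb hb' using fun z hz => (t z hz).1
  have c1 : ∀ y ∈ perp Z w, ¬ Commute w (b y) := fun y hy k =>
    hb' y hy.1 (o y hy _ ⟨hb y hy.1, fun e => hw' (e ▸ hb y hy.1), k⟩)
  have c2 : ∀ y ∈ perp Z w, ∀ y' ∈ perp Z w, y' ≠ y → Commute (b y) y' := fun y hy y' hy' e => by
    by_contra k
    have k' : ¬ Commute (b y) y := fun k => hb' y hy.1 k.symm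
    rcases (t _ (hb y hy.1)).2 y hy.1 y' hy'.1 k' k with e' | e'
    · exact e e'
    · exact not_commute_cj_self' h.set (hb y hy.1) hy.1 k' (e' ▸ o y hy y' hy')
  refine ⟨b, fun y hy => ⟨hb y hy.1, hb' y hy.1, c1 y hy, fun y' hy' e =>
    ⟨o y hy y' hy', c2 y hy y' hy' e, ?_⟩⟩⟩
  by_contra k
  rcases (t _ (hb y hy.1)).2 y hy.1 _ (hb y' hy'.1) (fun k => hb' y hy.1 k.symm) k with e' | e'
  · exact c1 y' hy' (e' ▸ hy.2.2)
  · exact hb' y' hy'.1 (e' ▸ commute_cj_of (c2 y hy y' hy' e).symm (o y' hy' y hy))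

omit [Finite G] in
/-- the sum of a claw -/
theorem claw_sum {E : Set G} (h : TS E) (hS : Sym E) {w a b c : G} (hw : w ∈ E) (ha : a ∈ E)
    (hb : b ∈ E) (hc : c ∈ E) (h1 : ¬ Commute w a) (h2 : ¬ Commute w b) (h3 : ¬ Commute w c)
    (h4 : Commute a b) (h5 : Commute a c) (h6 : Commute c b) :
    ∃ d ∈ E, ∀ e ∈ E, (Commute e d ↔ (Commute e a ↔ (Commute e b ↔ Commute e c))) := by
  have m1 := h.cjm w hw a ha
  have m2 := h.cjm w hw b hb
  have m3 := h.cjm _ m2 c hc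
  have n1 : ¬ Commute (cj w b) c := by
    rw [Commute.symm_iff, E6.sym_iff h hS hw hb hc h2, Commute.symm_iff (a := c)]
    simp [h3, h6]
  have k : ∀ e ∈ E, (Commute e (cj (cj w b) c) ↔ ((Commute e w ↔ Commute e b) ↔ Commute e c)) :=
    fun e he => by rw [E6.sym_iff h hS m2 hc he n1, E6.sym_iff h hS hw hb he h2]
  have k' : ∀ e ∈ E, (Commute (cj w a) e ↔ (Commute w e ↔ Commute a e)) := fun e he => by
    rw [Commute.symm_iff, E6.sym_iff h hS hw ha he h1, Commute.symm_iff (a := w),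
      Commute.symm_iff (a := a)]
  have n2 : ¬ Commute (cj w a) (cj (cj w b) c) := by
    rw [k _ m1, k' _ hw, k' _ hb, k' _ hc, Commute.symm_iff (a := a) (b := w)]
    simp [h1, h2, h3, h4, h5]
  refine ⟨_, h.cjm _ m1 _ m3, fun e he => ?_⟩
  rw [E6.sym_iff h hS m1 m3 he n2, k e he, E6.sym_iff h hS hw ha he h1]
  tauto

theorem sym_step {D : Set G} (hF : Fi D) {n k l m l1 m1 : ℕ}
    (s : Srg D n k l m) (sL : ∀ w ∈ D, Srg (perp D w) k l l1 m1) (hR : ∀ w ∈ D, R3 (perp D w))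
    (hS : ∀ w ∈ D, Sym (perp D w)) :
    Sym D ∨ (m = 9 ∧ m1 = 6 ∧ ∀ w ∈ D, Orth (perp D w) 5) := by
  refine or_iff_not_imp_left.mpr fun h0 => ?_
  obtain ⟨ν, hν⟩ := exists_nu hF
  have hT := TS.of_class hF.cl
  have hN : (3 : ℤ) ≤ ν ∧ (m : ℤ) = 3 * ν ∧ (m1 : ℤ) = 3 * ν - 3 ∧ (k : ℤ) = 21 * ν - 27 := by
    simp only [Sym, not_forall] at h0
    obtain ⟨x, hx, c, hc, p, hp, hxc, p1, p2, p3⟩ := h0
    have e := counts hF s sL hν hx hc hxc
    have z : ∀ p ∈ fs (AA D x c), (perp (perp D x ∩ perp D c) p).ncard = 0 := fun p hp => by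
      obtain ⟨hp, p1, p2, p3⟩ := mem_fs.mp hp
      rw [Set.ncard_eq_zero, Set.eq_empty_iff_forall_notMem]
      intro z hz
      exact p3 (hS z hz.1.1.1 x (mem_perp_symm hx hz.1.1) c (mem_perp_symm hc hz.1.2) p
        ⟨hp, hz.2.1.symm, hz.2.2.symm⟩ hxc p1 p2)
    rw [sum_eq_zero fun p hp => by rw [z p hp]; rfl, sum_eq_zero fun p hp => by rw [z p hp]; rfl] at e
    refine sym_num e (mod_cast (Set.ncard_pos (Set.toFinite _)).mpr ⟨p, hp, p1, p2, p3⟩) ?_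
    obtain ⟨z, hz, z1, z2⟩ := (R3.of_fi hF).zne x hx c hc hxc
    have a : ∀ z ∈ D, Commute x z → Commute c z → z ∈ perp D x ∩ perp D c := fun z hz z1 z2 =>
      ⟨⟨hz, fun e => hxc (e ▸ z2.symm), z1⟩, hz, fun e => hxc (e ▸ z1), z2⟩
    have hz' := a z hz z1 z2
    obtain ⟨y, hy, y1, y2⟩ := (hR z hz).zne x (mem_perp_symm hx hz'.1) c (mem_perp_symm hc hz'.2) hxc
    rw [← local_reg sL hx hc hxc hz']
    exact mod_cast (Set.ncard_pos (Set.toFinite _)).mpr ⟨y, a y hy.1 y1 y2, hy.2⟩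
  obtain ⟨n1, n2, n3, n4⟩ := hN
  have cfg : ∀ x ∈ D, ∃ c ∈ D, ¬ Commute x c ∧ ∃ w ∈ perp D x, ¬ Commute c w ∧
      (perp (perp D x ∩ perp D c) w).ncard = ν ∧ ∃ b : G → G, ∀ y ∈ perp (perp D x ∩ perp D c) w,
      b y ∈ perp D x ∩ perp D c ∧ ¬ Commute y (b y) ∧ ¬ Commute w (b y) ∧
      ∀ y' ∈ perp (perp D x ∩ perp D c) w, y' ≠ y →
        Commute y y' ∧ Commute (b y) y' ∧ Commute (b y) (b y') := fun x hx => by
    obtain ⟨c, hc, hxc⟩ := hF.exists_nc hx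
    obtain ⟨w, hw, hw'⟩ := Set.exists_mem_notMem_of_ncard_lt_ncard
      (s := perp D x ∩ perp D c) (t := perp D x) (by rw [s.hm x hx c hc hxc, s.hk x hx]; omega)
    have hcw : ¬ Commute c w := fun k => hw' ⟨hw, hw.1, fun e => hxc (e ▸ hw.2.2), k⟩
    have h3 := hν x hx c hc hxc w hw hcw
    exact ⟨c, hc, hxc, w, hw, hcw, h3, partner (perp_perp D x c ▸ (hT.perp x).perp c)
      Set.inter_subset_left (hS x hx) hw hw' (by rw [s.hm x hx c hc hxc, n2])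
      (fun z hz => by rw [local_reg sL hx hc hxc hz, n3]) h3⟩
  obtain rfl : ν = 3 := by
    by_contra hne
    obtain ⟨x, hx, -⟩ := hF.cl.2.1
    obtain ⟨c, hc, hxc, w, hw, hcw, h3, b, hb⟩ := cfg x hx
    obtain ⟨y1, y2, y3, y4, m1, m2, m3, m4, e12, e13, e14, e23, e24, e34⟩ :=
      (Set.three_lt_ncard_iff (s := perp (perp D x ∩ perp D c) w)).mp (by omega)
    have hE := hS y4 m4.1.1.1
    have a : ∀ y ∈ perp (perp D x ∩ perp D c) w, y ≠ y4 → b y ∈ perp D y4 ∧ y ∈ perp D y4 :=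
      fun y hy e => ⟨⟨(hb y hy).1.1.1, fun e' => (hb y hy).2.2.1 (e' ▸ m4.2.2),
        ((hb y hy).2.2.2 y4 m4 e.symm).2.1.symm⟩, hy.1.1.1, e, ((hb y hy).2.2.2 y4 m4 e.symm).1.symm⟩
    obtain ⟨d, hd, k⟩ := claw_sum (hT.perp y4) hE ⟨hw.1, m4.2.1.symm, m4.2.2.symm⟩ (a y1 m1 e14).1
      (a y2 m2 e24).1 (a y3 m3 e34).1 (hb y1 m1).2.2.1 (hb y2 m2).2.2.1 (hb y3 m3).2.2.1
      ((hb y1 m1).2.2.2 y2 m2 e12.symm).2.2 ((hb y1 m1).2.2.2 y3 m3 e13.symm).2.2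
      ((hb y3 m3).2.2.2 y2 m2 e23).2.2
    have d1 : Commute x d := (k x (mem_perp_symm hx m4.1.1)).mpr (by
      simp [(hb y1 m1).1.1.2.2, (hb y2 m2).1.1.2.2, (hb y3 m3).1.1.2.2])
    have d2 : Commute c d := (k c (mem_perp_symm hc m4.1.2)).mpr (by
      simp [(hb y1 m1).1.2.2.2, (hb y2 m2).1.2.2.2, (hb y3 m3).1.2.2.2])
    have d3 : d ∈ perp D x ∩ perp D c :=
      ⟨⟨hd.1, fun e => hxc (e ▸ d2.symm), d1⟩, hd.1, fun e => hxc (e ▸ d1), d2⟩
    have d4 : ¬ Commute d y1 := by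
      rw [Commute.symm_iff, k _ (a y1 m1 e14).2]
      simp [(hb y1 m1).2.1, ((hb y2 m2).2.2.2 y1 m1 e12).2.1.symm,
        ((hb y3 m3).2.2.2 y1 m1 e13).2.1.symm]
    have d5 : ¬ Commute d y2 := by
      rw [Commute.symm_iff, k _ (a y2 m2 e24).2]
      simp [(hb y2 m2).2.1, ((hb y1 m1).2.2.2 y2 m2 e12.symm).2.1.symm,
        ((hb y3 m3).2.2.2 y2 m2 e23).2.1.symm]
    rcases (two_nb (perp_perp D x c ▸ (hT.perp x).perp c) d3 (by
      rw [s.hm x hx c hc hxc, local_reg sL hx hc hxc d3, n2, n3]; ring)).2 y1 m1.1 y2 m2.1 d4 d5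
      with e | e
    · exact e12 e.symm
    · exact not_commute_cj_self' hT.set hd.1 m1.1.1.1 d4 (e ▸ ((hb y1 m1).2.2.2 y2 m2 e12.symm).1)
  refine ⟨by omega, by omega, fun x hx => ?_⟩
  obtain ⟨c, hc, hxc, w, hw, hcw, h3, b, hb⟩ := cfg x hx
  obtain ⟨y1, y2, y3, m1, m2, m3, e12, e13, e23⟩ :=
    (Set.two_lt_ncard_iff (s := perp (perp D x ∩ perp D c) w)).mp (by omega)
  obtain ⟨a1, a2, a3, a4⟩ := hb y1 m1
  obtain ⟨b1, b2, b3, b4⟩ := hb y2 m2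
  obtain ⟨c1, -, c3, c4⟩ := hb y3 m3
  obtain ⟨f1, f2, f3⟩ := a4 y2 m2 e12.symm
  obtain ⟨-, -, f4⟩ := a4 y3 m3 e13.symm
  obtain ⟨-, f5, -⟩ := b4 y1 m1 e12
  obtain ⟨-, f6, -⟩ := c4 y1 m1 e13
  obtain ⟨-, f7, f8⟩ := c4 y2 m2 e23
  have f9 := m1.2.2
  have f10 := m2.2.2
  refine E6.orth_of_e6 (hT.perp x) (hS x hx) (by rw [s.hk x hx]; omega)
    (fun i => [y1, b y1, w, b y2, y2, b y3].getD i 1) (fun i hi => ?_) fun i hi j hj => ?_
  · interval_cases i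
    exacts [m1.1.1, a1.1, hw, b1.1, m2.1.1, c1.1]
  · interval_cases i <;> interval_cases j <;>
      simp only [List.getD_cons_zero, List.getD_cons_succ] <;>
      first
      | exact iff_of_true (Commute.refl _) (by decide +kernel)
      | exact iff_of_true (by assumption) (by decide +kernel)
      | exact iff_of_true (Commute.symm (by assumption)) (by decide +kernel)
      | exact iff_of_false (by assumption) (by decide +kernel)
      | exact iff_of_false (by rw [Commute.symm_iff]; assumption) (by decide +kernel)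

end Cfsg.Agent.Fis
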