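import Cfsg.Agent.Lib.Fis.U4
import Cfsg.Agent.Lib.Fis.Hexad
import Cfsg.Agent.Lib.Fis.F24
import Cfsg.Agent.Lib.Fis.UApi2
import Cfsg.Agent.Lib.Fis.SymStep
import Cfsg.Agent.Lib.Fis.OExt2
import Cfsg.Agent.Lib.Fis.Num

set_option autoImplicit false

/-! # Fischer's theorem: the induction -/

namespace Cfsg.Agent.Fis

open Subgroup Cfsg.Agent.Lib.Fischer Cfsg.Agent.Lib.Invol Cfsg.Agent.Spor

universe u
variable {G : Type u} [Group G]

/-- the types of spaces without singular lines -/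
def Ty0 (D : Set G) : Prop := Sym D ∨ Orth D 6 ∨ G22 D ∨ G23 D ∨ G24 D

/-- all types of spaces -/
def Ty (D : Set G) : Prop := (∃ j, Uni D (j + 4)) ∨ Ty0 D

theorem Orth.mono {D : Set G} {m n : ℕ} (h : Orth D n) (k : m ≤ n) : Orth D m := by
  obtain ⟨V, _, _, _, Q, v, h1, h2⟩ := h
  exact ⟨V, _, _, inferInstance, Q, v, k.trans h1, h2⟩

variable [Finite G] {D : Set G}

theorem ty_thick (h : Good D) (hT : Thick D) : Ty D := by
  have hF := h.fi
  rcases hF.thin_or_base hT h.cen with h3 | ⟨y, b, hB⟩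
  · exact Or.inr (Or.inl fun a ha b hb e he k1 k2 k3 => hF.thin_line hT h3 ha hb he k1 k2 k3)
  · obtain ⟨n, v, h0, h1, h2, h3, h4, -⟩ := hB.exists_u_model
    obtain ⟨j, rfl⟩ : ∃ j, n = j + 4 := ⟨n - 4, by omega⟩
    have hU : UMod D v := ⟨TS.of_class h.cl, h1, h2, h3, h4, fun d hd e he l k =>
      hF.eq_of_pair hd he fun w hw _ _ => by
        have hl : l ≠ 0 := fun t => h1 d hd (by rw [k, t, zero_smul])
        rw [← h2 d hd w hw, ← h2 e he w hw, k]
        simp [hl]⟩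
    exact Or.inl ⟨j, R3.of_fi hF, hU.ker h0, v, hU⟩

theorem ty_step (h : Good D) (hT : ¬ Thick D) {x : G} (hx : x ∈ D) {H : Type u} [Group H] [Finite H]
    {E : Set H} {π : G → H} (hE : Good E) (hC : Cover (perp D x) E π) (hy : Ty E) : Ty0 D := by
  have hD := h.cl
  have hF := h.fi
  have hN := nt_of_not_thick hF hT
  have all : ∀ P : Set G → Prop, (∀ {A B : Set G} {π : G → G}, Cover A B π → P B → P A) →
      P (perp D x) → ∀ w ∈ D, P (perp D w) := fun P h1 h2 w hw =>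
    (cover_perp hD hx hw).elim fun _ k => h1 k h2
  have hR := all R3 Cover.r3 (hC.r3 (R3.of_fi hE.fi))
  obtain ⟨n, k, l, m, s⟩ := exists_srg hF
  obtain ⟨k', l', l1, m1, sE⟩ := exists_srg hE.fi
  have sL := all (Srg · k' l' l1 m1) (fun c s => c.srg s) (hC.srg sE)
  obtain ⟨y, hy'⟩ := (R3.of_fi hF).pp x hx
  obtain rfl : k = k' := by rw [← s.hk x hx, (sL x hx).hn]
  obtain rfl : l = l' := by rw [← s.hl x hx y hy', ← (sL x hx).hk y hy', perp_perp]
  obtain ⟨ν, α, S1, S2, e, cs, h3, cov⟩ := exists_eqs hF s sL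
  have uniq : ∀ {a b c d : ℕ}, Srg (perp D x) a b c d → k = a ∧ l = b ∧ l1 = c ∧ m1 = d := by
    intro a b c d t
    obtain ⟨z, hz⟩ := (hR x hx).pp y hy'
    obtain ⟨c, hc, hyc⟩ := (hR x hx).nc y hy'
    exact ⟨by rw [← t.hn, (sL x hx).hn], by rw [← t.hk y hy', (sL x hx).hk y hy'],
      by rw [← t.hl y hy' z hz, (sL x hx).hl y hy' z hz],
      by rw [← t.hm y hy' c hc hyc, (sL x hx).hm y hy' c hc hyc]⟩
  rcases hy with ⟨j, hy⟩ | hy | hy | hy | hy | hy
  · have hL := all (Uni · (j + 4)) (fun c s => c.uni s) (hC.uni hy)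
    obtain ⟨-, -, v, hv⟩ := hL x hx
    obtain ⟨c, hc, hyc⟩ := (hR x hx).nc y hy'
    obtain ⟨v', hv'⟩ := hv.sub (n := j + 2) hy' hc hyc
    have n1 := hv.ncard
    have n2 := hv'.ncard
    have n3 := hv.ncard_perp hy' hc hyc
    rw [(sL x hx).hn] at n1
    rw [(sL x hx).hm y hy' c hc hyc] at n2 n3
    rw [(sL x hx).hk y hy'] at n3
    rcases num_uni e cs h3 n1 n2 (by exact_mod_cast n3) with ⟨rfl, a1, a2⟩ | ⟨rfl, a1, a2⟩ |
      ⟨rfl, a1, a2, a3, a4, a5, a6, a7⟩
    · exact Or.inr (Or.inl (orth_step hF le_rfl (fun w hw => orth_of_uni4 (hL w hw)) hR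
        (Or.inr ⟨_, _, _, _, _, _, s, sL, Or.inr ⟨by omega, by omega⟩⟩)))
    · obtain rfl : n = 870 := by omega
      obtain rfl : k = 165 := by omega
      exact (no_870 h hN hL s).elim
    · obtain rfl : n = 3510 := by omega
      obtain rfl : k = 693 := by omega
      obtain rfl : l = 180 := by omega
      obtain rfl : m = 126 := by omega
      exact Or.inr (Or.inr (Or.inl ⟨⟨R3.of_fi hF, s, cov a5 18 (by norm_num) a6 a7,
        Ker.of_local (R3.of_fi hF) fun z hz => (hL z hz).2.1, hN⟩, hL⟩))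
  · rcases sym_step hF s sL hR (all Sym Cover.sym (hC.sym hy)) with t | ⟨t1, t2, t⟩
    · exact Or.inl t
    · exact Or.inr (Or.inl (orth_step hF le_rfl t hR
        (Or.inr ⟨_, _, _, _, _, _, s, sL, Or.inl ⟨t1, t2⟩⟩)))
  · exact Or.inr (Or.inl ((orth_step hF (by norm_num) (all (Orth · 6) (fun c s => c.orth s) (hC.orth hy)) hR
      (Or.inl le_rfl)).mono (by norm_num)))
  · have hL := all G22 Cover.g22 (hC.g22 hy)
    obtain ⟨rfl, rfl, rfl, rfl⟩ := uniq (hL x hx).1.srg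
    obtain ⟨a1, a4, a5, a6, a7⟩ := num_22 e
    obtain rfl : n = 31671 := by omega
    obtain rfl : m = 351 := by omega
    exact Or.inr (Or.inr (Or.inr (Or.inl ⟨⟨R3.of_fi hF, s, cov a5 27 (by norm_num) a6 a7,
      Ker.of_local (R3.of_fi hF) fun z hz => (hL z hz).1.ker, hN⟩, hL⟩)))
  · have hL := all G23 Cover.g23 (hC.g23 hy)
    obtain ⟨rfl, rfl, rfl, rfl⟩ := uniq (hL x hx).1.srg
    obtain ⟨a1, a4, a5, a6, a7⟩ := num_23 e
    obtain rfl : n = 306936 := by omega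
    obtain rfl : m = 3240 := by omega
    exact Or.inr (Or.inr (Or.inr (Or.inr ⟨⟨R3.of_fi hF, s, cov a5 324 (by norm_num) a6 a7,
      Ker.of_local (R3.of_fi hF) fun z hz => (hL z hz).1.ker, hN⟩, hL⟩)))
  · obtain ⟨rfl, rfl, rfl, rfl⟩ := uniq (hC.g24 hy).1.srg
    exact (num_24 e).elim

theorem ty_all (N : ℕ) : ∀ (G : Type u) [Group G] [Finite G] (D : Set G), D.ncard = N → Good D →
    Ty D := by
  induction N using Nat.strong_induction_on with
  | _ N ih =>
  intro G _ _ D hN h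
  by_cases hT : Thick D
  · exact ty_thick h hT
  by_cases h5 : Nonempty (G ≃* Equiv.Perm (Fin 5))
  · exact Or.inr (Or.inl (h5.elim (sym_of_five h.cl)))
  obtain ⟨x, hx, -⟩ := h.cl.2.1
  obtain ⟨H, _, _, E, π, hE, hC⟩ := exists_local h hT h5 hx
  refine Or.inr (ty_step h hT hx hE hC (ih _ ?_ H E rfl hE))
  rw [← hN, ← hC.image, hC.ncard subset_rfl]
  exact Set.ncard_lt_ncard ⟨perp_sub, fun k => (k hx).2.1 rfl⟩

theorem ty0 (h : Good D) (hT : ¬ Thick D) (h5 : ¬ Nonempty (G ≃* Equiv.Perm (Fin 5))) : Ty0 D := by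
  obtain ⟨x, hx, -⟩ := h.cl.2.1
  obtain ⟨H, _, _, E, π, hE, hC⟩ := exists_local h hT h5 hx
  exact ty_step h hT hx hE hC (ty_all _ H E rfl hE)

omit [Finite G] in
theorem card_step {B : Set G} (hR : R3 D) (hB : ∀ b ∈ B, ∀ d ∈ D, Commute b d) (h : EP D B) {x : G}
    (hx : x ∈ D) : Nat.card (closure (D ∪ B)) =
      Nat.card (closure (perp D x ∪ insert x B)) * D.ncard := by
  rw [← h.index hR.ts hR.conn hB hx, Set.union_insert, ← Set.insert_union, ← relIndex_bot_left,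
    ← relIndex_bot_left, relIndex_mul_relIndex _ _ _ bot_le (KB_le hx)]

omit [Finite G] in
theorem card_base {B : Set G} (hB : ∀ b ∈ B, ∀ d ∈ D, Commute b d) (h : CB D B) :
    Nat.card (closure (D ∪ B)) = Nat.card (closure B) * ord D := by
  rw [← h.index hB, ← relIndex_bot_left, ← relIndex_bot_left,
    relIndex_mul_relIndex _ _ _ bot_le (closure_mono Set.subset_union_right)]

omit [Finite G] in
theorem card_insert {B : Set G} (hR : R3 D) (hB : ∀ b ∈ B, ∀ d ∈ D, Commute b d) {x : G}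
    (hx : x ∈ D) : Nat.card (closure (insert x B)) = Nat.card (closure B) * 2 := by
  obtain ⟨c, hc, hxc⟩ := hR.nc x hx
  have k : ∀ b ∈ closure B, ∀ d ∈ D, Commute b d := fun b hb d hd =>
    commute_closure (fun s hs => hB s hs d hd) hb
  have : (closure B).relIndex (closure (insert x B)) = 2 := by
    refine relIndex_eq_two_iff.mpr ⟨x, subset_closure (Set.mem_insert _ _), fun g hg => ?_⟩
    obtain ⟨a, ha, b, hb, rfl⟩ := exists_split (D := {x}) (B := B)
      (fun b hb d hd => hB b hb d (hd ▸ hx)) hg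
    have e : a * b * x = a * x * b := by rw [mul_assoc, (k b hb x hx).eq, mul_assoc]
    rw [e, mul_mem_cancel_right hb, mul_mem_cancel_right hb]
    have : a = 1 ∨ a = x := by
      refine closure_induction (p := fun a _ => a = 1 ∨ a = x) (fun _ t => Or.inr t) (Or.inl rfl)
        ?_ ?_ ha
      · rintro _ _ _ _ (rfl | rfl) (rfl | rfl) <;> simp [hR.ts.sq hx]
      · rintro _ _ (rfl | rfl) <;> simp [inv_eq hR.ts.set hx]
    rcases this with rfl | rfl
    · exact Or.inr ⟨one_mem _, fun t => hxc (k _ (by simpa using t) c hc)⟩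
    · exact Or.inl ⟨hR.ts.sq hx ▸ one_mem _, fun t => hxc (k _ t c hc)⟩
  rw [← this, ← relIndex_bot_left, ← relIndex_bot_left,
    relIndex_mul_relIndex _ _ _ bot_le (closure_mono (Set.subset_insert _ _))]

omit [Finite G] in
theorem comm_insert {B : Set G} (hB : ∀ b ∈ B, ∀ d ∈ D, Commute b d) (x : G) :
    ∀ b ∈ insert x B, ∀ d ∈ perp D x, Commute b d := by
  rintro b (rfl | hb) d hd
  exacts [hd.2.2, hB b hb d hd.1]

theorem G22.ep {B : Set G} (h : G22 D) (hB : ∀ b ∈ B, ∀ d ∈ D, Commute b d) (hC : CB D B) :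
    EP D B := EP.of_local h.1.r3 h.1.cov (fun x hx => (h.2 x hx).1) hB fun w hw =>
  EP.of_pp (h.2 w hw).1.ts ((h.2 w hw).2.2.elim fun _ k => k.pp6) (comm_insert hB w)
    (hC.perp h.1.r3 h.1.ker hB hw)

theorem G22.card {B : Set G} (h : G22 D) (hB : ∀ b ∈ B, ∀ d ∈ D, Commute b d) (hC : CB D B) :
    Nat.card (closure (D ∪ B)) = Nat.card (closure B) * 64561751654400 := by
  obtain ⟨x, hx⟩ := Set.nonempty_of_ncard_ne_zero (s := D) (by rw [h.1.srg.hn]; norm_num)
  obtain ⟨-, -, v, hv⟩ := h.2 x hx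
  rw [card_step h.1.r3 hB (h.ep hB hC) hx, card_base (comm_insert hB x)
    (hC.perp h.1.r3 h.1.ker hB hx), card_insert h.1.r3 hB hx, hv.ord_eq (by norm_num),
    index_center_six, h.1.srg.hn]
  ring

theorem G23.card {B : Set G} (h : G23 D) (hB : ∀ b ∈ B, ∀ d ∈ D, Commute b d) (hC : CB D B) :
    Nat.card (closure (D ∪ B)) = Nat.card (closure B) * 4089470473293004800 := by
  obtain ⟨x, hx⟩ := Set.nonempty_of_ncard_ne_zero (s := D) (by rw [h.1.srg.hn]; norm_num)
  rw [card_step h.1.r3 hB (EP.of_local h.1.r3 h.1.cov (fun x hx => (h.2 x hx).1.r3) hB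
    fun w hw => (h.2 w hw).ep (comm_insert hB w) (hC.perp h.1.r3 h.1.ker hB hw)) hx,
    (h.2 x hx).card (comm_insert hB x) (hC.perp h.1.r3 h.1.ker hB hx), card_insert h.1.r3 hB hx,
    h.1.srg.hn]
  ring

theorem Good.cb (h : Good D) : CB D ∅ := fun g _ k => by
  rw [eq_one_of_commute h.cl h.cen k]; exact one_mem _

end Cfsg.Agent.Fis
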