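import Cfsg.Agent.Lib.Fis.Cnt
import Cfsg.Agent.Lib.Fischer.Solv
import Cfsg.Agent.S1615

set_option autoImplicit false

/-! # Fischer's theorem: the local group -/

namespace Cfsg.Agent.Fis

open Subgroup Cfsg.Agent.Lib.Fischer Cfsg.Agent.Lib.Invol Cfsg.Agent.Lib.Core Equiv
open scoped commutatorElement

universe u
variable {G : Type u} [Group G]

/-- Fischer's hypotheses -/
structure Good (D : Set G) : Prop where
  cl : IsThreeTranspositionClass D
  sol : ∀ N : Subgroup G, N.Normal → Group.IsSolvable N → N = ⊥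
  perf : ⁅commutator G, commutator G⁆ = commutator G

theorem Good.cen {D : Set G} [Finite G] (h : Good D) : center G = ⊥ :=
  center_eq_bot_of_hsol h.sol

theorem Good.fi {D : Set G} [Finite G] (h : Good D) : Fi D := Fi.of_hsol h.cl h.sol h.perf

set_option maxRecDepth 100000 in
theorem swap_of_sign : ∀ σ : Perm (Fin 5), σ * σ = 1 → Perm.sign σ = -1 →
    ∃ i j : Fin 5, σ = swap i j := by decide +kernel

theorem swap_sym : ∀ i j k l m n : Fin 5, swap i j * swap k l ≠ swap k l * swap i j →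
    swap m n * swap i j ≠ swap i j * swap m n → swap m n * swap k l ≠ swap k l * swap m n →
    swap m n * (swap i j * swap k l * swap i j) = swap i j * swap k l * swap i j * swap m n := by
  decide +kernel

theorem sym_of_five {D : Set G} (hD : IsThreeTranspositionClass D) (φ : G ≃* Perm (Fin 5)) :
    Sym D := by
  have key : ∀ d ∈ D, ∃ i j, φ d = swap i j := fun d hd => by
    refine swap_of_sign _ (by rw [← map_mul, threeTransp_mul_self hD.1 hd, map_one]) ?_
    by_contra h
    have h1 : Perm.sign (φ d) = 1 := (Int.units_eq_one_or _).resolve_right h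
    have : d ∈ (Perm.sign.comp φ.toMonoidHom).ker := h1
    have h2 := eq_top_of_mem hD inferInstance hd this
    have h3 : φ.symm (swap 0 1) ∈ (Perm.sign.comp φ.toMonoidHom).ker := h2 ▸ mem_top _
    simp [MonoidHom.mem_ker] at h3
  intro a ha b hb e he h1 h2 h3
  obtain ⟨i, j, ea⟩ := key a ha
  obtain ⟨k, l, eb⟩ := key b hb
  obtain ⟨m, n, ee⟩ := key e he
  have t : ∀ p q : G, Commute p q ↔ φ p * φ q = φ q * φ p := fun p q => by
    rw [← map_mul, ← map_mul, φ.apply_eq_iff_eq]; rfl
  rw [t] at h1 h2 h3 ⊢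
  rw [cj_def, inv_eq hD.1 ha, map_mul, map_mul]
  simp only [ea, eb, ee] at h1 h2 h3 ⊢
  exact swap_sym i j k l m n h1 h2 h3

variable [Finite G]

theorem nt_of_not_thick {D : Set G} (hF : Fi D) (hT : ¬ Thick D) : NT D := by
  intro x hx u hu v hv h1 h2
  by_contra h
  push Not at h
  refine hT fun x' hx' u' hu' => ?_
  obtain ⟨g, rfl, rfl⟩ := hF.pair_perp hx hu hx' hu'
  rw [← image_line hF.cl]
  exact ⟨_, ⟨v, ⟨hv, h⟩, rfl⟩, by simpa, by simpa⟩

theorem five_of_noTri {D : Set G} (hF : Fi D) (hT : NoTri D) : Nonempty (G ≃* Perm (Fin 5)) := by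
  obtain ⟨x, hx, -⟩ := hF.cl.2.1
  have hx : x ∈ D := hx
  obtain ⟨u, hu, hux, hxu⟩ := hF.exists_perp hx
  obtain ⟨w, hw, k1, k2⟩ := hF.exists_comm_nc hu hx hux
  refine hF.iso_five_of_theta hx ⟨hu, hux, hxu⟩ ⟨hw, fun e => k2 (e ▸ hxu), k1.symm⟩
    (fun h => k2 h.symm) fun y hy h1 h2 => ?_
  rcases hT x hx u hu y hy.1 hxu hy.2.2 h2 with h | h | h
  exacts [absurd h.symm hux, absurd h.symm hy.2.1, absurd h.symm h1]

/-- the commuting graph of the local space has diameter at most two -/
theorem perp_conn {D : Set G} (hF : Fi D) (hN : NT D) (hT : ¬ NoTri D) {x a b : G} (hx : x ∈ D)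
    (ha : a ∈ perp D x) (hb : b ∈ perp D x) (hab : ¬ Commute a b) :
    ∃ w ∈ perp D x, Commute w a ∧ Commute w b := by
  have hD := hF.cl
  obtain ⟨y, hy, u, hu, v, hv, h1, h2, h3, h4⟩ : ∃ y ∈ D, ∃ u ∈ D, ∃ v ∈ D, Commute y u ∧
      Commute y v ∧ Commute u v ∧ ¬ (y = u ∨ y = v ∨ u = v) := by
    by_contra h
    push Not at h
    exact hT h
  push Not at h4
  obtain ⟨c, hc, k1, k2, k3⟩ := hN y hy u ⟨hu, h4.1.symm, h1⟩ v hv h4.2.1.symm h4.2.2.symm
  obtain ⟨g, rfl, rfl⟩ := hF.pair_nc hc hv k3 ha.1 hb.1 hab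
  by_cases h : Commute x (cj g y)
  · by_cases e : cj g y = x
    · exact ⟨cj g u, e ▸ (cj_mem_perp hD).mpr ⟨hu, h4.1.symm, h1⟩, commute_cj.mpr k2.symm,
        commute_cj.mpr h3⟩
    · exact ⟨_, ⟨cj_mem_D hD hy g, e, h⟩, commute_cj.mpr k1.symm, commute_cj.mpr h2⟩
  · have hy' := cj_mem_D hD hy g
    have c1 : Commute (cj g c) (cj x (cj g y)) :=
      commute_cj_of ha.2.2.symm (commute_cj.mpr k1)
    have c2 : Commute (cj g v) (cj x (cj g y)) :=
      commute_cj_of hb.2.2.symm (commute_cj.mpr h2.symm)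
    refine ⟨cj (cj x (cj g y)) (cj g u), ?_, ?_, ?_⟩
    · conv_lhs => rw [← cj_cj_right hD.1 hx hy' h]
      exact (cj_mem_perp hD).mpr ((cj_mem_perp hD).mpr ⟨hu, h4.1.symm, h1⟩)
    · exact (commute_cj_of c1 (commute_cj.mpr k2)).symm
    · exact (commute_cj_of c2 (commute_cj.mpr h3.symm)).symm

omit [Finite G] in
theorem perf_of_conn {D : Set G} (hD : IsThreeTranspositionClass D)
    (h : ∀ a ∈ D, ∀ b ∈ D, ¬ Commute a b → ∃ w ∈ D, Commute w a ∧ Commute w b) :
    ⁅commutator G, commutator G⁆ = commutator G := by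
  let N : Subgroup G := ⁅commutator G, commutator G⁆
  let f := QuotientGroup.mk' N
  have ab : ∀ p ∈ commutator G, ∀ q ∈ commutator G, Commute (f p) (f q) := fun p hp q hq => by
    rw [← commutatorElement_eq_one_iff_commute, ← map_commutatorElement]
    exact (QuotientGroup.eq_one_iff _).mpr (commutator_mem_commutator hp hq)
  have cube : ∀ d ∈ D, ∀ e ∈ D, ¬ Commute d e → f (d * e) ^ 3 = 1 := fun d hd e he k => by
    rcases hD.1.2 d hd e he with k1 | k1
    · exact absurd (commute_of_pow_two hD.1 hd he (k := 1) k1) k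
    · rw [← map_pow, k1, map_one]
  have c3 : ∀ d ∈ D, ∀ e ∈ D, f (d * e) ^ 3 = 1 := fun d hd e he => by
    have : {e | e ∈ D ∧ f (d * e) ^ 3 = 1} = D :=
      no_commuting_split hD (fun _ k => k.1) (x := d)
        ⟨hd, by rw [threeTransp_mul_self hD.1 hd, map_one, one_pow]⟩ fun y hy z hz hz' => by
        by_contra k
        refine hz' ⟨hz, ?_⟩
        rw [show d * z = (d * y) * (y * z) by
          rw [mul_assoc, ← mul_assoc y, threeTransp_mul_self hD.1 hy.1, one_mul], map_mul,
          (ab _ (mul_mem_commutator hD hd hy.1) _ (mul_mem_commutator hD hy.1 hz)).mul_pow, hy.2,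
          cube y hy.1 z hz k, one_mul]
    exact (this.ge he).2
  have c2 : ∀ d ∈ D, ∀ e ∈ D, Commute d e → f d = f e := fun d hd e he k => by
    have h2 : f (d * e) ^ 2 = 1 := by
      rw [← map_pow, k.mul_pow, pow_two, pow_two, threeTransp_mul_self hD.1 hd,
        threeTransp_mul_self hD.1 he, one_mul, map_one]
    have h3 := c3 d hd e he
    rw [pow_succ, h2, one_mul, map_mul, mul_eq_one_iff_eq_inv, ← map_inv, inv_eq hD.1 he] at h3
    exact h3
  have c1 : ∀ d ∈ D, ∀ e ∈ D, f d = f e := fun d hd e he => by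
    by_cases k : Commute d e
    · exact c2 d hd e he k
    · obtain ⟨w, hw, k1, k2⟩ := h d hd e he k
      rw [← c2 w hw d hd k1, c2 w hw e he k2]
  refine le_antisymm (commutator_le_left _ _) ?_
  obtain ⟨d, hd, -⟩ := hD.2.1
  have hd : d ∈ D := hd
  have top : ∀ g, f g ∈ zpowers (f d) := fun g => by
    have : closure D ≤ (zpowers (f d)).comap f := (closure_le _).mpr fun e he => by
      show f e ∈ zpowers (f d)
      rw [c1 e he d hd]; exact mem_zpowers _
    exact this (hD.2.2 ▸ mem_top g)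
  rw [commutator_def, commutator_le]
  intro p _ q _
  refine (QuotientGroup.eq_one_iff _).mp ?_
  show f _ = 1
  rw [map_commutatorElement, commutatorElement_eq_one_iff_commute]
  obtain ⟨i, hi⟩ := mem_zpowers_iff.mp (top p)
  obtain ⟨j, hj⟩ := mem_zpowers_iff.mp (top q)
  rw [← hi, ← hj]
  exact Commute.zpow_zpow_self _ _ _

theorem sol_quot {H : Type u} [Group H] [Finite H] (h1 : pPrimeCore 2 H ≤ center H)
    (h2 : pCore 2 H ≤ center H) (N : Subgroup (H ⧸ center H)) (hN : N.Normal)
    (hs : Group.IsSolvable N) : N = ⊥ := by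
  have : Fact (Nat.Prime 2) := ⟨Nat.prime_two⟩
  let f := QuotientGroup.mk' (center H)
  let M := N.comap f
  have hM : Group.IsSolvable M := by
    let φ : M →* N := (f.comp M.subtype).codRestrict N fun x => x.2
    have : Group.IsSolvable φ.ker := Group.isSolvable_of_comm fun a b => Subtype.ext
      (Subtype.ext (mem_center_iff.mp ((QuotientGroup.eq_one_iff _).mp
        (congrArg Subtype.val b.2)) _))
    exact Group.isSolvable_of_ker_le_range φ.ker.subtype φ (by simp)
  have k1 : (pPrimeCore 2 M).map M.subtype ≤ center H := by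
    refine le_trans (le_pPrimeCore ?_) h1
    rw [card_map_of_injective M.subtype_injective]
    exact pPrimeCore_not_dvd
  have k2 : (pCore 2 M).map M.subtype ≤ center H :=
    le_trans (le_pCore (pCore_isPGroup.map _)) h2
  have ab := comm_of_cores_central hM
    (fun g hg => mem_center_iff.mpr fun y => Subtype.ext (mem_center_iff.mp (k1 ⟨g, hg, rfl⟩) y))
    (fun g hg => mem_center_iff.mpr fun y => Subtype.ext (mem_center_iff.mp (k2 ⟨g, hg, rfl⟩) y))
  have h3 : fittingSubgroup H ≤ center H := fittingSubgroup_le_of_forall_pCore fun q hq => by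
    rcases eq_or_ne q 2 with rfl | h
    · exact h2
    · have := Fact.mk hq
      refine le_trans (le_pPrimeCore fun k => ?_) h1
      obtain ⟨n, hn⟩ := IsPGroup.iff_card.mp (pCore_isPGroup (p := q) (G := H))
      rw [hn] at k
      exact h ((Nat.prime_dvd_prime_iff_eq Nat.prime_two hq).mp
        (Nat.prime_two.dvd_of_dvd_pow k)).symm
  have h4 : M ≤ center H := le_trans (le_fittingSubgroup (by
    let _ : CommGroup M := { (inferInstance : Group M) with mul_comm := ab }
    exact CommGroup.isNilpotent)) h3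
  rw [eq_bot_iff]
  intro y hy
  obtain ⟨y, rfl⟩ := QuotientGroup.mk'_surjective _ y
  exact (QuotientGroup.eq_one_iff _).mpr (h4 hy)

theorem exists_local {D : Set G} (h : Good D) (hT : ¬ Thick D)
    (h5 : ¬ Nonempty (G ≃* Perm (Fin 5))) {x : G} (hx : x ∈ D) :
    ∃ (H : Type u) (_ : Group H) (_ : Finite H) (E : Set H) (π : G → H),
      Good E ∧ Cover (perp D x) E π := by
  classical
  have hD := h.cl
  have hF := h.fi
  have hN := nt_of_not_thick hF hT
  let H := closure (perp D x)
  let f := QuotientGroup.mk' (center H)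
  let E : Set H := {d | (d : G) ∈ perp D x}
  let π : G → H ⧸ center H := fun g => if k : g ∈ H then f ⟨g, k⟩ else 1
  have hπ : ∀ g (k : g ∈ H), π g = f ⟨g, k⟩ := fun g k => dif_pos k
  obtain ⟨u, hu⟩ := hF.exists_perp hx
  have hE : IsThreeTranspositionClass E := by
    refine ⟨⟨fun d hd => by rw [← orderOf_coe]; exact hD.1.1 d hd.1, fun d hd e he => ?_⟩,
      ⟨⟨u, subset_closure hu⟩, hu, ?_⟩, ?_⟩
    · exact (hD.1.2 d hd.1 e he.1).imp Subtype.ext Subtype.ext
    · ext d
      constructor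
      · intro hd
        obtain ⟨g, hg, k⟩ := hF.perp_trans hx hu hd
        exact isConj_iff.mpr ⟨⟨g, hg⟩, Subtype.ext k⟩
      · intro hd
        obtain ⟨g, rfl⟩ := isConj_iff.mp hd
        exact (cj_mem_perp_of_commute hD (commute_of_mem_closure_perp g.2)).mpr hu
    · exact closure_closure_coe_preimage
  have cen : ∀ d ∈ perp D x, ∀ e ∈ perp D x, ∀ k : d * e ∈ H, (⟨d * e, k⟩ : H) ∈ center H →
      d = e := fun d hd e he k k1 => by
    by_contra k2
    have k3 : ∀ w ∈ perp D x, Commute w (d * e) := fun w hw =>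
      congrArg Subtype.val (mem_center_iff.mp k1 ⟨w, subset_closure hw⟩)
    obtain ⟨c, hc, c1, c2, c3⟩ := hN x hx d hd e he.1 he.2.1 (Ne.symm k2)
    have := c2.inv_right.mul_right (k3 c ⟨hc, fun e => c3 (e ▸ he.2.2), c1.symm⟩)
    exact c3 (by rwa [inv_mul_cancel_left] at this)
  have hC : Cover (perp D x) (f '' E) π := by
    refine ⟨(TS.of_class hD).perp x, fun a ha b hb => ?_, ⟨fun d hd => ?_, fun d hd e he k => ?_,
      ?_⟩, fun d hd e he => ?_⟩
    · rw [hπ a ha, hπ b hb, hπ _ (mul_mem ha hb), ← map_mul]; rfl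
    · exact ⟨⟨d, subset_closure hd⟩, hd, (hπ _ _).symm⟩
    · rw [hπ d (subset_closure hd), hπ e (subset_closure he)] at k
      have := QuotientGroup.eq.mp k
      refine cen d hd e he (mul_mem (subset_closure hd) (subset_closure he)) ?_
      convert this using 1
      exact Subtype.ext (by simp [inv_eq hD.1 hd.1])
    · rintro _ ⟨d, hd, rfl⟩
      exact ⟨d, hd, hπ _ d.2⟩
    · rw [hπ d (subset_closure hd), hπ e (subset_closure he)]
      refine ⟨fun k => ?_, fun k => Commute.map (by exact Subtype.ext k) f⟩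
      by_contra k1
      have hd' := cj_mem_D hD he.1 d
      have m1 := subset_closure (k := perp D x) hd
      have m2 := subset_closure (k := perp D x) he
      have k2 : f (cj ⟨d, m1⟩ ⟨e, m2⟩) = f ⟨e, m2⟩ := by rw [map_cj, cj_of_commute k]
      have := QuotientGroup.eq.mp k2
      refine cj_ne_right k1 (cen _ (((TS.of_class hD).perp x).cjm d hd e he) e he (mul_mem (cj_mem m1 m2) m2) ?_)
      convert this using 1
      exact Subtype.ext (by
        show cj d e * e = (cj d e)⁻¹ * e
        rw [inv_eq hD.1 hd'])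
  have hE' : IsThreeTranspositionClass (f '' E) := by
    obtain ⟨w, hw, k1, k2⟩ := hF.exists_comm_nc hu.1 hx hu.2.1
    refine quot_class hE f (QuotientGroup.mk'_surjective _) (d := ⟨u, subset_closure hu⟩) hu
      fun k => k2 ?_
    exact congrArg Subtype.val (mem_center_iff.mp ((QuotientGroup.eq_one_iff _).mp k)
      ⟨w, subset_closure ⟨hw, fun e => k2 (e ▸ hu.2.2), k1.symm⟩⟩)
  refine ⟨_, inferInstance, inferInstance, _, π, ⟨hE', sol_quot ?_ ?_, perf_of_conn hE' ?_⟩, hC⟩
  · by_contra k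
    exact h5 (S1615.result h.sol h.perf hD x hx k)
  · by_contra k
    exact hT (hF.thick_of hx pCore_isPGroup k)
  · intro a ha b hb k
    obtain ⟨a, ha0, rfl⟩ := hC.surj ha
    obtain ⟨b, hb0, rfl⟩ := hC.surj hb
    obtain ⟨w, hw, k1, k2⟩ := perp_conn hF hN (fun t => h5 (five_of_noTri hF t)) hx ha0 hb0
      (by rwa [← hC.comm a ha0 b hb0])
    exact ⟨π w, hC.mem hw, (hC.comm w hw a ha0).mpr k1, (hC.comm w hw b hb0).mpr k2⟩

end Cfsg.Agent.Fis
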