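import Cfsg.Agent.Lib.Fis.Loc
import Cfsg.Agent.Lib.Fischer.Unit3
import Cfsg.Agent.Lib.Forms.QuadOmega

set_option autoImplicit false

/-! # Fischer's theorem: the types of Fischer spaces -/

namespace Cfsg.Agent.Fis

open Subgroup Cfsg.Agent.Lib.Fischer Cfsg.Agent.Lib.Invol Cfsg.Agent.Spor Module QuadraticMap
open Cfsg.Agent.Lib.Forms (Nondeg)

variable {G : Type*} [Group G] {G' : Type*} [Group G']

/-- orthogonal model over the field with three elements -/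
structure OM (D : Set G) {V : Type*} [AddCommGroup V] [Module (ZMod 3) V]
    (Q : QuadraticForm (ZMod 3) V) (v : G → V) : Prop where
  ts : TS D
  ker : Ker D
  nd : Nondeg Q
  q : ∀ d ∈ D, Q (v d) = -1
  pol : ∀ d ∈ D, ∀ e ∈ D, polar Q (v d) (v e) = 0 ↔ e ∈ perp D d
  surj : ∀ y, Q y = -1 → ∃ d ∈ D, y = v d ∨ y = - v d
  inj : ∀ d ∈ D, ∀ e ∈ D, v d = v e ∨ v d = - v e → d = e

def Orth (D : Set G) (n : ℕ) : Prop :=
  ∃ (V : Type) (_ : AddCommGroup V) (_ : Module (ZMod 3) V) (_ : FiniteDimensional (ZMod 3) V)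
    (Q : QuadraticForm (ZMod 3) V) (v : G → V), n ≤ finrank (ZMod 3) V ∧ OM D Q v

/-- unitary model over the field with four elements -/
structure UMod (D : Set G) {n : ℕ} (v : G → Fin n → F4) : Prop where
  ts : TS D
  ne : ∀ d ∈ D, v d ≠ 0
  pol : ∀ d ∈ D, ∀ e ∈ D, hf (v d) (v e) = 0 ↔ Commute d e
  surj : ∀ y, y ≠ 0 → hf y y = 0 → ∃ d ∈ D, ∃ l : F4, l ≠ 0 ∧ y = l • v d
  eqv : ∀ d ∈ D, ∀ e ∈ D, ∃ l : F4, l ≠ 0 ∧ v e + hf (v e) (v d) • v d = l • v (cj d e)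
  inj : ∀ d ∈ D, ∀ e ∈ D, ∀ l : F4, v d = l • v e → d = e

def Uni (D : Set G) (n : ℕ) : Prop := R3 D ∧ Ker D ∧ ∃ v : G → Fin n → F4, UMod D v

/-- the common part of the three sporadic types -/
structure Spo (D : Set G) (n k l m : ℕ) : Prop where
  r3 : R3 D
  srg : Srg D n k l m
  cov : Cov D
  ker : Ker D
  nt : NT D

def G22 (D : Set G) : Prop := Spo D 3510 693 180 126 ∧ ∀ x ∈ D, Uni (perp D x) 6

def G23 (D : Set G) : Prop := Spo D 31671 3510 693 351 ∧ ∀ x ∈ D, G22 (perp D x)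

def G24 (D : Set G) : Prop := Spo D 306936 31671 3510 3240 ∧ ∀ x ∈ D, G23 (perp D x)

namespace Cover
variable {D : Set G} {D' : Set G'} {π : G → G'} (h : Cover D D' π)
include h

theorem orth {n : ℕ} (s : Orth D' n) : Orth D n := by
  obtain ⟨V, _, _, _, Q, v, hn, s⟩ := s
  refine ⟨V, _, _, inferInstance, Q, v ∘ π, hn, h.ts, h.ker s.ker, s.nd,
    fun d hd => s.q _ (h.mem hd), fun d hd e he => ?_, fun y hy => ?_, fun d hd e he k => ?_⟩
  · rw [← h.mem_perp hd he]; exact s.pol _ (h.mem hd) _ (h.mem he)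
  · obtain ⟨d, hd0, k⟩ := s.surj y hy
    obtain ⟨d, hd, rfl⟩ := h.surj hd0
    exact ⟨d, hd, k⟩
  · exact (h.inj hd he).mp (s.inj _ (h.mem hd) _ (h.mem he) k)

theorem umod {n : ℕ} {v : G' → Fin n → F4} (s : UMod D' v) : UMod D (v ∘ π) := by
  refine ⟨h.ts, fun d hd => s.ne _ (h.mem hd), fun d hd e he => ?_, fun y hy hy' => ?_,
    fun d hd e he => ?_, fun d hd e he l k => ?_⟩
  · rw [← h.comm d hd e he]; exact s.pol _ (h.mem hd) _ (h.mem he)
  · obtain ⟨d, hd0, k⟩ := s.surj y hy hy'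
    obtain ⟨d, hd, rfl⟩ := h.surj hd0
    exact ⟨d, hd, k⟩
  · have := s.eqv _ (h.mem hd) _ (h.mem he)
    rwa [← h.cj' hd he] at this
  · exact (h.inj hd he).mp (s.inj _ (h.mem hd) _ (h.mem he) l k)

theorem uni {n : ℕ} (s : Uni D' n) : Uni D n :=
  ⟨h.r3 s.1, h.ker s.2.1, s.2.2.elim fun _ k => ⟨_, h.umod k⟩⟩

theorem spo {n k l m : ℕ} (s : Spo D' n k l m) : Spo D n k l m :=
  ⟨h.r3 s.r3, h.srg s.srg, h.cov s.cov, h.ker s.ker, h.nt s.nt⟩

theorem g22 (s : G22 D') : G22 D :=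
  ⟨h.spo s.1, fun _ hx => (h.perp hx).uni (s.2 _ (h.mem hx))⟩

theorem g23 (s : G23 D') : G23 D :=
  ⟨h.spo s.1, fun _ hx => (h.perp hx).g22 (s.2 _ (h.mem hx))⟩

theorem g24 (s : G24 D') : G24 D :=
  ⟨h.spo s.1, fun _ hx => (h.perp hx).g23 (s.2 _ (h.mem hx))⟩

end Cover

/-- an element centralizing `x` and its perp is trivial on `D` up to `x` -/
theorem kerC {D : Set G} (h : R3 D) (hK : Ker D) {x g : G} (hx : x ∈ D)
    (hg : ∀ d ∈ D, cj g d ∈ D) (h1 : Commute g x) (h2 : ∀ d ∈ perp D x, Commute g d) :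
    (∀ d ∈ D, Commute g d) ∨ ∀ d ∈ D, Commute (x * g) d := by
  obtain ⟨c, hc, hxc⟩ := h.nc x hx
  have key : ∀ g, Commute g x → (∀ d ∈ perp D x, Commute g d) → Commute g c →
      ∀ d ∈ D, Commute g d := fun g h1 h2 h3 d hd => by
    by_cases k : Commute x d
    · by_cases e : d = x
      · exact e ▸ h1
      · exact h2 d ⟨hd, e, k⟩
    · obtain ⟨t, ht, rfl⟩ := h.tr x hx c hc d hd hxc k
      exact commute_cj_of (commute_closure (by
        rintro s (rfl | hs); exacts [h1.symm, (h2 s hs).symm]) ht).symm h3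
  have h3 : ∀ z ∈ D, Commute x z → Commute g z := fun z hz k => by
    by_cases e : z = x
    · exact e ▸ h1
    · exact h2 z ⟨hz, e, k⟩
  rcases hK x hx c hc _ (hg c hc) hxc (fun k => hxc (commute_of_cj h1.symm k))
    (fun z hz k1 k2 => (commute_cj_of (h3 z hz k1).symm k2.symm).symm) with e | e
  · exact Or.inl (key g h1 h2 (cj_eq_self_iff.mp e))
  · refine Or.inr (key _ ((Commute.refl x).mul_left h1) (fun d hd => hd.2.2.mul_left (h2 d hd)) ?_)
    rw [← cj_eq_self_iff, cj_mul, e, cj_cj h.ts.set hx]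

theorem TS.eq_of_mul {D : Set G} (h : TS D) {w a b : G} (hw : w ∈ D) (ha : a ∈ D) (hb : b ∈ D)
    (h1 : ¬ Commute w a) (h2 : Commute (a * b) w) : a = b := by
  have e : cj a w = cj b w := by
    rw [← cj_eq_self_iff, cj_mul, cj_eq_iff h.set ha] at h2
    exact h2.symm
  have h3 : ¬ Commute w b := fun k => h1 (by
    rw [cj_of_commute k.symm, cj_eq_self_iff] at e; exact e.symm)
  rwa [← cj_comm h.set hw ha h1, ← cj_comm h.set hw hb h3, cj_inj] at e

theorem TS.not_three {D : Set G} (h : TS D) {w a b c : G} (hw : w ∈ D) (ha : a ∈ D) (hb : b ∈ D)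
    (hc : c ∈ D) (h1 : ¬ Commute w a) (h2 : ¬ Commute w b) (h3 : ¬ Commute w c) (hab : Commute a b) :
    ¬ Commute (a * b * c) w := fun k => by
  have e : cj c w = cj b (cj a w) := by
    rw [← cj_eq_self_iff, cj_mul, cj_mul, cj_eq_iff h.set ha, cj_eq_iff h.set hb] at k
    exact k
  have e1 : Commute w (cj b (cj a w)) := by
    rw [← commute_cj_left h.set hb, ← cj_comm h.set hw ha h1, ← cj_comm h.set hw hb h2,
      commute_cj]
    exact hab.symm
  rw [← e] at e1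
  exact not_commute_cj_self' h.set hc hw (fun k => h3 k.symm) e1

end Cfsg.Agent.Fis
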