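import Cfsg.Agent.Lib.Fis.OM

set_option autoImplicit false

/-! # Fischer's theorem: locally orthogonal spaces, the singular vector of a point -/

namespace Cfsg.Agent.Fis

open Subgroup Cfsg.Agent.Lib.Fischer Cfsg.Agent.Lib.Invol Module QuadraticMap
open Cfsg.Agent.Lib.Forms (Nondeg Q_add Q_smul Q_neg Q_sub polar_self')

variable {G : Type*} [Group G] {V : Type*} [AddCommGroup V] [Module (ZMod 3) V]
  {Q : QuadraticForm (ZMod 3) V} {D : Set G} {v : G → V}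

theorem OM.circ (h : OM D Q v) {y y1 u : G} (hy : y ∈ D) (hy1 : y1 ∈ D) (hu : u ∈ D)
    (hn : polar Q (v y1) (v y) ≠ 0) :
    polar Q (v u) (polar Q (v y1) (v y) • v y1 - v y) = 0 ↔
      ((u ≠ y ∧ Commute y u ↔ u ≠ y1 ∧ Commute y1 u) ∧
        (u ≠ y ∧ Commute y u ↔ u ≠ cj y y1 ∧ Commute (cj y y1) u)) := by
  have e : ∀ p ∈ D, u ≠ p ∧ Commute p u ↔ polar Q (v u) (v p) = 0 := fun p hp => by
    rw [polar_comm, h.pol p hp u hu, mem_perp, and_iff_right hu]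
  obtain ⟨s, hs, k⟩ := h.eqv' hy hy1
  rw [e y hy, e y1 hy1, e _ (h.ts.cjm y hy y1 hy1), k]
  qsimp
  clear k
  revert hs hn
  generalize polar Q (v y1) (v y) = a
  generalize polar Q (v u) (v y) = b
  generalize polar Q (v u) (v y1) = c
  revert s a b c
  decide

theorem OM.sing (h : OM D Q v) {y y1 : G} (hy : y ∈ D) (hy1 : y1 ∈ D) (hn : ¬ Commute y y1) :
    polar Q (v y1) (v y) ≠ 0 ∧ polar Q (v y1) (v y) • v y1 - v y ≠ 0 ∧
      Q (polar Q (v y1) (v y) • v y1 - v y) = 0 := by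
  have n1 : polar Q (v y1) (v y) ≠ 0 := fun k => hn ((h.pol y1 hy1 y hy).mp k).2.2.symm
  refine ⟨n1, fun k => hn ?_, ?_⟩
  · rw [h.inj y hy y1 hy1 (by rw [← sub_eq_zero.mp k]; exact smul_pm n1 _)]
  · qsimp; rw [h.q y hy, h.q y1 hy1, f3_sq n1]; rfl

/-- `r` describes the neighbours of `c` near `w` -/
structure LL (D : Set G) (x : G) (Q : QuadraticForm (ZMod 3) V) (v : G → V) (c w : G) (r : V) :
    Prop where
  ne : r ≠ 0
  q : Q r = 0
  pw : polar Q (v w) r = 0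
  iff : ∀ u ∈ perp D x, u ∈ perp D w → (Commute c u ↔ polar Q (v u) r = 0)

/-- `r` describes the neighbours of `c` -/
structure OO (D : Set G) (x : G) (Q : QuadraticForm (ZMod 3) V) (v : G → V) (c : G) (r : V) :
    Prop where
  mem : c ∈ D
  nc : ¬ Commute x c
  ne : r ≠ 0
  q : Q r = 0
  iff : ∀ u ∈ perp D x, Commute c u ↔ polar Q (v u) r = 0

theorem LL.smul {x c w : G} {r : V} {s : ZMod 3} (h : LL D x Q v c w (s • r)) :
    LL D x Q v c w r := by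
  have hs : s ≠ 0 := fun e => h.ne (by rw [e, zero_smul])
  refine ⟨fun e => h.ne (by rw [e, smul_zero]), ?_, ?_, fun u hu hu' => ?_⟩
  · have := h.q
    rwa [Q_smul, f3_sq hs, one_mul] at this
  · simpa [hs] using h.pw
  · simpa [hs] using h.iff u hu hu'

theorem OO.smul {x c : G} {r : V} {s : ZMod 3} (h : OO D x Q v c r) (hs : s ≠ 0) :
    OO D x Q v c (s • r) :=
  ⟨h.mem, h.nc, smul_ne_zero hs h.ne, by rw [Q_smul, h.q, mul_zero], fun u hu => by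
    simpa [hs] using h.iff u hu⟩

/-- the setting -/
structure OS (D : Set G) (x : G) (Q : QuadraticForm (ZMod 3) V) (v : G → V) : Prop where
  fi : Fi D
  hx : x ∈ D
  om : OM (perp D x) Q v
  loc : ∀ w ∈ D, Orth (perp D w) 5
  r3 : ∀ w ∈ D, R3 (perp D w)
  dim : 5 ≤ finrank (ZMod 3) V
  tri : 6 ≤ finrank (ZMod 3) V ∨ ∃ m m1, (m = 9 ∧ m1 = 6 ∨ m = 18 ∧ m1 = 3) ∧
    ∀ c ∈ D, ¬ Commute x c → (perp D x ∩ perp D c).ncard = m ∧
      ∀ z ∈ perp D x ∩ perp D c, (perp (perp D x ∩ perp D c) z).ncard = m1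

namespace OS
variable {x : G} (h : OS D x Q v)
include h

theorem pol {d e : G} (hd : d ∈ perp D x) (he : e ∈ perp D x) :
    polar Q (v d) (v e) = 0 ↔ e ∈ perp D d := by
  rw [h.om.pol d hd e he, mem_perp, mem_perp (a := d), and_iff_right he, and_iff_right he.1]

theorem exists_y {c w : G} (hc : c ∈ D) (hxc : ¬ Commute x c) (hw : w ∈ perp D x)
    (hcw : Commute c w) : ∃ y ∈ perp D x, y ∈ perp D w ∧ Commute c y := by
  obtain ⟨y, hy, y1, y2⟩ := (h.r3 w hw.1).zne x (mem_perp_symm h.hx hw) c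
    ⟨hc, fun e => hxc (e ▸ hw.2.2), hcw.symm⟩ hxc
  exact ⟨y, ⟨hy.1, fun e => hxc (e ▸ y2.symm), y1⟩, hy, y2⟩

theorem exists_L {c w : G} (hc : c ∈ D) (hxc : ¬ Commute x c) (hw : w ∈ perp D x)
    (hcw : Commute c w) : ∃ r, LL D x Q v c w r := by
  obtain ⟨V', _, _, _, Q', v', -, h'⟩ := h.loc w hw.1
  have xw := mem_perp_symm h.hx hw
  have cw : c ∈ perp D w := ⟨hc, fun e => hxc (e ▸ hw.2.2), hcw.symm⟩
  obtain ⟨y, yx, yw, yc⟩ := h.exists_y hc hxc hw hcw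
  obtain ⟨n1, n2, n3⟩ := h'.sing xw cw hxc
  set m := polar Q' (v' c) (v' x) • v' c - v' x with hm
  have px : ∀ u ∈ perp D x, u ∈ perp D w → polar Q' (v' u) (v' x) = 0 := fun u hu hu' =>
    (h'.pol u hu' x xw).mpr ⟨xw, hu.2.1.symm, hu.2.2.symm⟩
  have pm : ∀ u ∈ perp D x, u ∈ perp D w → (Commute c u ↔ polar Q' (v' u) m = 0) :=
    fun u hu hu' => by
      rw [hm]; qsimp
      rw [px u hu hu', sub_zero, mul_eq_zero_iff_left n1, h'.pol u hu' c cw]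
      exact ⟨fun k => ⟨cw, fun e => hxc (e ▸ hu.2.2), k.symm⟩, fun k => k.2.2.symm⟩
  have ym := (pm y yx yw).mp yc
  obtain ⟨y1, y1w, s, hs, e1⟩ := h'.surj' (y := v' y + m) (by
    qsimp; rw [h'.q y yw, n3, ym]; rfl)
  have e2 : polar Q' (v' y1) (v' y) = s := by
    rw [e1]; qsimp; rw [h'.q y yw, polar_comm Q' m, ym]; linear_combination (-s) * f3_three
  have e3 : polar Q' (v' y1) (v' y) • v' y1 - v' y = m := by
    rw [e2, e1, smul_smul, f3_sq hs, one_smul, add_sub_cancel_left]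
  have y1x : y1 ∈ perp D x := by
    have : polar Q' (v' y1) (v' x) = 0 := by
      rw [e1, hm]; qsimp
      rw [px y yx yw, f3_sq n1, h'.q x xw]; linear_combination s * f3_three
    have k := (h'.pol y1 y1w x xw).mp this
    exact ⟨y1w.1, k.2.1.symm, k.2.2.symm⟩
  have nc : ¬ Commute y y1 := fun k => by
    by_cases e : y = y1
    · rw [← e, h'.self yw, one_smul, sub_self] at e3
      exact n2 e3.symm
    · exact hs (e2 ▸ (h'.pol y1 y1w y yw).mpr ⟨yw, e, k.symm⟩)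
  obtain ⟨k1, k2, k3⟩ := h.om.sing yx y1x nc
  refine ⟨_, k2, k3, ?_, fun u hu hu' => ?_⟩
  · qsimp
    rw [(h.pol hw yx).mpr yw, (h.pol hw y1x).mpr y1w]; ring
  · rw [pm u hu hu', h.om.circ yx y1x hu k1, ← e3, h'.circ yw y1w hu' (e2 ▸ hs)]

theorem pt {c w : G} {r y : V} (hxc : ¬ Commute x c) (hw : w ∈ perp D x) (hL : LL D x Q v c w r)
    (h1 : Q y = -1) (h2 : polar Q (v w) y = 0) (h3 : polar Q y r = 0) :
    ∃ p ∈ perp (perp D x ∩ perp D c) w, ∃ s : ZMod 3, s ≠ 0 ∧ v p = s • y := by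
  obtain ⟨p, hp, s, hs, e⟩ := h.om.surj' h1
  have k : p ∈ perp D w := (h.pol hw hp).mp (by rw [e]; simp [h2])
  exact ⟨p, ⟨⟨hp, hp.1, fun e => hxc (e ▸ hp.2.2), (hL.iff p hp k).mpr (by rw [e]; simp [h3])⟩,
    k.2⟩, s, hs, e⟩

variable [FiniteDimensional (ZMod 3) V] [Finite G]

set_option synthInstance.maxSize 2000 in
theorem edge {c w w' : G} {r : V} (hc : c ∈ D) (hxc : ¬ Commute x c)
    (hw : w ∈ perp D x ∩ perp D c) (hw' : w' ∈ perp D x ∩ perp D c) (hww : w' ∈ perp D w)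
    (hL : LL D x Q v c w r) : LL D x Q v c w' r := by
  obtain ⟨r', hL'⟩ := h.exists_L hc hxc hw'.1 hw'.2.2.2
  have hD := h.fi.cl
  have qw := h.om.q w hw.1
  have qw' := h.om.q w' hw'.1
  have p1 := (h.pol hw.1 hw'.1).mpr hww
  have p2 := hL.pw
  have p3 := (hL.iff w' hw'.1 hww).mp hw'.2.2.2
  have p4 := (hL'.iff w hw.1 (mem_perp_symm hw.1.1 hww)).mp hw.2.2.2
  have p5 := hL'.pw
  suffices k : ∃ s : ZMod 3, r' = s • r by
    obtain ⟨s, rfl⟩ := k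
    exact hL'.smul
  have tri : ∀ y, Q y = -1 → polar Q (v w) y = 0 → polar Q (v w') y = 0 → polar Q y r = 0 →
      ∃ s : ZMod 3, r' = s • r := fun y y1 y2 y3 y4 => by
    refine ppl h.om.nd qw (Or.inl qw') y1 p1 (polar_comm Q _ _ ▸ y2) (polar_comm Q _ _ ▸ y3) hL.q
      hL'.q p2 p3 y4 p4 p5 fun u u1 u2 u3 u4 => ?_
    obtain ⟨p, hp, s, hs, e⟩ := h.pt hxc hw.1 hL u1 (polar_comm Q _ _ ▸ u2) u4
    have := (hL'.iff p hp.1.1 ((h.pol hw'.1 hp.1.1).mp (by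
      rw [e, polar_smul_right, polar_comm, u3, smul_zero]))).mp hp.1.2.2.2
    simpa [e, hs] using this
  rcases h.tri with h6 | ⟨m, m1, ⟨rfl, rfl⟩ | ⟨rfl, rfl⟩, hm⟩
  · obtain ⟨y, y1, y2, y3, y4⟩ := exists_tri h.om.nd h6 qw qw' p1 p2 p3
    exact tri y y1 y2 y3 y4
  · obtain ⟨k1, k2⟩ := hm c hc hxc
    have k3 := Set.ncard_union_add_ncard_inter (perp (perp D x ∩ perp D c) w)
      (perp (perp D x ∩ perp D c) w')
    have k4 := Set.ncard_le_ncard (Set.union_subset (perp_sub (x := w)) (perp_sub (x := w')))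
      (Set.toFinite (perp D x ∩ perp D c))
    obtain ⟨y, y1, y2⟩ := Set.nonempty_of_ncard_ne_zero
      (s := perp (perp D x ∩ perp D c) w ∩ perp (perp D x ∩ perp D c) w') (by
        rw [k2 w hw, k2 w' hw'] at k3; omega)
    have y3 : y ∈ perp D w := ⟨y1.1.1.1, y1.2⟩
    exact tri _ (h.om.q y y1.1.1) ((h.pol hw.1 y1.1.1).mpr y3)
      ((h.pol hw'.1 y1.1.1).mpr ⟨y1.1.1.1, y2.2⟩) ((hL.iff y y1.1.1 y3).mp y1.1.2.2.2)
  obtain ⟨k1, k2⟩ := hm c hc hxc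
  by_contra hne
  push Not at hne
  obtain ⟨a2, ha2, s2, hs2, e2⟩ := h.pt (y := v w' + r) hxc hw.1 hL
    (by qsimp; rw [qw', hL.q, p3]; rfl) (by qsimp; rw [p1, p2]; rfl) (by qsimp; rw [p3, hL.q]; rfl)
  obtain ⟨a3, ha3, s3, hs3, e3⟩ := h.pt (y := v w' + -r) hxc hw.1 hL
    (by qsimp; rw [qw', hL.q, p3]; rfl) (by qsimp; rw [p1, p2]; rfl) (by qsimp; rw [p3, hL.q]; rfl)
  have dist : ∀ p q : G, ∀ a b : V, ∀ s t : ZMod 3, s ≠ 0 → polar Q (v w') a = 0 →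
      polar Q (v w') b = 0 → v p = s • (v w' + a) → v q = t • (v w' + b) → a ≠ b → p ≠ q :=
    fun p q a b s t hs k1 k2 k3 k4 k5 e => by
      rw [e, k4] at k3
      have := congrArg (polar Q (v w')) k3
      simp only [polar_smul_right, polar_add_right, k1, k2, h.om.self hw'.1, add_zero, smul_eq_mul,
        mul_one] at this
      rw [this] at k3
      exact k5 (add_left_cancel (smul_right_injective V hs k3)).symm
  have e1 : v w' = (1 : ZMod 3) • (v w' + 0) := by simp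
  have p3' : polar Q (v w') (-r) = 0 := by rw [polar_neg_right, p3, neg_zero]
  have z0 := polar_zero_right Q (v w')
  by_cases hb : polar Q r' r = 0
  · obtain ⟨a4, ha4, s4, hs4, e4⟩ := h.pt (y := v w' + r') hxc hw.1 hL
      (by qsimp; rw [qw', hL'.q, p5]; rfl) (by qsimp; rw [p1, p4]; rfl)
      (by qsimp; rw [p3, hb]; rfl)
    refine (k2 w hw).not_gt ((Set.three_lt_ncard (Set.toFinite _)).mpr
      ⟨w', ⟨hw', hww.2⟩, a2, ha2, a3, ha3, a4, ha4, ?_, ?_, ?_, ?_, ?_, ?_⟩)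
    · exact dist _ _ _ _ _ _ one_ne_zero z0 p3 e1 e2 hL.ne.symm
    · exact dist _ _ _ _ _ _ one_ne_zero z0 p3' e1 e3 (neg_ne_zero.mpr hL.ne).symm
    · exact dist _ _ _ _ _ _ one_ne_zero z0 p5 e1 e4 hL'.ne.symm
    · refine dist _ _ _ _ _ _ hs2 p3 p3' e2 e3 fun e => hL.ne ?_
      linear_combination (norm := module) (-1 : ZMod 3) • e + f3_three • r
    · exact dist _ _ _ _ _ _ hs2 p3 p5 e2 e4 fun e => hne 1 (by rw [e, one_smul])
    · exact dist _ _ _ _ _ _ hs3 p3' p5 e3 e4 fun e => hne (-1) (by rw [← e, neg_one_smul])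
  obtain ⟨b, hb1, s, hs, e⟩ := h.pt (y := v w + r') hxc hw'.1 hL'
    (by qsimp; rw [qw, hL'.q, p4]; rfl) (by qsimp; rw [polar_comm, p1, p5]; rfl)
    (by qsimp; rw [p4, hL'.q]; rfl)
  set Z := perp D x ∩ perp D c with hZ
  have hT : TS Z := hZ ▸ perp_perp D x c ▸ ((TS.of_class hD).perp x).perp c
  obtain ⟨t2, ht2, f2⟩ := h.om.eqv' ha2.1.1 hb1.1.1
  obtain ⟨t3, ht3, f3⟩ := h.om.eqv' ha3.1.1 hb1.1.1
  have hb2 := hT.cjm _ ha2.1 _ hb1.1
  have hb3 := hT.cjm _ ha3.1 _ hb1.1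
  have sub : Z ⊆ (perp Z w' ∪ perp Z a2) ∪ perp Z a3 ∪ perp Z b ∪ perp Z (cj a2 b) ∪
      perp Z (cj a3 b) := fun z hz => by
    have t : ∀ p ∈ Z, z ∈ perp Z p ↔ polar Q (v p) (v z) = 0 := fun p hp => by
      rw [h.pol hp.1 hz.1, mem_perp, mem_perp (a := p), and_iff_right hz, and_iff_right hz.1.1]
    simp only [Set.mem_union, t _ hw', t _ ha2.1, t _ ha3.1, t _ hb1.1, t _ hb2, t _ hb3, f2, f3,
      e2, e3, e]
    qsimp
    rw [p1, p2, polar_comm Q r' (v w'), p5]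
    revert hb hs hs2 hs3 ht2 ht3
    generalize polar Q r' r = β
    generalize polar Q (v w') (v z) = z1
    generalize polar Q r (v z) = z2
    generalize polar Q (v w) (v z) + polar Q r' (v z) = z3
    clear * -
    revert s s2 s3 t2 t3 β z1 z2 z3
    decide +kernel
  have c1 := Set.ncard_union_add_ncard_inter (perp Z w') (perp Z a2)
  have c2 : (perp Z w' ∩ perp Z a2).ncard ≠ 0 := Set.ncard_ne_zero_of_mem
    (a := w) ⟨⟨hw, hww.2.1.symm, hww.2.2.symm⟩, mem_perp_symm hw ha2⟩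
  have c3 := (Set.ncard_le_ncard sub).trans ((Set.ncard_union_le _ _).trans (Nat.add_le_add_right
    ((Set.ncard_union_le _ _).trans (Nat.add_le_add_right ((Set.ncard_union_le _ _).trans
      (Nat.add_le_add_right (Set.ncard_union_le _ _) _)) _)) _))
  rw [k2 _ hw', k2 _ ha2.1] at c1
  rw [k1, k2 _ ha3.1, k2 _ hb1.1, k2 _ hb2, k2 _ hb3] at c3
  omega

theorem L_all {c w z : G} {r : V} (hc : c ∈ D) (hxc : ¬ Commute x c)
    (hw : w ∈ perp D x ∩ perp D c) (hL : LL D x Q v c w r) (hz : z ∈ perp D x ∩ perp D c) :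
    polar Q (v z) r = 0 := by
  obtain ⟨y, yx, yw, yc⟩ := h.exists_y hc hxc hw.1 hw.2.2.2
  have y1 := h.om.q y yx
  have y2 := (h.pol hw.1 yx).mpr yw
  have y3 := (hL.iff y yx yw).mp yc
  by_contra k
  obtain ⟨p, hp, s, hs, e⟩ := h.pt (y := v y - (polar Q (v y) (v z) * polar Q (v z) r) • r) hxc
    hw.1 hL (by qsimp; rw [y1, hL.q, y3]; ring) (by qsimp; rw [y2, hL.pw]; ring)
    (by qsimp; rw [y3, hL.q]; ring)
  refine k (((h.edge hc hxc hw hp.1 ⟨hp.1.1.1, hp.2⟩ hL).iff z hz.1 ((h.pol hp.1.1 hz.1).mp ?_)).mp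
    hz.2.2.2)
  rw [e]; qsimp
  rw [polar_comm Q r, mul_assoc, f3_sq k]; ring

theorem L_eq {c z : G} {r r' : V} (hc : c ∈ D) (hxc : ¬ Commute x c)
    (hz : z ∈ perp D x ∩ perp D c) (hL : LL D x Q v c z r) (hr' : Q r' = 0)
    (H : ∀ u ∈ perp D x ∩ perp D c, polar Q (v u) r' = 0) : ∃ s : ZMod 3, r' = s • r := by
  obtain ⟨y, yx, yw, yc⟩ := h.exists_y hc hxc hz.1 hz.2.2.2
  refine ppl h.om.nd (h.om.q z hz.1) (Or.inr rfl) (h.om.q y yx) (by simp)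
    ((h.pol yx hz.1).mpr (mem_perp_symm hz.1.1 yw)) (by simp) hL.q hr' hL.pw (by simp)
    ((hL.iff y yx yw).mp yc) (H z hz) (by simp) fun u u1 u2 _ u4 => ?_
  obtain ⟨p, hp, s, hs, e⟩ := h.pt hxc hz.1 hL u1 (polar_comm Q _ _ ▸ u2) u4
  simpa [e, hs] using H p hp.1

theorem exists_O {c : G} (hc : c ∈ D) (hxc : ¬ Commute x c) : ∃ r, OO D x Q v c r := by
  have hD := h.fi.cl
  have mem : ∀ z ∈ perp D x, Commute c z → z ∈ perp D x ∩ perp D c := fun z hz k =>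
    ⟨hz, hz.1, fun e => hxc (e ▸ hz.2.2), k⟩
  obtain ⟨w, hw, w1, w2⟩ := (R3.of_fi h.fi).zne x h.hx c hc hxc
  have hw := mem w ⟨hw, fun e => hxc (e ▸ w2.symm), w1⟩ w2
  obtain ⟨r, hL⟩ := h.exists_L hc hxc hw.1 w2
  refine ⟨r, hc, hxc, hL.ne, hL.q, fun u hu =>
    ⟨fun k => h.L_all hc hxc hw hL (mem u hu k), fun k => ?_⟩⟩
  by_contra k1
  obtain ⟨y, y1, y2, y3⟩ := exists_nbr1 h.om.nd (h.om.q w hw.1) hL.q hL.ne hL.pw
  obtain ⟨u', hu', s, hs, e⟩ := h.om.surj' y1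
  have u1 : u' ∈ perp D w := (h.pol hw.1 hu').mp (by simp [e, y2])
  obtain ⟨g, g1, g2, rfl⟩ := a3_trans h.fi h.hx hc hxc hu' hu
    (by rw [hL.iff u' hu' u1]; simp [e, hs, y3]) k1
  have hz := mem _ ((cj_mem_perp_of_commute hD g1).mpr hw.1) (commute_cj_of g2.symm w2)
  obtain ⟨r', hL'⟩ := h.exists_L hc hxc hz.1 hz.2.2.2
  obtain ⟨t, rfl⟩ := h.L_eq hc hxc hz hL' hL.q fun p hp => h.L_all hc hxc hw hL hp
  have ht : t ≠ 0 := fun e => hL.ne (by rw [e, zero_smul])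
  exact k1 ((hL'.iff _ hu ((cj_mem_perp hD).mpr u1)).mpr (by simpa [ht] using k))

theorem O_unique {c : G} {r r' : V} (h1 : OO D x Q v c r) (h2 : OO D x Q v c r') :
    ∃ s : ZMod 3, s ≠ 0 ∧ r' = s • r := by
  obtain ⟨w, hw, w1, w2⟩ := (R3.of_fi h.fi).zne x h.hx c h1.mem h1.nc
  have hw : w ∈ perp D x := ⟨hw, fun e => h1.nc (e ▸ w2.symm), w1⟩
  obtain ⟨s, e⟩ := h.L_eq h1.mem h1.nc ⟨hw, hw.1, fun e => h1.nc (e ▸ w1), w2⟩
    ⟨h1.ne, h1.q, (h1.iff w hw).mp w2, fun u hu _ => h1.iff u hu⟩ h2.q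
    fun u hu => (h2.iff u hu.1).mp hu.2.2.2
  exact ⟨s, fun k => h2.ne (by rw [e, k, zero_smul]), e⟩

end OS

end Cfsg.Agent.Fis
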