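import Cfsg.Agent.Lib.Fis.Mod

set_option autoImplicit false

/-! # Fischer's theorem: vectors over the field with three elements -/

namespace Cfsg.Agent.Fis

open Subgroup Cfsg.Agent.Lib.Fischer Cfsg.Agent.Lib.Invol Module QuadraticMap
open Cfsg.Agent.Lib.Forms (Nondeg Q_add Q_smul Q_neg Q_sub polar_self')

variable {G : Type*} [Group G] {V : Type*} [AddCommGroup V] [Module (ZMod 3) V]
  {Q : QuadraticForm (ZMod 3) V}

theorem f3 : ∀ a : ZMod 3, a = 0 ∨ a = 1 ∨ a = -1 := by decide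

theorem f3_sq : ∀ {a : ZMod 3}, a ≠ 0 → a * a = 1 := by decide

theorem f3_three : (3 : ZMod 3) = 0 := rfl

/-- expansion of forms -/
macro "qsimp" loc:(Lean.Parser.Tactic.location)? : tactic =>
  `(tactic| simp only [Q_add, Q_smul, Q_neg, Q_sub, polar_add_left, polar_add_right,
    polar_smul_left, polar_smul_right, polar_neg_left, polar_neg_right, polar_sub_left,
    polar_sub_right, polar_self', smul_eq_mul, polar_zero_left, polar_zero_right] $[$loc]?)

theorem pm_smul {a b : V} (h : a = b ∨ a = -b) : ∃ s : ZMod 3, s ≠ 0 ∧ a = s • b :=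
  h.elim (fun e => ⟨1, one_ne_zero, by rw [e, one_smul]⟩)
    fun e => ⟨-1, by decide, by rw [e, neg_one_smul]⟩

theorem smul_pm {s : ZMod 3} (hs : s ≠ 0) (b : V) : s • b = b ∨ s • b = -b := by
  rcases f3 s with rfl | rfl | rfl
  exacts [absurd rfl hs, Or.inl (one_smul _ _), Or.inr (neg_one_smul _ _)]

section
variable [FiniteDimensional (ZMod 3) V] (hQ : Nondeg Q)
include hQ

theorem exists_sep {r r' : V} (h : ∀ s : ZMod 3, r' ≠ s • r) :
    ∃ z, polar Q r z = 0 ∧ polar Q r' z = 1 := by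
  obtain ⟨z, h1, h2⟩ := hQ.exists_perp (Submodule.span _ {r}) (u := r') fun k => by
    obtain ⟨s, e⟩ := Submodule.mem_span_singleton.mp k
    exact h s e.symm
  exact ⟨z, h1 r (Submodule.mem_span_singleton_self r), h2⟩

theorem exists_ni {k : ℕ} (n : Fin k → V) (hq : ∀ i, Q (n i) ≠ 0)
    (ho : ∀ i j, i ≠ j → polar Q (n i) (n j) = 0) {r : V} (hr : ∀ i, polar Q r (n i) = 0)
    (hd : k + 3 ≤ finrank (ZMod 3) V) :
    ∃ y, Q y ≠ 0 ∧ (∀ i, polar Q (n i) y = 0) ∧ polar Q r y = 0 := by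
  classical
  by_contra h
  push Not at h
  let U := Submodule.span (ZMod 3) (Set.range (Fin.cons r n : Fin (k + 1) → V))
  have hU : ∀ y, y ∈ Lib.Forms.perp Q U ↔ polar Q r y = 0 ∧ ∀ i, polar Q (n i) y = 0 := fun y => by
    rw [Lib.Forms.mem_perp_span, Set.forall_mem_range, Fin.forall_fin_succ]; rfl
  have h1 := hQ.finrank_perp U
  have h2 : finrank (ZMod 3) U ≤ k + 1 := (finrank_range_le_card _).trans (by simp)
  have h0 : ∀ y ∈ Lib.Forms.perp Q U, Q y = 0 := fun y hy => by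
    by_contra k
    exact h y k ((hU y).mp hy).2 ((hU y).mp hy).1
  obtain ⟨y, hy, hy'⟩ : ∃ y ∈ Lib.Forms.perp Q U, y ∉ Submodule.span (ZMod 3) {r} := by
    by_contra k
    push Not at k
    have := (Submodule.finrank_mono (show _ ≤ _ from k)).trans (finrank_span_le_card {r})
    simp at this
    omega
  obtain ⟨z, z1, z2⟩ := hQ.exists_perp _ hy'
  have hz : z - ∑ i, (polar Q (n i) z * (2 * Q (n i))⁻¹) • n i ∈ Lib.Forms.perp Q U := by
    rw [hU]
    refine ⟨?_, fun j => ?_⟩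
    · rw [polar_sub_right, z1 r (Submodule.mem_span_singleton_self r), ← polarBilin_apply_apply,
        map_sum]
      simp [hr]
    · rw [polar_sub_right, ← polarBilin_apply_apply _ _ (∑ i, _), map_sum,
        Finset.sum_eq_single j (fun i _ hi => by simp [ho j i hi.symm]) (by simp)]
      have : (2 : ZMod 3) * Q (n j) ≠ 0 := mul_ne_zero (by decide) (hq j)
      simp only [polarBilin_apply_apply, polar_smul_right, polar_self', smul_eq_mul]
      rw [inv_mul_cancel_right₀ this, sub_self]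
  have h3 := h0 _ (add_mem hy hz)
  rw [Q_add, h0 _ hy, h0 _ hz, polar_sub_right, z2, ← polarBilin_apply_apply, map_sum] at h3
  have : ∀ i, polar Q y (n i) = 0 := fun i => by rw [polar_comm]; exact ((hU y).mp hy).2 i
  simp [this] at h3

theorem ppl {w w' y r r' : V} (hw : Q w = -1) (hw' : Q w' = -1 ∨ w' = 0) (hy : Q y = -1)
    (h1 : polar Q w w' = 0) (h2 : polar Q y w = 0) (h3 : polar Q y w' = 0) (hr : Q r = 0)
    (hr' : Q r' = 0) (h4 : polar Q w r = 0) (h5 : polar Q w' r = 0) (h6 : polar Q y r = 0)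
    (h7 : polar Q w r' = 0) (h8 : polar Q w' r' = 0)
    (H : ∀ u, Q u = -1 → polar Q u w = 0 → polar Q u w' = 0 → polar Q u r = 0 → polar Q u r' = 0) :
    ∃ s : ZMod 3, r' = s • r := by
  by_contra h
  push Not at h
  obtain ⟨z, z1, z2⟩ := exists_sep hQ h
  have h9 := H y hy h2 h3 h6
  have h10 : polar Q r r' = 0 := by
    have := H (y + r) (by qsimp; rw [hy, hr, h6]; rfl) (by qsimp; rw [h2, polar_comm, h4]; rfl)
      (by qsimp; rw [h3, polar_comm, h5]; rfl) (by qsimp; rw [h6, hr]; rfl)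
    rwa [polar_add_left, h9, zero_add] at this
  obtain ⟨z', k1, k2, k3, k4, k5⟩ : ∃ z', polar Q z' y = 0 ∧ polar Q z' w = 0 ∧
      polar Q z' w' = 0 ∧ polar Q z' r = 0 ∧ polar Q z' r' = 1 := by
    refine ⟨z - polar Q z y • y - polar Q z w • w - polar Q z w' • w', ?_, ?_, ?_, ?_, ?_⟩ <;> qsimp
    · rw [hy, polar_comm Q w, h2, polar_comm Q w', h3]; ring_nf; rw [f3_three, mul_zero]
    · rw [hw, h2, polar_comm Q w', h1]; ring_nf; rw [f3_three, mul_zero]
    · rw [h1, h3]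
      rcases hw' with e | rfl
      · rw [e]; ring_nf; rw [f3_three, mul_zero]
      · simp
    · rw [polar_comm Q z, z1, h4, h5, h6]; ring
    · rw [polar_comm Q z, z2, h7, h8, h9]; ring
  have := H (y + z' - Q z' • r') (by qsimp; rw [hy, hr', polar_comm Q y, k1, h9, k5]; ring)
    (by qsimp; rw [h2, k2, polar_comm Q r', h7]; ring)
    (by qsimp; rw [h3, k3, polar_comm Q r', h8]; ring)
    (by qsimp; rw [h6, k4, polar_comm Q r', h10]; ring)
  qsimp at this
  rw [h9, k5, hr'] at this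
  simp at this

omit [FiniteDimensional (ZMod 3) V] in
theorem exists_nbr1 {z r : V} (hz : Q z = -1) (hr : Q r = 0) (hr0 : r ≠ 0) (h : polar Q z r = 0) :
    ∃ u, Q u = -1 ∧ polar Q z u = 0 ∧ polar Q u r ≠ 0 := by
  obtain ⟨t, ht⟩ := hQ.exists_polar_eq_one hr0
  obtain ⟨t', k1, k2⟩ : ∃ t', polar Q z t' = 0 ∧ polar Q t' r = 1 := by
    refine ⟨t - polar Q z t • z, ?_, ?_⟩ <;> qsimp
    · rw [hz]; ring_nf; rw [f3_three, mul_zero]
    · rw [polar_comm Q t, ht, h]; ring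
  refine ⟨t' - (Q t' + 1) • r, ?_, ?_, ?_⟩ <;> qsimp
  · rw [hr, k2]; ring
  · rw [k1, h]; ring
  · rw [k2, hr]; simp

omit [FiniteDimensional (ZMod 3) V] in
theorem exists_nbr2 {r r' : V} (hr : Q r = 0) (hr0 : r ≠ 0) (hr0' : r' ≠ 0)
    (h : polar Q r r' = 0) : ∃ u, Q u = 0 ∧ polar Q r u ≠ 0 ∧ polar Q u r' ≠ 0 := by
  obtain ⟨t, k1, k2⟩ : ∃ t, polar Q r t ≠ 0 ∧ polar Q r' t ≠ 0 := by
    obtain ⟨t, ht⟩ := hQ.exists_polar_ne_zero hr0
    obtain ⟨t', ht'⟩ := hQ.exists_polar_ne_zero hr0'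
    by_cases k : polar Q r' t = 0
    · by_cases k' : polar Q r t' = 0
      · exact ⟨t + t', by qsimp; rwa [k', add_zero], by qsimp; rwa [k, zero_add]⟩
      · exact ⟨t', k', ht'⟩
    · exact ⟨t, ht, k⟩
  refine ⟨t - (Q t * polar Q r t) • r, ?_, ?_, ?_⟩ <;> qsimp
  · rw [hr, polar_comm Q t]; linear_combination (-Q t) * f3_sq k1
  · rw [hr]; simpa
  · rw [h, polar_comm]; simpa

omit [FiniteDimensional (ZMod 3) V] in
theorem exists_nbr3 {r0 r r' : V} (h0 : Q r0 = 0) (hr : Q r = 0) (hr' : Q r' = 0) (hr0 : r0 ≠ 0)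
    (h1 : polar Q r0 r = 0) (h2 : polar Q r0 r' = 0) (h3 : polar Q r r' ≠ 0) :
    ∃ u, Q u = 0 ∧ polar Q r0 u ≠ 0 ∧ polar Q u r ≠ 0 ∧ polar Q u r' ≠ 0 := by
  obtain ⟨t, ht⟩ := hQ.exists_polar_eq_one hr0
  obtain ⟨t', k1, k2, k3⟩ : ∃ t', polar Q r0 t' = 1 ∧ polar Q t' r ≠ 0 ∧ polar Q t' r' ≠ 0 := by
    refine ⟨t + ((1 - polar Q t r') * polar Q r r') • r + ((1 - polar Q t r) * polar Q r r') • r',
      ?_, ?_, ?_⟩ <;> qsimp
    · rw [ht, h1, h2]; ring
    · rw [hr, polar_comm Q r' r, mul_assoc (1 - polar Q t r), f3_sq h3]; simp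
    · rw [hr', mul_assoc, f3_sq h3]; simp
  refine ⟨t' - Q t' • r0, ?_, ?_, ?_, ?_⟩ <;> qsimp
  · rw [h0, polar_comm Q t', k1]; ring
  · rw [k1, h0]; simp
  · rw [h1]; simpa
  · rw [h2]; simpa

theorem exists_nbr4 (hd : 5 ≤ finrank (ZMod 3) V) {r0 r1 r2 r3 : V} (h0 : Q r0 = 0) (h1 : Q r1 = 0)
    (h01 : polar Q r0 r1 ≠ 0) (h12 : polar Q r1 r2 ≠ 0) (h03 : polar Q r0 r3 ≠ 0)
    (h02 : polar Q r0 r2 = 0) (h13 : polar Q r1 r3 = 0) :
    ∃ u, Q u = 0 ∧ polar Q r0 u ≠ 0 ∧ polar Q r1 u ≠ 0 ∧ polar Q u r2 ≠ 0 ∧ polar Q u r3 ≠ 0 := by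
  obtain ⟨t, k1, k2, k3⟩ := exists_ni hQ ![r0 + r1, r0 - r1] (r := r2 - (polar Q r1 r2 *
    polar Q r0 r1) • r0) (by
      rw [Fin.forall_fin_two]; constructor <;> simp [Q_add, Q_sub, h0, h1, h01]) (by
      simp [Fin.forall_fin_two, polar_self', h0, h1, polar_comm Q r1 r0]) (by
      rw [Fin.forall_fin_two]
      constructor <;> simp [polar_self', h0, polar_comm Q r2, h02, mul_assoc, f3_sq h01]) hd
  have k4 := k2 0
  have k5 := k2 1
  simp only [Matrix.cons_val_zero, Matrix.cons_val_one] at k4 k5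
  qsimp at k3 k4 k5
  have k6 : polar Q r0 t = 0 := by linear_combination 2 * k4 + 2 * k5 - polar Q r0 t * f3_three
  have k7 : polar Q r1 t = 0 := by linear_combination k4 - k6
  rw [k6, mul_zero, sub_zero, polar_comm] at k3
  obtain ⟨a, ha, ha'⟩ : ∃ a : ZMod 3, a ≠ 0 ∧ a * polar Q r0 r3 + polar Q t r3 ≠ 0 := by
    revert h03
    generalize polar Q r0 r3 = p
    generalize polar Q t r3 = q
    revert p q
    decide
  refine ⟨a • r0 - (a * Q t * polar Q r0 r1) • r1 + t, ?_, ?_, ?_, ?_, ?_⟩ <;> qsimp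
  · rw [h0, h1, k6, k7]
    linear_combination (-Q t * a * a) * f3_sq h01 - Q t * f3_sq ha
  · rw [h0, k6]; simp [ha, k1, h01]
  · rw [h1, k7, polar_comm Q r1]; simp [ha, h01]
  · rw [h02, k3]; simp [ha, k1, h01, h12]
  · rwa [h13, mul_zero, sub_zero]

theorem exists_tri (hd : 6 ≤ finrank (ZMod 3) V) {w w' r : V} (hw : Q w = -1) (hw' : Q w' = -1)
    (h1 : polar Q w w' = 0) (h2 : polar Q w r = 0) (h3 : polar Q w' r = 0) :
    ∃ y, Q y = -1 ∧ polar Q w y = 0 ∧ polar Q w' y = 0 ∧ polar Q y r = 0 := by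
  obtain ⟨t, k1, k2, k3⟩ := exists_ni hQ ![w, w'] (r := r) (by simp [Fin.forall_fin_two, hw, hw'])
    (by simp [Fin.forall_fin_two, h1, polar_comm Q w' w])
    (by simp [Fin.forall_fin_two, polar_comm Q r, h2, h3]) (by omega)
  have k4 : polar Q w t = 0 := k2 0
  have k5 : polar Q w' t = 0 := k2 1
  obtain ⟨t', l1, l2, l3⟩ := exists_ni hQ ![w, w', t] (r := r)
    (by simp [Fin.forall_fin_succ, hw, hw', k1])
    (by simp [Fin.forall_fin_succ, h1, polar_comm Q w' w, polar_comm Q t, k4, k5])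
    (by simp [Fin.forall_fin_succ, polar_comm Q r w, polar_comm Q r w', h2, h3, k3]) hd
  have l4 : polar Q w t' = 0 := l2 0
  have l5 : polar Q w' t' = 0 := l2 1
  have l6 : polar Q t t' = 0 := l2 2
  rw [polar_comm] at k3 l3
  rcases f3 (Q t) with e | e | e
  · exact absurd e k1
  · rcases f3 (Q t') with e' | e' | e'
    · exact absurd e' l1
    · refine ⟨t + t', ?_, ?_, ?_, ?_⟩ <;> qsimp
      · rw [e, e', l6]; rfl
      · rw [k4, l4]; rfl
      · rw [k5, l5]; rfl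
      · rw [k3, l3]; rfl
    · exact ⟨t', e', l4, l5, l3⟩
  · exact ⟨t, e, k4, k5, k3⟩

end

namespace OM
variable {D : Set G} {v : G → V} (h : OM D Q v)
include h

theorem self {d : G} (hd : d ∈ D) : polar Q (v d) (v d) = 1 := by
  rw [polar_self', h.q d hd]; rfl

theorem surj' {y : V} (hy : Q y = -1) : ∃ d ∈ D, ∃ s : ZMod 3, s ≠ 0 ∧ v d = s • y := by
  obtain ⟨d, hd, e⟩ := h.surj y hy
  exact ⟨d, hd, pm_smul (e.imp Eq.symm fun e => by rw [e, neg_neg])⟩

theorem eqv' {d e : G} (hd : d ∈ D) (he : e ∈ D) :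
    ∃ s : ZMod 3, s ≠ 0 ∧ v (cj d e) = s • (v e + polar Q (v e) (v d) • v d) := by
  by_cases k : Commute d e
  · rw [cj_of_commute k]
    by_cases k' : d = e
    · refine ⟨-1, by decide, ?_⟩
      rw [k', h.self he, one_smul, ← two_smul (ZMod 3), smul_smul]
      exact (one_smul _ _).symm
    · exact ⟨1, one_ne_zero, by rw [(h.pol e he d hd).mpr ⟨hd, k', k.symm⟩]; simp⟩
  have n1 : polar Q (v e) (v d) ≠ 0 := fun k' => k ((h.pol e he d hd).mp k').2.2.symm
  obtain ⟨c, hc, s, hs, e1⟩ := h.surj' (y := v e + polar Q (v e) (v d) • v d) (by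
    qsimp; rw [h.q d hd, h.q e he, f3_sq n1]; rfl)
  have k1 : polar Q (v c) (v d) = -s * polar Q (v e) (v d) := by
    rw [e1]; qsimp; rw [h.q d hd]; ring_nf
  have k2 : polar Q (v c) (v e) = -s := by
    rw [e1]; qsimp; rw [h.q e he, polar_comm Q (v d), f3_sq n1]
    ring
  have inj : ∀ t : ZMod 3, t ≠ 0 → v d ≠ t • v e := fun t ht k' =>
    k (h.inj d hd e he (k' ▸ smul_pm ht _) ▸ Commute.refl d)
  have k3 : ¬ Commute d c := fun k' => by
    by_cases k4 : c = d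
    · rw [k4, h.self hd] at k1
      refine inj (-s) (neg_ne_zero.mpr hs) ?_
      rw [k4] at e1
      linear_combination (norm := module) (-1 : ZMod 3) • e1 - k1 • v d + f3_three • v d
    · rw [(h.pol c hc d hd).mpr ⟨hd, Ne.symm k4, k'.symm⟩] at k1
      exact mul_ne_zero (neg_ne_zero.mpr hs) n1 k1.symm
  rcases h.ker d hd e he c hc k k3 (fun z hz z1 z2 => by
    have a1 := (h.pol d hd z hz).mpr ⟨hz, fun e => k (e ▸ z2.symm), z1⟩
    have a2 := (h.pol e he z hz).mpr ⟨hz, fun e => k (e ▸ z1), z2⟩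
    exact ((h.pol c hc z hz).mp (by rw [e1]; qsimp; rw [a1, a2]; ring)).2.2) with rfl | rfl
  · rw [h.self he] at k2
    refine absurd ?_ (inj _ n1)
    linear_combination (norm := module) polar Q (v c) (v d) • e1 +
      k2 • (polar Q (v c) (v d) • v c + v d) + (f3_sq n1) • (s • v d) -
      f3_three • (polar Q (v c) (v d) • v c)
  · exact ⟨s, hs, e1⟩

theorem eqv {d e : G} (hd : d ∈ D) (he : e ∈ D) :
    v (cj d e) = (Lib.Forms.refl Q (v d)).1 (v e) ∨
      v (cj d e) = -(Lib.Forms.refl Q (v d)).1 (v e) := by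
  obtain ⟨s, hs, k⟩ := h.eqv' hd he
  rw [Lib.Forms.refl_apply, h.q d hd, inv_neg_one, neg_one_mul, neg_smul,
    sub_neg_eq_add, k]
  exact smul_pm hs _

end OM

end Cfsg.Agent.Fis
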