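import Cfsg.Agent.Lib.Fis.OM
import Cfsg.Agent.Lib.Forms.OrthField2
import Cfsg.Agent.Lib.Invol.BaerSuzuki

set_option autoImplicit false

/-! # Fischer's theorem: simple groups of orthogonal type -/

namespace Cfsg.Agent.Fis

open Subgroup Cfsg.Agent.Lib.Fischer Cfsg.Agent.Lib.Invol Module QuadraticMap
open Cfsg.Agent.Lib.Forms hiding perp

variable {G : Type*} [Group G] {V : Type*} [AddCommGroup V] [Module (ZMod 3) V]
  {Q : QuadraticForm (ZMod 3) V} [FiniteDimensional (ZMod 3) V]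

theorem exists_plus (hQ : Nondeg Q) (h5 : 5 ≤ finrank (ZMod 3) V) {u : V} (hu : Q u ≠ 0) (r : V)
    (hr : polar Q r u = 0) : ∃ y, Q y = 1 ∧ polar Q u y = 0 ∧ polar Q r y = 0 := by
  obtain ⟨t, k1, k2, k3⟩ := exists_ni hQ ![u] (r := r) (by simpa) (by simp) (by simpa) (by omega)
  have k4 : polar Q u t = 0 := k2 0
  obtain ⟨t', l1, l2, l3⟩ := exists_ni hQ ![u, t] (r := r) (by simp [Fin.forall_fin_two, hu, k1])
    (by simp [Fin.forall_fin_two, k4, polar_comm Q t u]) (by simp [Fin.forall_fin_two, hr, k3]) h5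
  have l4 : polar Q u t' = 0 := l2 0
  have l5 : polar Q t t' = 0 := l2 1
  rcases f3 (Q t) with e | e | e
  · exact absurd e k1
  · exact ⟨t, e, k4, k3⟩
  rcases f3 (Q t') with e' | e' | e'
  · exact absurd e' l1
  · exact ⟨t', e', l4, l3⟩
  refine ⟨t + t', ?_, ?_, ?_⟩ <;> qsimp
  · rw [e, e', l5]; rfl
  · rw [k4, l4]; rfl
  · rw [k3, l3]; rfl

theorem Om_le_refl (hQ : Nondeg Q) (h5 : 5 ≤ finrank (ZMod 3) V) :
    Om Q ≤ closure (refl Q '' {y | Q y = -1}) := by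
  generalize hR : closure (refl Q '' {y | Q y = -1}) = R
  have mem : ∀ y, Q y = -1 → refl Q y ∈ R := fun y hy => hR ▸ subset_closure ⟨y, hy, rfl⟩
  haveI : R.Normal := hR ▸ normal_closure_of_conj_closed (by
    rintro _ ⟨y, hy, rfl⟩ g
    exact ⟨g.1 y, (OG.map_Q g y).trans hy, (conj_refl g y).symm⟩)
  let π := QuotientGroup.mk' R
  have one : ∀ y, Q y = -1 → π (refl Q y) = 1 := fun y hy => (QuotientGroup.eq_one_iff _).2 (mem y hy)
  have h1 : ∀ u y, Q u = 1 → Q y = 1 → polar Q u y = 0 → π (refl Q u) = π (refl Q y) := fun u y hu hy e => by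
    have k : Q (u - y) = -1 := by rw [Q_sub, hu, hy, e]; rfl
    rw [← refl_sub_apply (hu.trans hy.symm) (by rw [k]; decide), ← conj_refl, map_mul, map_mul, map_inv, one _ k]
    simp
  have h2 : ∀ u y, Q u ≠ 0 → Q y ≠ 0 → Commute (π (refl Q u)) (π (refl Q y)) := fun u y hu hy => by
    rcases (f3 (Q u)).resolve_left hu with e | e
    · rcases (f3 (Q y)).resolve_left hy with e' | e'
      · obtain ⟨z, z1, z2, z3⟩ := exists_plus hQ h5 hu (y + polar Q y u • u) (by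
          qsimp; rw [e]; ring_nf; rw [f3_three, mul_zero])
        qsimp at z3
        rw [z2, mul_zero, add_zero] at z3
        rw [h1 u z e z1 z2, h1 y z e' z1 z3]
      · rw [one y e']; exact Commute.one_right _
    · rw [one u e]; exact Commute.one_left _
  have hN := hQ.nonExc_of_two (by decide)
  refine commutator_le.2 fun g _ k _ => (QuotientGroup.eq_one_iff _).1 ?_
  change π _ = 1
  rw [map_commutatorElement, commutatorElement_eq_one_iff_commute]
  refine hQ.refl_induction hN (fun g => Commute (π g) (π k)) (by simp) (fun u hu g ih => ?_) g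
  rw [map_mul]
  refine Commute.mul_left (hQ.refl_induction hN (fun k => Commute _ (π k)) (by simp) (fun y hy k ih => ?_) k) ih
  rw [map_mul]; exact (h2 u y hu hy).mul_right ih

theorem iso_of_orth {G : Type*} [Group G] [Finite G] [IsSimpleGroup G] (hna : ∃ x y : G, x * y ≠ y * x)
    {D : Set G} (hD : IsThreeTranspositionClass D) (h : Orth D 5) :
    ∃ m : ℕ, Nonempty (G ≃* POmega (ZMod 3) (quadFormOdd m (ZMod 3))) := by
  obtain ⟨V, _, _, _, Q, v, h5, h⟩ := h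
  have hN := h.nd.nonExc_of_two (by decide)
  have cen : ∀ g : G, (∀ x, x * g = g * x) → g = 1 := fun g hg =>
    mem_bot.1 (((center G).normal_of_characteristic.eq_bot_or_eq_top.resolve_right fun e =>
      let ⟨x, y, k⟩ := hna; k (mem_center_iff.1 (e ▸ mem_top y) x)) ▸ mem_center_iff.2 hg)
  generalize hΓ : closure ((fun d => (d, refl Q (v d))) '' D) = Γ
  have mem : ∀ d ∈ D, (d, refl Q (v d)) ∈ Γ := fun d hd => hΓ ▸ subset_closure ⟨d, hd, rfl⟩
  have act : ∀ x ∈ Γ, ∀ d ∈ D, ∃ s : ZMod 3, s ≠ 0 ∧ v (cj x.1 d) = s • x.2.1 (v d) := fun x hx => by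
    subst hΓ
    have key : ∀ e ∈ D, ∀ y : G × OG Q, (∀ d ∈ D, ∃ s : ZMod 3, s ≠ 0 ∧ v (cj y.1 d) = s • y.2.1 (v d)) →
        ∀ d ∈ D, ∃ s : ZMod 3, s ≠ 0 ∧ v (cj (e * y.1) d) = s • (refl Q (v e) * y.2).1 (v d) := by
      intro e he y ih d hd
      obtain ⟨s, hs, k⟩ := ih d hd
      obtain ⟨s', hs', k'⟩ := pm_smul (h.eqv he (cj_mem_D hD hd y.1))
      exact ⟨s' * s, mul_ne_zero hs' hs, by rw [cj_mul, k', k, map_smul, smul_smul, OG.mul_apply]⟩
    refine closure_induction_left (p := fun x _ => ∀ d ∈ D, ∃ s : ZMod 3, s ≠ 0 ∧ v (cj x.1 d) = s • x.2.1 (v d))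
      (fun d _ => ⟨1, one_ne_zero, by simp⟩) ?_ ?_ hx
    · rintro _ ⟨e, he, rfl⟩ y _ ih; exact key e he y ih
    · rintro _ ⟨e, he, rfl⟩ y _ ih
      rw [Prod.inv_mk, inv_eq hD.1 he, refl_inv]; exact key e he y ih
  have h3 : ∀ g, (g, 1) ∈ Γ → g = 1 := fun g hg => cen g fun x => by
    refine (commute_closure (fun d hd => ?_) (hD.2.2 ▸ mem_top x)).eq
    obtain ⟨s, hs, k⟩ := act _ hg d hd
    exact (cj_eq_self_iff.1 (h.inj _ (cj_mem_D hD hd g) d hd (k ▸ smul_pm hs _))).symm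
  have h2 : ∀ M ∈ Om Q, ∃ g, (g, M) ∈ Γ := fun M hM => by
    obtain ⟨x, hx, rfl⟩ := (Om_le_refl h.nd h5).trans ((closure_le (Γ.map (MonoidHom.snd _ _))).2 (by
      rintro _ ⟨y, hy, rfl⟩
      obtain ⟨d, hd, s, hs, k⟩ := h.surj' hy
      exact ⟨_, mem d hd, by simp [k, refl_smul hs]⟩)) hM
    exact ⟨x.1, hx⟩
  have h1 : ∀ g, ∃ M ∈ Om Q, (g, M) ∈ Γ := fun g => by
    have k := exists_snd_of_closure (S := (fun d => (d, refl Q (v d))) '' D) (by
      rw [Set.image_image]; simpa using hD.2.2)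
    rw [hΓ] at k
    obtain ⟨x, hx, rfl⟩ := (commutator_le (H₃ := (Γ ⊓ (Om Q).comap (MonoidHom.snd _ _)).map (MonoidHom.fst _ _))).2
      (fun a _ b _ => by
        obtain ⟨A, ha⟩ := k a
        obtain ⟨B, hb⟩ := k b
        exact ⟨_, ⟨Γ.mul_mem (Γ.mul_mem (Γ.mul_mem ha hb) (Γ.inv_mem ha)) (Γ.inv_mem hb),
          commutator_mem_commutator (mem_top A) (mem_top B)⟩, rfl⟩)
      (((commutator_normal ⊤ ⊤).eq_bot_or_eq_top.resolve_left fun e => let ⟨x, y, k⟩ := hna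
        k (commutatorElement_eq_one_iff_mul_comm.1 (e.le (commutator_mem_commutator (mem_top x) (mem_top y))))).ge
        (mem_top g))
    exact ⟨x.2, hx.2, hx.1⟩
  have h4 : ∀ M, (1, M) ∈ Γ → M = 1 ∨ M = negOG Q := fun M hM =>
    h.nd.eq_one_or_neg_of_comm (by omega) M fun e w he hw => ((commute_closure (by
      rintro _ ⟨y, hy, rfl⟩
      obtain ⟨d, hd, s, hs, k⟩ := h.surj' hy
      obtain ⟨s', hs', k'⟩ := act _ hM d hd
      rw [← refl_smul hs, ← k, commute_iff_eq, eq_comm, ← mul_inv_eq_iff_eq_mul, conj_refl, ← refl_smul hs', ← k']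
      simp) (Om_le_refl h.nd h5 (h.nd.eich_mem_Om hN he hw))).eq).symm
  obtain ⟨m, hm⟩ : Odd (finrank (ZMod 3) V) := by
    obtain ⟨d, hd, -⟩ := hD.2.1
    obtain ⟨M, hM, k⟩ := h1 d
    have k1 := h.nd.dick_refl_mul (v := v d) (by rw [h.q d hd]; decide) M
    rw [((h.nd.mem_Om_iff hN M).1 hM).1] at k1
    rcases h4 (refl Q (v d) * M) (by simpa [h.ts.sq hd] using Γ.mul_mem (mem d hd) k) with e | e
    · rw [e, dick_one] at k1; exact absurd k1 (by decide)
    · rw [e] at k1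
      exact Nat.not_even_iff_odd.1 fun k2 => absurd ((h.nd.dick_neg k2).symm.trans k1) (by decide)
  obtain ⟨c, hc, ψ, hψ⟩ := h.nd.simil_qOdd hm
  let j := (ogCongr ψ hc hψ).symm.toMonoidHom.comp (omModel (qOdd m (ZMod 3))).j
  have M : OmModel Q (Omega (ZMod 3) (qOdd m (ZMod 3))) :=
    ⟨j, (ogCongr ψ hc hψ).symm.injective.comp (omModel _).inj, fun g => by
      rw [← mem_commutator_equiv (ogCongr ψ hc hψ), ← (omModel _).range]
      exact exists_congr fun a => (ogCongr ψ hc hψ).symm_apply_eq⟩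
  have k1 : ∀ g, ∃ a, (g, M.j a) ∈ Γ := fun g => by
    obtain ⟨N, hN, k⟩ := h1 g
    obtain ⟨a, rfl⟩ := M.exists_j hN
    exact ⟨a, k⟩
  refine ⟨m, iso_of_graph (Γ.comap ((MonoidHom.id G).prodMap M.j)) k1 (fun a => h2 _ (M.mem_Om a))
    (fun g hg => h3 g (M.j.map_one ▸ hg)) (center _) fun a =>
      ⟨fun k => (M.mem_center_iff h.nd hN (by omega)).2 (h4 _ k), fun k => ?_⟩⟩
  obtain ⟨g, hg⟩ := h2 _ (M.mem_Om a)
  rwa [← cen g fun x => ?_]
  obtain ⟨b, hb⟩ := k1 x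
  refine commutatorElement_eq_one_iff_mul_comm.1 (h3 _ ?_)
  have := Γ.mul_mem (Γ.mul_mem (Γ.mul_mem hb hg) (Γ.inv_mem hb)) (Γ.inv_mem hg)
  simp only [Prod.inv_mk, Prod.mk_mul_mk, ← map_inv, ← map_mul] at this
  rwa [mem_center_iff.1 k b, mul_inv_cancel_right, mul_inv_cancel, map_one] at this

end Cfsg.Agent.Fis
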