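import Cfsg.Agent.Lib.Fis.Mod
import Cfsg.Agent.Lib.Fischer.Symp
import Cfsg.Agent.Lib.Forms.QuadSym

set_option autoImplicit false

/-! # Fischer's theorem: the sign character in the symplectic, not thick case -/

namespace Cfsg.Agent.Fis

open Subgroup Cfsg.Agent.Lib.Fischer Cfsg.Agent.Lib.Invol Cfsg.Agent.Lib.GL.Alt QuadraticMap
open Cfsg.Agent.Lib.Forms (Nondeg OG refl dick)

universe u

section
variable {G : Type*} [Group G]

/-- the star of a noncommuting pair -/
def Star (D : Set G) (a b : G) : Set G :=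
  {w | w ∈ D ∧ (w = a ∨ w = b ∨ (¬ Commute w a ∧ ¬ Commute w b ∧ w ≠ cj a b))}

def NoClaw (D : Set G) : Prop := ∀ w ∈ D, ∀ x ∈ D, ∀ y ∈ D, ∀ z ∈ D, x ≠ y → x ≠ z → y ≠ z →
  Commute x y → Commute x z → Commute y z → ¬ Commute w x → ¬ Commute w y → Commute w z

theorem star_left {D : Set G} {a b : G} (ha : a ∈ D) : a ∈ Star D a b := ⟨ha, Or.inl rfl⟩
theorem star_right {D : Set G} {a b : G} (hb : b ∈ D) : b ∈ Star D a b := ⟨hb, Or.inr (Or.inl rfl)⟩

theorem star_image {D : Set G} (hD : IsThreeTranspositionClass D) (g a b : G) :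
    cj g '' Star D a b = Star D (cj g a) (cj g b) := by
  have key : ∀ w, cj g w ∈ Star D (cj g a) (cj g b) ↔ w ∈ Star D a b := fun w => by
    simp only [Star, Set.mem_setOf_eq, cj_mem_D_iff hD, cj_inj, commute_cj, cj_cj_cj, ne_eq]
  ext w
  constructor
  · rintro ⟨v, hv, rfl⟩; exact (key v).mpr hv
  · intro h
    exact ⟨cj g⁻¹ w, (key _).mp (by simpa using h), by simp⟩

theorem star_comm {D : Set G} (hD : IsThreeTranspositionSet D) {a b : G} (ha : a ∈ D) (hb : b ∈ D)
    (hab : ¬ Commute a b) : Star D a b = Star D b a := by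
  ext w
  simp only [Star, Set.mem_setOf_eq, cj_comm hD ha hb hab]
  tauto

variable {D : Set G} (hD : IsThreeTranspositionClass D) (hS : Sym D)
include hD hS

/-- additivity of the commutation pairing -/
theorem sym_iff {a b e : G} (ha : a ∈ D) (hb : b ∈ D) (he : e ∈ D) (hab : ¬ Commute a b) :
    Commute e (cj a b) ↔ (Commute e a ↔ Commute e b) := by
  constructor
  · intro h
    exact ⟨fun h1 => commute_of_cj h1 h, fun h1 => commute_of_cj' hD.1 ha hb hab h1 h⟩
  · intro h
    by_cases h1 : Commute e a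
    · exact commute_cj_of h1 (h.mp h1)
    · exact hS a ha b hb e he hab h1 fun h2 => h1 (h.mpr h2)

theorem star_nc (hN : NoClaw D) {a b p q : G} (ha : a ∈ D) (hb : b ∈ D) (hab : ¬ Commute a b)
    (hp : p ∈ Star D a b) (hq : q ∈ Star D a b) (hpq : p ≠ q) : ¬ Commute p q := by
  obtain ⟨hp, rfl | rfl | ⟨p1, p2, p3⟩⟩ := hp <;> obtain ⟨hq, rfl | rfl | ⟨q1, q2, q3⟩⟩ := hq
  · exact absurd rfl hpq
  · exact hab
  · exact fun h => q1 h.symm
  · exact fun h => hab h.symm
  · exact absurd rfl hpq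
  · exact fun h => q2 h.symm
  · exact p1
  · exact p2
  · intro h
    exact not_commute_cj_self hab (hN a ha p hp q hq _ (cj_mem_D hD hb a) hpq p3 q3 h
      (hS a ha b hb p hp hab p1 p2) (hS a ha b hb q hq hab q1 q2) (fun k => p1 k.symm)
      fun k => q1 k.symm)

theorem star_cj (hN : NoClaw D) {a b p q : G} (ha : a ∈ D) (hb : b ∈ D) (hab : ¬ Commute a b)
    (hp : p ∈ Star D a b) (hq : q ∈ Star D a b) (hpq : p ≠ q) : cj p q ∉ Star D a b := by
  have hn := star_nc hD hS hN ha hb hab hp hq hpq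
  intro hr
  -- a fourth-point free argument: use the pattern on `a`, `b`, `cj a b`
  have hc := cj_mem_D hD hb a
  have k := fun e he => sym_iff hD hS hp.1 hq.1 (e := e) he hn
  have ka := k a ha
  have kb := k b hb
  have kc := k _ hc
  have hac := not_commute_cj_self hab
  have hbc := not_commute_cj_self' hD.1 ha hb hab
  have pat : ∀ w ∈ Star D a b, (w = a ∧ Commute a w ∧ ¬ Commute b w ∧ ¬ Commute (cj a b) w) ∨
      (w = b ∧ ¬ Commute a w ∧ Commute b w ∧ ¬ Commute (cj a b) w) ∨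
      (w ≠ cj a b ∧ ¬ Commute a w ∧ ¬ Commute b w ∧ Commute (cj a b) w) := by
    rintro w ⟨hw, rfl | rfl | ⟨w1, w2, w3⟩⟩
    · exact Or.inl ⟨rfl, Commute.refl _, fun h => hab h.symm, fun h => hac h.symm⟩
    · exact Or.inr (Or.inl ⟨rfl, hab, Commute.refl _, fun h => hbc h.symm⟩)
    · exact Or.inr (Or.inr ⟨w3, fun h => w1 h.symm, fun h => w2 h.symm,
        (hS a ha b hb w hw hab w1 w2).symm⟩)
  have e1 := cj_cj_left hD.1 hp.1 hq.1 hn
  have e2 := cj_cj_right hD.1 hp.1 hq.1 hn
  have e3 := cj_comm hD.1 ha hb hab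
  have e4 := cj_comm hD.1 hp.1 hq.1 hn
  have e5 := cj_cj hD.1 hp.1 q
  have e6 := cj_cj hD.1 hq.1 p
  rcases pat p hp with ⟨p0, p1, p2, p3⟩ | ⟨p0, p1, p2, p3⟩ | ⟨p0, p1, p2, p3⟩ <;>
  rcases pat q hq with ⟨q0, q1, q2, q3⟩ | ⟨q0, q1, q2, q3⟩ | ⟨q0, q1, q2, q3⟩ <;>
  rcases pat _ hr with ⟨r0, r1, r2, r3⟩ | ⟨r0, r1, r2, r3⟩ | ⟨r0, r1, r2, r3⟩ <;>
  first
    | tauto
    | grind

theorem star_eq (hN : NoClaw D) {a b p q : G} (ha : a ∈ D) (hb : b ∈ D) (hab : ¬ Commute a b)
    (hp : p ∈ Star D a b) (hq : q ∈ Star D a b) (hpq : p ≠ q) : Star D a b = Star D p q := by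
  have L : ∀ {a b p q : G}, a ∈ D → b ∈ D → ¬ Commute a b → p ∈ Star D a b → q ∈ Star D a b →
      p ≠ q → Star D a b ⊆ Star D p q := fun ha hb hab hp hq hpq w hw => by
    refine ⟨hw.1, ?_⟩
    by_contra h
    push Not at h
    exact star_cj hD hS hN ha hb hab hp hq hpq (h.2.2 (star_nc hD hS hN ha hb hab hw hp h.1)
      (star_nc hD hS hN ha hb hab hw hq h.2.1) ▸ hw)
  have h1 := L ha hb hab hp hq hpq
  exact h1.antisymm (L hp.1 hq.1 (star_nc hD hS hN ha hb hab hp hq hpq) (h1 (star_left ha))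
    (h1 (star_right hb)) fun e => hab (e ▸ Commute.refl _))

theorem sign_of_noClaw [Finite G] (hnc : ∀ d ∈ D, ∃ b ∈ D, ¬ Commute d b) (hN : NoClaw D) :
    ∃ ε : G →* ℤˣ, ∀ d ∈ D, ε d = -1 := by
  classical
  let Ω := {S : Set G // ∃ a ∈ D, ∃ b ∈ D, ¬ Commute a b ∧ S = Star D a b}
  letI : MulAction G Ω :=
    { smul := fun g S => ⟨cj g '' S.1, by
        obtain ⟨a, ha, b, hb, hab, e⟩ := S.2
        exact ⟨_, cj_mem_D hD ha g, _, cj_mem_D hD hb g, by simpa using hab, by
          rw [e, star_image hD]⟩⟩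
      one_smul := fun S => Subtype.ext (by
        change cj 1 '' S.1 = S.1
        simp)
      mul_smul := fun g h S => Subtype.ext (by
        change cj (g * h) '' S.1 = cj g '' (cj h '' S.1)
        rw [Set.image_image]; simp only [cj_mul]) }
  have hs : ∀ (g : G) (S : Ω), (g • S).1 = cj g '' S.1 := fun _ _ => rfl
  haveI : Fintype Ω := Fintype.ofFinite Ω
  refine ⟨Equiv.Perm.sign.comp (MulAction.toPermHom G Ω), fun d hd => ?_⟩
  obtain ⟨b, hb, hdb⟩ := hnc d hd
  have hc := cj_mem_D hD hb d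
  have hdc := not_commute_cj_self hdb
  have hne : d ≠ b := fun e => hdb (e ▸ Commute.refl _)
  let S1 : Ω := ⟨Star D d b, d, hd, b, hb, hdb, rfl⟩
  let S2 : Ω := ⟨Star D d (cj d b), d, hd, _, hc, hdc, rfl⟩
  have h12 : S1 ≠ S2 := fun e => star_cj hD hS hN hd hb hdb (star_left hd) (star_right hb) hne
    (by
      have : Star D d b = Star D d (cj d b) := congrArg Subtype.val e
      rw [this]; exact star_right hc)
  have : MulAction.toPermHom G Ω d = Equiv.swap S1 S2 := by
    ext S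
    refine congrArg (fun T : Ω => _ ∈ T.1) ?_ |>.to_iff
    change d • S = _
    by_cases k1 : S = S1
    · rw [k1, Equiv.swap_apply_left]
      refine Subtype.ext ?_
      rw [hs, star_image hD, cj_self]
    by_cases k2 : S = S2
    · rw [k2, Equiv.swap_apply_right]
      refine Subtype.ext ?_
      rw [hs, star_image hD, cj_self, cj_cj hD.1 hd]
    rw [Equiv.swap_apply_of_ne_of_ne k1 k2]
    obtain ⟨S, p, hp, q, hq, hpq, rfl⟩ := S
    refine Subtype.ext ?_
    rw [hs, star_image hD]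
    change _ = Star D p q
    have hpq' : p ≠ q := fun e => hpq (e ▸ Commute.refl _)
    by_cases hm : d ∈ Star D p q
    · exfalso
      obtain ⟨e, he, hed⟩ : ∃ e ∈ Star D p q, d ≠ e := by
        by_cases h : d = p
        · exact ⟨q, star_right hq, h ▸ hpq'⟩
        · exact ⟨p, star_left hp, h⟩
      have h1 := star_eq hD hS hN hp hq hpq hm he hed
      have h2 := star_nc hD hS hN hp hq hpq he hm hed.symm
      have h3 := sym_iff hD hS hd hb he.1 hdb
      have : e ∈ Star D d b ∨ e ∈ Star D d (cj d b) := by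
        by_cases l1 : e = b
        · exact Or.inl (by rw [l1]; exact star_right hb)
        by_cases l2 : e = cj d b
        · exact Or.inr (by rw [l2]; exact star_right hc)
        by_cases l3 : Commute e b
        · exact Or.inr ⟨he.1, Or.inr (Or.inr ⟨h2, fun l => h2 ((h3.mp l).mpr l3), by
            rwa [cj_cj hD.1 hd]⟩)⟩
        · exact Or.inl ⟨he.1, Or.inr (Or.inr ⟨h2, l3, l2⟩)⟩
      rcases this with l | l
      · exact k1 (Subtype.ext (h1.trans (star_eq hD hS hN hd hb hdb (star_left hd) l hed).symm))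
      · exact k2 (Subtype.ext (h1.trans (star_eq hD hS hN hd hc hdc (star_left hd) l hed).symm))
    have key : ∀ p ∈ D, ∀ q ∈ D, ¬ Commute p q → d ∉ Star D p q → ¬ Commute d p → Commute d q →
        Star D (cj d p) (cj d q) = Star D p q := fun p hp q hq hpq hm l1 l2 => by
      rw [cj_of_commute l2]
      have hr := cj_mem_D hD hp d
      have l3 : ¬ Commute (cj d p) q := fun l => hpq (commute_of_cj l2.symm l.symm).symm
      refine (star_eq hD hS hN hp hq hpq ⟨hr, Or.inr (Or.inr ⟨fun l =>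
        not_commute_cj_self' hD.1 hd hp l1 l.symm, l3, fun l => ?_⟩)⟩ (star_right hq)
        fun l => l3 (l ▸ Commute.refl _)).symm
      rw [cj_comm hD.1 hd hp l1, cj_inj] at l
      exact hm (by rw [l]; exact star_right hq)
    by_cases l1 : Commute d p <;> by_cases l2 : Commute d q
    · rw [cj_of_commute l1, cj_of_commute l2]
    · have hqp : ¬ Commute q p := fun h => hpq h.symm
      rw [star_comm hD.1 hp hq hpq, star_comm hD.1 (cj_mem_D hD hp d) (cj_mem_D hD hq d)
        (by simpa using hpq)]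
      exact key q hq p hp hqp (by rwa [← star_comm hD.1 hp hq hpq]) l2 l1
    · exact key p hp q hq hpq hm l1 l2
    · have : d = cj p q := by
        by_contra h
        exact hm ⟨hd, Or.inr (Or.inr ⟨l1, l2, h⟩)⟩
      rw [this, cj_cj_left hD.1 hp hq hpq, cj_cj_right hD.1 hp hq hpq]
      exact (star_comm hD.1 hp hq hpq).symm
  rw [MonoidHom.comp_apply, this, Equiv.Perm.sign_swap h12]

end

variable {G : Type u} [Group G] [Finite G]

theorem exists_alt_model {D : Set G} (hF : Fi D) (hS : Sym D) :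
    ∃ (m : ℕ) (a : G → Fin m ⊕ Fin m → ZMod 2),
      (∀ d ∈ D, ∀ e ∈ D, Commute d e → sympBilin m (ZMod 2) (a d) (a e) = 0) ∧
      (∀ d ∈ D, ∀ e ∈ D, ¬ Commute d e → sympBilin m (ZMod 2) (a d) (a e) = 1) ∧
      Submodule.span (ZMod 2) (a '' D) = ⊤ ∧
      (∀ d ∈ D, ∀ e ∈ D, ¬ Commute d e → a (cj d e) = a d + a e) := by
  classical
  have hD := hF.cl
  obtain ⟨m, a, ha, hspan⟩ := exists_gram_alt
    (fun d e : G => if d ∈ D ∧ e ∈ D ∧ ¬ Commute d e then (1 : ZMod 2) else 0)
    (fun d e => by simp only [Commute.symm_iff (a := e), and_left_comm])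
    (fun d => by simp)
  have hc : ∀ d ∈ D, ∀ e ∈ D, Commute d e → sympBilin m (ZMod 2) (a d) (a e) = 0 :=
    fun d hd e he h => by simp [ha, h]
  have hn : ∀ d ∈ D, ∀ e ∈ D, ¬ Commute d e → sympBilin m (ZMod 2) (a d) (a e) = 1 :=
    fun d hd e he h => by simp [ha, h, hd, he]
  have hspan' : Submodule.span (ZMod 2) (a '' D) = ⊤ := by
    rw [eq_top_iff, ← hspan, Submodule.span_le]
    rintro _ ⟨e, rfl⟩
    by_cases he : e ∈ D
    · exact Submodule.subset_span ⟨e, he, rfl⟩
    · have : a e = 0 := by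
        refine eq_zero_of_sympBilin fun u => ?_
        have : u ∈ Submodule.span (ZMod 2) (Set.range a) := hspan ▸ Submodule.mem_top
        refine Submodule.span_induction (p := fun u _ => sympBilin m (ZMod 2) u (a e) = 0) ?_
          (by simp) (fun x y _ _ hx hy => by simp [hx, hy]) (fun c x _ hx => by simp [hx]) this
        rintro _ ⟨d, rfl⟩
        simp [ha, he]
      rw [this]; exact Submodule.zero_mem _
  have ext : ∀ v, (∀ e ∈ D, sympBilin m (ZMod 2) (a e) v = 0) → v = 0 := fun v hv => by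
    refine eq_zero_of_sympBilin fun u => ?_
    have : u ∈ Submodule.span (ZMod 2) (a '' D) := hspan' ▸ Submodule.mem_top
    refine Submodule.span_induction (p := fun u _ => sympBilin m (ZMod 2) u v = 0) ?_ (by simp)
      (fun x y _ _ hx hy => by simp [hx, hy]) (fun c x _ hx => by simp [hx]) this
    rintro _ ⟨e, he, rfl⟩
    exact hv e he
  refine ⟨m, a, hc, hn, hspan', fun d hd e he h => ?_⟩
  have hz := cj_mem_D hD he d
  rw [← sub_eq_zero]
  refine ext _ fun p hp => ?_
  have k := sym_iff hD hS hd he hp h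
  rw [map_sub, map_add]
  by_cases l1 : Commute p d <;> by_cases l2 : Commute p e
  · rw [hc p hp d hd l1, hc p hp e he l2, hc p hp _ hz (by tauto)]; rfl
  · rw [hc p hp d hd l1, hn p hp e he l2, hn p hp _ hz (by tauto)]; rfl
  · rw [hn p hp d hd l1, hc p hp e he l2, hn p hp _ hz (by tauto)]; rfl
  · rw [hn p hp d hd l1, hn p hp e he l2, hc p hp _ hz (by tauto)]; rfl

theorem claw_all {D : Set G} (h : Good D) (hT : ¬ Thick D)
    (h5 : ¬ Nonempty (G ≃* Equiv.Perm (Fin 5))) (hN : ¬ NoClaw D) {x y z : G} (hx : x ∈ D)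
    (hy : y ∈ D) (hz : z ∈ D) (hxy : x ≠ y) (hxz : x ≠ z) (hyz : y ≠ z) (c1 : Commute x y)
    (c2 : Commute x z) (c3 : Commute y z) :
    ∃ w ∈ D, ¬ Commute w x ∧ ¬ Commute w y ∧ ¬ Commute w z := by
  have hF := h.fi
  have hD := h.cl
  simp only [NoClaw] at hN
  push Not at hN
  obtain ⟨w, hw, p, hp, q, hq, r, hr, n1, n2, n3, d1, d2, d3, w1, w2, w3⟩ := hN
  obtain ⟨g, g1, g2⟩ := hF.pair_perp hp (b := q) ⟨hq, n1.symm, d1⟩ hx (d := y) ⟨hy, hxy.symm, c1⟩
  obtain ⟨H, _, _, E, π, hE, hC⟩ := exists_local h hT h5 hx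
  have hR := hC.r3 (R3.of_fi hE.fi)
  have hr' : cj g r ∈ perp (perp D x) y := by
    rw [perp_perp]
    exact ⟨g1 ▸ (cj_mem_perp hD).mpr ⟨hr, n2.symm, d2⟩, g2 ▸ (cj_mem_perp hD).mpr ⟨hr, n3.symm, d3⟩⟩
  obtain ⟨k, hk, k1⟩ := hR.lconn y ⟨hy, hxy.symm, c1⟩ _ hr' z
    ⟨⟨hz, hxz.symm, c2⟩, hyz.symm, c3⟩
  have kx : Commute k x := commute_closure (fun s hs => hs.1.2.2.symm) hk
  have ky : Commute k y := commute_closure (fun s hs => hs.2.2.symm) hk
  refine ⟨cj k (cj g w), cj_mem_D hD (cj_mem_D hD hw g) k, ?_, ?_, ?_⟩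
  · rw [← cj_of_commute kx, ← g1]; simpa using w1
  · rw [← cj_of_commute ky, ← g2]; simpa using w2
  · rw [← k1]; simpa using w3

theorem sign_of_claw {D : Set G} (h : Good D) (hT : ¬ Thick D)
    (h5 : ¬ Nonempty (G ≃* Equiv.Perm (Fin 5))) (hS : Sym D) (hN : ¬ NoClaw D) :
    ∃ ε : G →* ℤˣ, ∀ d ∈ D, ε d = -1 := by
  classical
  have hF := h.fi
  have hD := h.cl
  obtain ⟨m, a, hc, hn, hspan, hadd⟩ := exists_alt_model hF hS
  set B := sympBilin m (ZMod 2) with hB
  have h2 : ∀ v : Fin m ⊕ Fin m → ZMod 2, v + v = 0 := fun v => by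
    ext i; exact CharTwo.add_self_eq_zero _
  have hcs : ∀ d ∈ D, ∀ e ∈ D, B (a d) (a e) = 0 → Commute d e := fun d hd e he k => by
    by_contra l
    rw [hn d hd e he l] at k
    exact one_ne_zero k
  have hns : ∀ d ∈ D, ∀ e ∈ D, B (a d) (a e) = 1 → ¬ Commute d e := fun d hd e he k l => by
    rw [hc d hd e he l] at k
    exact zero_ne_one k
  have hne : ∀ d ∈ D, a d ≠ 0 := fun d hd k => by
    obtain ⟨e, he, hde⟩ := hF.exists_nc hd
    have := hn d hd e he hde
    simp [k] at this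
  have h11 : (1 : ZMod 2) + 1 = 0 := rfl
  -- sums of three
  have tri : ∀ x ∈ D, ∀ y ∈ D, ∀ z ∈ D, Commute x y → Commute x z → Commute y z →
      a x + a y + a z ∈ a '' D := fun x hx y hy z hz c1 c2 c3 => by
    by_cases hxy : x = y
    · rw [hxy, h2, zero_add]; exact ⟨z, hz, rfl⟩
    by_cases hxz : x = z
    · rw [hxz, add_right_comm, h2, zero_add]; exact ⟨y, hy, rfl⟩
    by_cases hyz : y = z
    · rw [hyz, add_assoc, h2, add_zero]; exact ⟨x, hx, rfl⟩
    obtain ⟨w, hw, w1, w2, w3⟩ := claw_all h hT h5 hN hx hy hz hxy hxz hyz c1 c2 c3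
    have m1 := cj_mem_D hD hx w
    have m2 := cj_mem_D hD hy w
    have e1 := hadd w hw x hx w1
    have e2 := hadd w hw y hy w2
    have n1 : ¬ Commute (cj w y) z := hns _ m2 z hz (by
      rw [e2, map_add, LinearMap.add_apply, hn w hw z hz w3, hc y hy z hz c3, add_zero])
    have m3 := cj_mem_D hD hz (cj w y)
    have e3 := hadd _ m2 z hz n1
    have n2 : ¬ Commute (cj w x) (cj (cj w y) z) := hns _ m1 _ m3 (by
      rw [e3, e2, e1]
      simp only [map_add, LinearMap.add_apply]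
      rw [hc w hw w hw (Commute.refl _), hn w hw y hy w2, hn w hw z hz w3,
        hn x hx w hw fun l => w1 l.symm, hc x hx y hy c1, hc x hx z hz c2]
      rfl)
    refine ⟨_, cj_mem_D hD m3 (cj w x), ?_⟩
    rw [hadd _ m1 _ m3 n2, e3, e2, e1]
    have := h2 (a w)
    linear_combination (exp := 1) this
  have tri' : ∀ d ∈ D, ∀ e ∈ D, ∀ f ∈ D, Commute e f → B (a d) (a e + a f) = 0 →
      a d + (a e + a f) ∈ a '' D := fun d hd e he f hf c k => by
    rw [map_add] at k
    by_cases l1 : Commute d e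
    · rw [hc d hd e he l1, zero_add] at k
      rw [← add_assoc]
      exact tri d hd e he f hf l1 (hcs d hd f hf k) c
    · rw [hn d hd e he l1] at k
      have m1 := cj_mem_D hD he d
      have e1 := hadd d hd e he l1
      have : ¬ Commute (cj d e) f := hns _ m1 f hf (by
        rw [e1, map_add, LinearMap.add_apply, hc e he f hf c, add_zero]
        linear_combination k - h11)
      exact ⟨_, cj_mem_D hD hf _, by rw [hadd _ m1 f hf this, e1, add_assoc]⟩
  have ind : ∀ P : (Fin m ⊕ Fin m → ZMod 2) → Prop, P 0 → (∀ d ∈ D, ∀ v, P v → P (a d + v)) →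
      ∀ v, P v := fun P p0 p1 v => by
    have : v ∈ Submodule.span (ZMod 2) (a '' D) := hspan ▸ Submodule.mem_top
    have := Submodule.span_induction (p := fun u _ => ∀ v, P v → P (u + v)) ?_ (by simp)
      (fun x y _ _ hx hy v hv => by rw [add_assoc]; exact hx _ (hy v hv))
      (fun c x _ hx => by
        rcases Lib.Forms.zmod2_cases c with rfl | rfl
        · simp
        · simpa using hx) this 0 p0
    · simpa using this
    · rintro _ ⟨d, hd, rfl⟩
      exact p1 d hd
  have typ : ∀ v, v ∈ a '' D ∨ ∃ e ∈ D, ∃ f ∈ D, Commute e f ∧ v = a e + a f := by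
    obtain ⟨d0, hd0, -⟩ := hD.2.1
    refine ind _ (Or.inr ⟨d0, hd0, d0, hd0, Commute.refl _, (h2 _).symm⟩) ?_
    rintro d hd v (⟨e, he, rfl⟩ | ⟨e, he, f, hf, c, rfl⟩)
    · by_cases l : Commute d e
      · exact Or.inr ⟨d, hd, e, he, l, rfl⟩
      · exact Or.inl ⟨_, cj_mem_D hD he d, hadd d hd e he l⟩
    · rcases Lib.Forms.zmod2_cases (B (a d) (a e + a f)) with k | k
      · exact Or.inl (tri' d hd e he f hf c k)
      · right
        rw [map_add] at k
        by_cases l1 : Commute d e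
        · rw [hc d hd e he l1, zero_add] at k
          have l2 := hns d hd f hf k
          exact ⟨e, he, _, cj_mem_D hD hf d, commute_cj_of l1.symm c, by
            rw [hadd d hd f hf l2]; abel⟩
        · rw [hn d hd e he l1] at k
          have l2 := hcs d hd f hf (by linear_combination k)
          exact ⟨_, cj_mem_D hD he d, f, hf, (commute_cj_of l2.symm c.symm).symm, by
            rw [hadd d hd e he l1]; abel⟩
  let q : (Fin m ⊕ Fin m → ZMod 2) → ZMod 2 := fun v => if v ∈ a '' D then 1 else 0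
  have q0 : q 0 = 0 := if_neg (by rintro ⟨d, hd, k⟩; exact hne d hd k)
  have q1 : ∀ d ∈ D, q (a d) = 1 := fun d hd => if_pos ⟨d, hd, rfl⟩
  have hNT := nt_of_not_thick hF hT
  have qs : ∀ d ∈ D, ∀ v, q (a d + v) = 1 + q v + B (a d) v := fun d hd v => by
    have one : ∀ v, B (a d) v = 1 → v ∈ a '' D → a d + v ∈ a '' D := by
      rintro _ k ⟨e, he, rfl⟩
      exact ⟨_, cj_mem_D hD he d, hadd d hd e he (hns d hd e he k)⟩
    rcases Lib.Forms.zmod2_cases (B (a d) v) with k | k
    · rw [k, add_zero]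
      by_cases l : v ∈ a '' D
      · obtain ⟨e, he, rfl⟩ := l
        rw [q1 e he, h11]
        refine if_neg ?_
        rintro ⟨f, hf, e1⟩
        have c := hcs d hd e he k
        have hed : e ≠ d := fun l => hne f hf (by rw [e1, l, h2])
        obtain ⟨w, hw, w1, w2, w3⟩ := hNT d hd e ⟨he, hed, c⟩ f hf
          (fun l => hne e he (by rw [l] at e1; simpa using e1.symm))
          (fun l => hne d hd (by rw [l] at e1; simpa using e1.symm))
        exact w3 (hcs w hw f hf (by rw [e1, map_add, hc w hw d hd w1, hc w hw e he w2, add_zero]))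
      · obtain ⟨e, he, f, hf, c, rfl⟩ := (typ v).resolve_left l
        rw [show q (a e + a f) = 0 from if_neg l, add_zero]
        exact if_pos (tri' d hd e he f hf c k)
    · rw [k, add_right_comm, h11, zero_add]
      refine if_congr ⟨fun l => ?_, one v k⟩ rfl rfl
      have := one _ (by rw [map_add, k, hc d hd d hd (Commute.refl _), zero_add]) l
      rwa [← add_assoc, h2, zero_add] at this
  have qa : ∀ u v, q (u + v) = q u + q v + B u v := by
    refine ind (fun u => ∀ v, q (u + v) = q u + q v + B u v) (fun v => by simp [q0]) ?_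
    intro d hd u ih v
    rw [add_assoc, qs d hd, qs d hd, ih]
    simp only [map_add, LinearMap.add_apply]
    ring
  let Q : QuadraticForm (ZMod 2) (Fin m ⊕ Fin m → ZMod 2) :=
    { toFun := q
      toFun_smul := fun c x => by
        rcases Lib.Forms.zmod2_cases c with rfl | rfl <;> simp [q0]
      exists_companion' := ⟨B, qa⟩ }
  have hQa : ∀ v, Q v = q v := fun _ => rfl
  have hp : ∀ u v, polar Q u v = B u v := fun u v => by
    rw [polar, hQa, hQa, hQa, qa]; ring
  have hQ : Nondeg Q := Lib.Forms.nondeg_of fun x hx =>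
    eq_zero_of_sympBilin fun u => by rw [← hB, ← hp, polar_comm, hx]
  let S : Set (G × OG Q) := (fun d => (d, refl Q (a d))) '' D
  have hr : ∀ d ∈ D, ∀ e ∈ D, (refl Q (a d)).1 (a e) = a (cj d e) := fun d hd e he => by
    rw [Lib.Forms.refl_apply_f2 (q1 d hd), hp]
    by_cases l : Commute d e
    · rw [hc e he d hd l.symm, cj_of_commute l]; simp
    · rw [hn e he d hd fun l' => l l'.symm, hadd d hd e he l, one_smul, add_comm]
  have hSS : ∀ p ∈ closure S, ∀ e ∈ D, p.2.1 (a e) = a (cj p.1 e) := fun p hp => by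
    refine closure_induction (p := fun p _ => ∀ e ∈ D, p.2.1 (a e) = a (cj p.1 e)) ?_
      (fun e _ => by simp) (fun x y _ _ hx hy e he => ?_) (fun x _ hx e he => ?_) hp
    · rintro _ ⟨d, hd, rfl⟩
      exact hr d hd
    · rw [Prod.snd_mul, Prod.fst_mul, Lib.Forms.OG.mul_apply, hy e he, hx _ (cj_mem_D hD he _), cj_mul]
    · have := hx _ (cj_mem_D hD he x.1⁻¹)
      rw [cj_cj_inv] at this
      rw [Prod.fst_inv, ← this, ← Lib.Forms.OG.mul_apply, Prod.snd_inv, inv_mul_cancel,
        Lib.Forms.OG.one_apply]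
  obtain ⟨φ, hφ⟩ := Subgroup.exists_eq_graph (G := closure S) ⟨fun x y hxy => by
      have e1 : x.1.1 = y.1.1 := hxy
      refine Subtype.ext (Prod.ext e1 (Subtype.ext (LinearEquiv.toLinearMap_injective ?_)))
      refine LinearMap.ext_on hspan ?_
      rintro _ ⟨e, he, rfl⟩
      change x.1.2.1 (a e) = y.1.2.1 (a e)
      rw [hSS _ x.2 e he, hSS _ y.2 e he, e1], fun g => by
      obtain ⟨k, hk⟩ := exists_snd_of_closure (S := S) (by
        rw [Set.image_image]; simpa using hD.2.2) g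
      exact ⟨⟨_, hk⟩, rfl⟩⟩
  have hφ' : ∀ d ∈ D, φ d = refl Q (a d) := fun d hd => by
    have : (d, refl Q (a d)) ∈ closure S := subset_closure ⟨d, hd, rfl⟩
    rw [hφ] at this
    exact this
  have hq1 : ∀ d ∈ D, Q (a d) ≠ 0 := fun d hd => by rw [hQa, q1 d hd]; exact one_ne_zero
  refine ⟨MonoidHom.mk' (fun g => dick (φ g)) fun g k => ?_, fun d hd => ?_⟩
  · have hg : g ∈ closure D := hD.2.2 ▸ mem_top g
    have step : ∀ d ∈ D, ∀ g, dick (φ (g * k)) = dick (φ g) * dick (φ k) →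
        dick (φ (d * g * k)) = dick (φ (d * g)) * dick (φ k) := fun d hd g ih => by
      rw [mul_assoc, map_mul φ d, map_mul φ d, hφ' d hd, hQ.dick_refl_mul (hq1 d hd),
        hQ.dick_refl_mul (hq1 d hd), ih, neg_mul]
    refine closure_induction_left (p := fun g _ => dick (φ (g * k)) = dick (φ g) * dick (φ k))
      (by simp [Lib.Forms.dick_one]) (fun d hd g _ ih => step d hd g ih)
      (fun d hd g _ ih => by rw [inv_eq hD.1 hd]; exact step d hd g ih) hg
  · change dick (φ d) = -1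
    rw [hφ' d hd, hQ.dick_refl (hq1 d hd)]

theorem sign_of_sym {D : Set G} (h : Good D) (hT : ¬ Thick D)
    (h5 : ¬ Nonempty (G ≃* Equiv.Perm (Fin 5))) (hS : Sym D) : ∃ ε : G →* ℤˣ, ∀ d ∈ D, ε d = -1 := by
  by_cases hN : NoClaw D
  · exact sign_of_noClaw h.cl hS (fun d hd => h.fi.exists_nc hd) hN
  · exact sign_of_claw h hT h5 hS hN

end Cfsg.Agent.Fis
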