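import Cfsg.Agent.Lib.Fis.UApi
import Cfsg.Agent.Lib.Fis.E6Tab

set_option autoImplicit false

/-! # Fischer's theorem: the unitary space of dimension four is an orthogonal space -/

namespace Cfsg.Agent.Fis

open Subgroup Cfsg.Agent.Lib.Fischer Cfsg.Agent.Lib.Invol Cfsg.Agent.Spor Module QuadraticMap
open Cfsg.Agent.Lib.Forms (Nondeg nondeg_of)
open Cfsg.Agent.Lib.GL.Herm E6

namespace U4

/-- decoding of a field element -/
def dec : ℕ → F4
  | 0 => .z
  | 1 => .o
  | 2 => .w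
  | _ => .v

/-- isotropic vectors -/
def tv (i : ℕ) : Fin 4 → F4 := fun j => dec
  (2327811215453144200610089642094807807937990487429655585878615522218241593471389290903170438273973709263900752 /
    4 ^ (4 * i + j) % 4)

/-- orthogonal vectors -/
def rv (i : ℕ) : Fin 5 → ZMod 3 := fun j =>
  ((40695123930706528704299554913586870063390113194694387303787652618213323241229946385939675270195061226997215 /
    3 ^ (5 * i + j) % 3 : ℕ) : ZMod 3)

/-- the hermitian form -/
def hh (x y : Fin 4 → F4) : F4 :=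
  x 0 * (y 0).inv + x 1 * (y 1).inv + x 2 * (y 2).inv + x 3 * (y 3).inv

theorem hf_eq (x y : Fin 4 → F4) : hf x y = hh x y := by
  rw [stdHerm_apply, Fin.sum_univ_four]; rfl

set_option synthInstance.maxSize 1000 in
theorem t_iso : ∀ a b c d : F4, a * a.inv + b * b.inv + c * c.inv + d * d.inv = 0 →
    (a = 0 ∧ b = 0 ∧ c = 0 ∧ d = 0) ∨ ∃ i < 45, ∃ l : F4, l ≠ 0 ∧
      a = l * tv i 0 ∧ b = l * tv i 1 ∧ c = l * tv i 2 ∧ d = l * tv i 3 := by decide +kernel

theorem t_ne : ∀ i < 45, ∃ j, tv i j ≠ 0 := by decide +kernel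

theorem t_hf : ∀ i < 45, ∀ k < 45, (hh (tv i) (tv k) = 0 ↔ k = i ∨ dt (rv i) (rv k) = 0) := by
  decide +kernel

theorem t_q : ∀ i < 45, dt (rv i) (rv i) = 1 := by decide +kernel

theorem t_uinj : ∀ i < 45, ∀ k < 45, ∀ l : F4, (∀ j, tv i j = l * tv k j) → i = k := by
  decide +kernel

set_option synthInstance.maxSize 1000 in
theorem t_surj : ∀ a b c d e : ZMod 3, a * a + b * b + c * c + d * d + e * e = 1 → ∃ i < 45,
    (a = rv i 0 ∧ b = rv i 1 ∧ c = rv i 2 ∧ d = rv i 3 ∧ e = rv i 4) ∨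
    (a = -rv i 0 ∧ b = -rv i 1 ∧ c = -rv i 2 ∧ d = -rv i 3 ∧ e = -rv i 4) := by decide +kernel

theorem t_inj : ∀ i < 45, ∀ k < 45, ((∀ j, rv i j = rv k j) ∨ ∀ j, rv i j = -rv k j) → i = k := by
  decide +kernel

theorem polar_neg (x y : Fin 5 → ZMod 3) : polar (-QQ : QuadraticForm _ _) x y = 0 ↔ dt x y = 0 := by
  rw [← QQ_polar, ← neg_eq_zero]
  simp only [polar, _root_.neg_apply]
  constructor <;> intro h <;> linear_combination h

end U4

open U4 in
theorem orth_of_uni4 {G : Type*} [Group G] {D : Set G} (h : Uni D 4) : Orth D 5 := by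
  obtain ⟨-, hK, v, h⟩ := h
  have sur : ∀ d ∈ D, ∃ i, i < 45 ∧ ∃ l : F4, l ≠ 0 ∧ v d = l • tv i := fun d hd => by
    have := h.iso hd
    rw [hf_eq] at this
    rcases t_iso _ _ _ _ this with ⟨k0, k1, k2, k3⟩ | ⟨i, hi, l, hl, k0, k1, k2, k3⟩
    · refine absurd (funext fun j => ?_) (h.ne d hd)
      fin_cases j
      exacts [k0, k1, k2, k3]
    · refine ⟨i, hi, l, hl, funext fun j => ?_⟩
      fin_cases j
      exacts [k0, k1, k2, k3]
  choose! ix hix l hl hv using sur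
  have ij : ∀ d ∈ D, ∀ e ∈ D, ix d = ix e → d = e := fun d hd e he k =>
    h.inj d hd e he (l d * (l e)⁻¹) (by
      rw [hv d hd, hv e he, k, smul_smul, inv_mul_cancel_right₀ (hl e he)])
  refine ⟨Fin 5 → ZMod 3, _, _, inferInstance, -QQ, fun g => rv (ix g), by simp, h.ts, hK,
    nondeg_of fun x hx => QQ_nd.eq_zero fun y => (QQ_polar _ _).mpr ((polar_neg _ _).mp (hx y)),
    fun d hd => ?_, fun d hd e he => ?_, fun y hy => ?_, fun d hd e he k => ?_⟩
  · rw [_root_.neg_apply, QQ_apply, t_q _ (hix d hd)]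
  · have k : Commute d e ↔ ix e = ix d ∨ dt (rv (ix d)) (rv (ix e)) = 0 := by
      rw [← h.pol d hd e he, ← t_hf _ (hix d hd) _ (hix e he), ← hf_eq, hv d hd, hv e he]
      simp [hl d hd, hl e he]
    rw [polar_neg, mem_perp, k]
    refine ⟨fun k => ⟨he, fun e => ?_, Or.inr k⟩, fun k => k.2.2.resolve_left fun e =>
      k.2.1 (ij _ he _ hd e)⟩
    rw [e, t_q _ (hix d hd)] at k
    exact one_ne_zero k
  · rw [_root_.neg_apply, neg_inj, QQ_apply] at hy
    obtain ⟨i, hi, k⟩ := t_surj _ _ _ _ _ hy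
    obtain ⟨d, hd, c, hc, e⟩ := h.surj (tv i) (fun e => (t_ne i hi).elim fun j k => k (congrFun e j))
      (by rw [hf_eq]; exact (t_hf i hi i hi).mpr (Or.inl rfl))
    rw [hv d hd, smul_smul] at e
    obtain rfl := t_uinj i hi _ (hix d hd) _ (congrFun e)
    refine ⟨d, hd, k.imp (fun k => ?_) fun k => ?_⟩ <;>
    · obtain ⟨k0, k1, k2, k3, k4⟩ := k
      funext j
      fin_cases j
      exacts [k0, k1, k2, k3, k4]
  · exact ij _ hd _ he (t_inj _ (hix d hd) _ (hix e he)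
      (k.imp (fun k j => congrFun k j) fun k j => congrFun k j))

end Cfsg.Agent.Fis
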