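import Cfsg.Agent.Lib.Fis.Mod
import Cfsg.Agent.Lib.Spor.SU4

set_option autoImplicit false

/-! # Fischer's theorem: the unitary model -/

namespace Cfsg.Agent.Fis

open Subgroup Cfsg.Agent.Lib.Fischer Cfsg.Agent.Lib.Invol Cfsg.Agent.Spor Matrix Module
open Cfsg.Agent.Lib.GL.Herm

variable {G : Type*} [Group G] {n : ℕ}

/-- `g` acts on the points as the matrix `M` -/
def Act (D : Set G) (v : G → Fin n → F4) (g : G) (M : Matrix (Fin n) (Fin n) F4) : Prop :=
  ∀ e ∈ D, cj g e ∈ D ∧ ∃ l : F4, l ≠ 0 ∧ M *ᵥ v e = l • v (cj g e)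

section
variable {D : Set G} {v : G → Fin n → F4}

theorem Act.one : Act D v 1 1 := fun e he => ⟨by simpa, 1, one_ne_zero, by simp⟩

theorem Act.mul {g g' : G} {M M' : Matrix (Fin n) (Fin n) F4} (h : Act D v g M)
    (h' : Act D v g' M') : Act D v (g * g') (M * M') := fun e he => by
  obtain ⟨k, l, hl, e1⟩ := h' e he
  obtain ⟨k', l', hl', e2⟩ := h _ k
  exact ⟨cj_mul g g' e ▸ k', l * l', mul_ne_zero hl hl', by
    rw [← mulVec_mulVec, e1, mulVec_smul, e2, cj_mul, smul_smul]⟩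

theorem Act.of_cent {g : G} (h : ∀ d ∈ D, Commute g d) : Act D v g 1 := fun e he => by
  rw [cj_of_commute (h e he)]; exact ⟨he, 1, one_ne_zero, by simp⟩

theorem mul_fr : ∀ {a : F4}, a ≠ 0 → a * fr a = 1 := by decide

namespace UMod
variable (h : UMod D v)
include h

theorem iso {d : G} (hd : d ∈ D) : hf (v d) (v d) = 0 := (h.pol d hd d hd).mpr (Commute.refl d)

theorem act {d : G} (hd : d ∈ D) : Act D v d (qT (v d) 1) := fun e he =>
  ⟨h.ts.cjm d hd e he, by rw [qT_mulVec, one_mul]; exact h.eqv d hd e he⟩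

theorem surj' {y : Fin n → F4} (h0 : y ≠ 0) (hy : hf y y = 0) :
    ∃ d ∈ D, ∃ l : F4, l ≠ 0 ∧ v d = l • y := by
  obtain ⟨d, hd, l, hl, rfl⟩ := h.surj y h0 hy
  exact ⟨d, hd, l⁻¹, inv_ne_zero hl, by rw [smul_smul, inv_mul_cancel₀ hl, one_smul]⟩

/-- the point is determined by the matrix -/
theorem cj_eq {g : G} {M : Matrix (Fin n) (Fin n) F4} (hg : Act D v g M) {d e : G} (hd : d ∈ D)
    (he : e ∈ D) {l : F4} (k : M *ᵥ v d = l • v e) : cj g d = e := by
  obtain ⟨k1, l', hl', e1⟩ := hg d hd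
  exact h.inj _ k1 e he (l'⁻¹ * l) (by
    rw [← smul_smul, ← k, e1, smul_smul, inv_mul_cancel₀ hl', one_smul])

theorem cent {g : G} (hg : Act D v g 1) {d : G} (hd : d ∈ D) : Commute g d :=
  cj_eq_self_iff.mp (h.cj_eq hg hd hd (l := 1) (by simp))

theorem ncard_vec [Finite G] (P : (Fin n → F4) → Prop)
    (hP : ∀ y, ∀ l : F4, l ≠ 0 → (P (l • y) ↔ P y)) (h0 : P 0) :
    {y | hf y y = 0 ∧ P y}.ncard = 3 * {d | d ∈ D ∧ P (v d)}.ncard + 1 := by
  have e : {y | hf y y = 0 ∧ P y} = insert 0 ((fun q : F4 × G => q.1 • v q.2) ''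
      ({l | l ≠ 0} ×ˢ {d | d ∈ D ∧ P (v d)})) := by
    ext y
    constructor
    · rintro ⟨h1, h2⟩
      by_cases k : y = 0
      · exact Or.inl k
      obtain ⟨d, hd, l, hl, rfl⟩ := h.surj y k h1
      exact Or.inr ⟨(l, d), ⟨hl, hd, (hP _ l hl).mp h2⟩, rfl⟩
    · rintro (rfl | ⟨⟨l, d⟩, ⟨hl, hd, k⟩, rfl⟩)
      · exact ⟨by simp, h0⟩
      · exact ⟨by simp [h.iso hd], (hP _ l hl).mpr k⟩
  rw [e, Set.ncard_insert_of_notMem, Set.InjOn.ncard_image, Set.ncard_prod]
  · congr 2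
    rw [Set.ncard_eq_toFinset_card']; rfl
  · rintro ⟨l, d⟩ ⟨hl, hd, -⟩ ⟨l', d'⟩ ⟨hl', hd', -⟩ k
    obtain rfl : d = d' := h.inj d hd d' hd' (l⁻¹ * l') (by
      rw [← smul_smul, ← show l • v d = l' • v d' from k, smul_smul, inv_mul_cancel₀ hl, one_smul])
    rw [show l = l' from smul_left_injective F4 (h.ne d hd) k]
  · rintro ⟨⟨l, d⟩, ⟨hl, hd, -⟩, k⟩
    exact smul_ne_zero hl (h.ne d hd) k

theorem ncard [Finite G] : 2 * (3 * (D.ncard : ℤ) + 1) = 4 ^ n + (-2) ^ n := by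
  have h1 := h.ncard_vec (fun _ => True) (fun _ _ _ => Iff.rfl) trivial
  have h2 := cnt_zero_add isInvol_fr (q := 2) rfl n
  have h3 := mul_cnt_one isInvol_fr (q := 2) rfl n
  have h4 : cnt fr n 0 = {y : Fin n → F4 | hf y y = 0 ∧ True}.ncard := by
    rw [cnt, Set.ncard_eq_toFinset_card']; congr 1; ext y; simp
  rw [h4, h1] at h2
  simp only [and_true, Set.ofPred_mem_eq] at h2
  zify at h2
  rw [pow_mul] at h2
  rw [mul_sub, ← mul_pow, ← mul_pow] at h3
  norm_num at h2 h3 ⊢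
  linarith

theorem ncard_perp [Finite G] {u b : G} (hu : u ∈ D) (hb : b ∈ D) (hub : ¬ Commute u b) :
    (perp D u).ncard = 4 * (perp D u ∩ perp D b).ncard := by
  have n1 : hf (v u) (v b) ≠ 0 := fun k => hub ((h.pol u hu b hb).mp k)
  have h1 := h.ncard_vec (fun y => hf y (v u) = 0) (fun y l hl => by simp [hl]) (by simp)
  have h2 := h.ncard_vec (fun y => hf y (v u) = 0 ∧ hf y (v b) = 0) (fun y l hl => by simp [hl])
    (by simp)
  have e1 : {d | d ∈ D ∧ hf (v d) (v u) = 0} = insert u (perp D u) := by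
    ext d
    refine ⟨fun k => ?_, ?_⟩
    · rw [Set.mem_insert_iff, mem_perp, Commute.symm_iff, ← h.pol d k.1 u hu]
      exact (eq_or_ne d u).imp_right fun e => ⟨k.1, e, k.2⟩
    · rintro (rfl | k)
      exacts [⟨hu, h.iso hu⟩, ⟨k.1, (h.pol d k.1 u hu).mpr k.2.2.symm⟩]
  have e2 : {d | d ∈ D ∧ hf (v d) (v u) = 0 ∧ hf (v d) (v b) = 0} = perp D u ∩ perp D b := by
    ext d
    refine ⟨fun k => ?_, fun k => ⟨k.1.1, (h.pol d k.1.1 u hu).mpr k.1.2.2.symm,
      (h.pol d k.1.1 b hb).mpr k.2.2.2.symm⟩⟩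
    have k1 := (h.pol d k.1 u hu).mp k.2.1
    have k2 := (h.pol d k.1 b hb).mp k.2.2
    exact ⟨⟨k.1, fun e => hub (e ▸ k2), k1.symm⟩, k.1, fun e => hub (e ▸ k1.symm), k2.symm⟩
  have e3 : {y | hf y y = 0 ∧ hf y (v u) = 0} = (fun q : F4 × (Fin n → F4) => q.2 + q.1 • v u) ''
      (Set.univ ×ˢ {y | hf y y = 0 ∧ hf y (v u) = 0 ∧ hf y (v b) = 0}) := by
    ext y
    constructor
    · rintro ⟨k1, k2⟩
      refine ⟨(hf y (v b) / hf (v u) (v b), y - (hf y (v b) / hf (v u) (v b)) • v u),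
        ⟨trivial, ?_, ?_, ?_⟩, by simp⟩
      · simp [k1, k2, hf_comm.mp k2, h.iso hu]
      · simp [k2, h.iso hu]
      · simp [n1]
    · rintro ⟨⟨c, y⟩, ⟨-, k1, k2, -⟩, rfl⟩
      exact ⟨by simp [k1, k2, hf_comm.mp k2, h.iso hu], by simp [k2, h.iso hu]⟩
  rw [e3, Set.InjOn.ncard_image, Set.ncard_prod, h2, e1, e2, Set.ncard_insert_of_notMem
    (fun k => k.2.1 rfl), Set.ncard_univ, Nat.card_eq_fintype_card, F4.card_eq] at h1
  · omega
  · rintro ⟨c, y⟩ ⟨-, -, -, k1⟩ ⟨c', y'⟩ ⟨-, -, -, k2⟩ k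
    have := congrArg (fun t => hf t (v b)) k
    simp only [map_add, map_smul, LinearMap.add_apply, LinearMap.smul_apply, smul_eq_mul] at this
    rw [show hf y (v b) = 0 from k1, show hf y' (v b) = 0 from k2, zero_add, zero_add,
      mul_left_inj' n1] at this
    obtain rfl : c = c' := this
    rw [add_right_cancel (show y + c • v u = y' + c • v u from k)]

end UMod

theorem UMod.sub {v : G → Fin (n + 2) → F4} (h : UMod D v) {u b : G} (hu : u ∈ D) (hb : b ∈ D)
    (hub : ¬ Commute u b) : ∃ v' : G → Fin n → F4, UMod (perp D u ∩ perp D b) v' := by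
  classical
  have n1 : hf (v u) (v b) ≠ 0 := fun k => hub ((h.pol u hu b hb).mp k)
  obtain ⟨f, f1, f2, f3⟩ : ∃ f, hf (v u) f = 1 ∧ hf f f = 0 ∧ ∀ y, hf y f = 0 ↔ hf y (v b) = 0 :=
    ⟨hf (v u) (v b) • v b, by simp [mul_comm, mul_fr n1], by simp [h.iso hb], fun y => by
      simp [n1]⟩
  have f4 : hf f (v u) = 1 := by rw [hf_swap, f1, map_one]
  let β : Fin 2 → Fin (n + 2) → F4 := ![v u + F4.w • f, v u + F4.v • f]
  have hβ : Lib.GL.Herm.IsON hf β := by
    simp only [Lib.GL.Herm.IsON, Fin.forall_fin_two, β]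
    simp [f1, f2, f4, h.iso hu]
    decide
  have mem : ∀ y, y ∈ LinearMap.ker (coord hf β) ↔ hf y (v u) = 0 ∧ hf y (v b) = 0 := fun y => by
    rw [mem_ker_coord, ← f3]
    simp only [Fin.forall_fin_two, β, cons_val_zero, cons_val_one, map_add, map_smulₛₗ, smul_eq_mul]
    generalize hf y (v u) = p
    generalize hf y f = q
    revert p q; decide
  obtain ⟨e, he⟩ := (hβ.isHerm_restrict (isHerm_stdHerm isInvol_fr _)).exists_equiv isInvol_fr
    (ι := Fin n) (by
      have := hβ.finrank_ker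
      rw [finrank_fin_fun, Nat.add_right_cancel_iff] at this
      rw [Fintype.card_fin, this])
  have mz : ∀ d ∈ D, d ∈ perp D u ∩ perp D b ↔ v d ∈ LinearMap.ker (coord hf β) := fun d hd => by
    rw [mem, h.pol d hd u hu, h.pol d hd b hb]
    exact ⟨fun k => ⟨k.1.2.2.symm, k.2.2.2.symm⟩, fun k => ⟨⟨hd, fun e => hub (e ▸ k.2), k.1.symm⟩,
      hd, fun e => hub (e ▸ k.1.symm), k.2.symm⟩⟩
  let v' : G → Fin n → F4 := fun d => if k : v d ∈ LinearMap.ker (coord hf β) then e ⟨v d, k⟩ else 0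
  have hv : ∀ d (hd : d ∈ perp D u ∩ perp D b), v' d = e ⟨v d, (mz d hd.1.1).mp hd⟩ :=
    fun d hd => dif_pos _
  have hT : TS (perp D u ∩ perp D b) := perp_perp D u b ▸ (h.ts.perp u).perp b
  have he' : ∀ p q, hf (e p) (e q) = hf p.1 q.1 := fun p q => (he p q).symm
  refine ⟨v', hT, fun d hd => ?_, fun d hd d' hd' => ?_, fun y y0 y1 => ?_, fun d hd d' hd' => ?_,
    fun d hd d' hd' l k => ?_⟩
  · rw [hv d hd, ne_eq, map_eq_zero_iff _ e.injective, Subtype.ext_iff]
    exact h.ne d hd.1.1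
  · rw [hv d hd, hv d' hd', he', h.pol d hd.1.1 d' hd'.1.1]
  · obtain ⟨y, rfl⟩ := e.surjective y
    obtain ⟨d, hd, l, hl, k⟩ := h.surj y.1 
      (fun k => y0 (by rw [show y = 0 from Subtype.ext k, map_zero]))
      (he' y y ▸ y1)
    have hd' := (mz d hd).mpr ((Submodule.smul_mem_iff _ hl).mp (k ▸ y.2))
    exact ⟨d, hd', l, hl, by rw [hv d hd', ← map_smul]; exact congrArg e (Subtype.ext k)⟩
  · obtain ⟨l, hl, k⟩ := h.eqv d hd.1.1 d' hd'.1.1
    refine ⟨l, hl, ?_⟩
    rw [hv d hd, hv d' hd', hv _ (hT.cjm d hd d' hd'), he', ← map_smul, ← map_smul, ← map_add]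
    exact congrArg e (Subtype.ext k)
  · rw [hv d hd, hv d' hd', ← map_smul] at k
    exact h.inj d hd.1.1 d' hd'.1.1 l (congrArg Subtype.val (e.injective k))

theorem UMod.ord_eq (h : UMod D v) (hn : 4 ≤ n) : ord D = (center (SU n F4 2)).index := by
  let S : Set (G × SU n F4 2) := (fun d => (d, uT (v d))) '' D
  have hS : ∀ q ∈ closure S, Act D v q.1 (mt q.2) := fun q hq => by
    refine closure_induction_left (p := fun q _ => Act D v q.1 (mt q.2)) Act.one ?_ ?_ hq
    all_goals rintro _ ⟨d, hd, rfl⟩ q _ ih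
    · exact (mt_uT (h.iso hd) ▸ h.act hd).mul ih
    · rw [show (d, uT (v d))⁻¹ = (d, uT (v d)) from inv_eq_of_mul_eq_one_right
        (Prod.ext (h.ts.sq hd) (uT_mul_self (h.iso hd)))]
      exact (mt_uT (h.iso hd) ▸ h.act hd).mul ih
  have hgen : closure (Prod.snd '' S) = ⊤ := by
    rw [eq_top_iff, ← closure_uT hn]
    refine closure_mono ?_
    rintro _ ⟨y, k1, k2, rfl⟩
    obtain ⟨d, hd, l, hl, rfl⟩ := h.surj y k1 k2
    exact ⟨_, ⟨d, hd, rfl⟩, (uT_smul (h.iso hd) hl).symm⟩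
  have e1 : (closure S).map (MonoidHom.fst _ _) = closure D := by
    rw [MonoidHom.map_closure, Set.image_image]; simp
  have e2 : (closure S).map (MonoidHom.snd _ _) = ⊤ := by
    rw [MonoidHom.map_closure]; exact hgen
  rw [ord, ← e1, ← relIndex_comap, ← relIndex_top_right, ← e2, ← relIndex_comap, relIndex,
    relIndex]
  congr 1
  ext q
  simp only [mem_subgroupOf, mem_comap, MonoidHom.coe_fst, MonoidHom.coe_snd]
  have hq := hS _ q.2
  constructor
  · intro k
    rw [mem_center_iff]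
    intro B
    have : closure (Prod.snd '' S) ≤ centralizer {q.1.2} := by
      rw [closure_le]
      rintro _ ⟨_, ⟨d, hd, rfl⟩, rfl⟩
      obtain ⟨-, l, hl, k1⟩ := hq d hd
      refine mem_centralizer_singleton_iff.mpr ?_
      rw [mul_uT _ (h.iso hd), k1, cj_of_commute (k d hd).symm, uT_smul (h.iso hd) hl]
    exact mem_centralizer_singleton_iff.mp (this (hgen ▸ mem_top B))
  · intro k d hd
    obtain ⟨k1, l, hl, k2⟩ := hq d hd
    have k3 := mul_uT q.1.2 (h.iso hd)
    rw [← mem_center_iff.mp k, mul_left_inj, k2, uT_smul (h.iso k1) hl] at k3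
    obtain ⟨y, hy⟩ : ∃ y, hf y (v d) ≠ 0 := by
      by_contra k4
      push Not at k4
      exact h.ne d hd (hf_nondeg k4)
    have k4 := uT_mulVec (h.iso hd) y
    rw [k3, uT_mulVec (h.iso k1), add_right_inj] at k4
    refine (cj_eq_self_iff.mp (h.inj d hd _ k1 ((hf y (v d))⁻¹ * hf y (v (cj q.1.1 d))) ?_).symm).symm
    rw [← smul_smul, k4, smul_smul, inv_mul_cancel₀ hy, one_smul]

end

theorem mem_center_SU (hn : 3 ≤ n) {A : SU n F4 2} (hA : A ∈ center (SU n F4 2)) :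
    ∃ c : F4, mt A = c • (1 : Matrix (Fin n) (Fin n) F4) := by
  have key : ∀ i j : Fin n, i ≠ j → ∀ c : F4, c ≠ 0 → ∃ l : F4, ∀ k, mt A k i + mt A k j * c =
      l * (Pi.single i 1 + Pi.single j c : Fin n → F4) k := fun i j hij c hc => by
    have h0 : hf (Pi.single i 1 + Pi.single j c) (Pi.single i 1 + Pi.single j c) = 0 := by
      rw [LinearMap.map_add₂, hf_single, hf_single]
      simp [hij, hij.symm, mul_fr hc, CharTwo.add_self_eq_zero]
    have k3 := mul_uT A h0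
    rw [← mem_center_iff.mp hA, mul_left_inj] at k3
    have k4 := uT_mulVec h0 (Pi.single i 1)
    rw [k3, uT_mulVec (by rw [isom_mt, h0]), add_right_inj, hf_single, hf_single] at k4
    simp only [Pi.add_apply, Pi.single_eq_same, Pi.single_eq_of_ne hij, add_zero, map_one, one_mul,
      one_smul] at k4
    have k5 : fr ((mt A *ᵥ Pi.single i 1) i + (mt A *ᵥ Pi.single j c) i) ≠ 0 := fun e => by
      rw [mulVec_add, Pi.add_apply, e, zero_smul] at k4
      simpa [hij] using congrFun k4 i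
    refine ⟨_⁻¹, fun k => (eq_inv_mul_iff_mul_eq₀ k5).mpr ?_⟩
    simpa [mulVec_add, mul_comm] using congrFun k4 k
  have off : ∀ k i, k ≠ i → mt A k i = 0 := fun k i hki => by
    obtain ⟨j, h1, h2⟩ : ∃ j, j ≠ k ∧ j ≠ i := by
      by_contra t
      push Not at t
      have : (Finset.univ : Finset (Fin n)) ⊆ {k, i} := fun j _ => by
        by_cases e : j = k
        · simp [e]
        · simp [t j e]
      have := (Finset.card_le_card this).trans Finset.card_le_two
      simp at this; omega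
    obtain ⟨l, e1⟩ := key i j h2.symm 1 one_ne_zero
    obtain ⟨l', e2⟩ := key i j h2.symm F4.w (by decide)
    have e1 := e1 k
    have e2 := e2 k
    simp only [Pi.add_apply, Pi.single_eq_of_ne hki, Pi.single_eq_of_ne h1.symm, add_zero,
      mul_zero] at e1 e2
    revert e1 e2
    generalize mt A k i = p
    generalize mt A k j = q
    revert p q; decide
  refine ⟨mt A ⟨0, by omega⟩ ⟨0, by omega⟩, Matrix.ext fun k i => ?_⟩
  by_cases e : k = i
  · subst e
    by_cases e' : k = ⟨0, by omega⟩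
    · simp [e']
    obtain ⟨l, e1⟩ := key k _ e' 1 one_ne_zero
    have a1 := e1 k
    have a2 := e1 ⟨0, by omega⟩
    simp only [off _ _ e', off _ _ (Ne.symm e'), Pi.add_apply, Pi.single_eq_same,
      Pi.single_eq_of_ne e', Pi.single_eq_of_ne (Ne.symm e')] at a1 a2
    simp only [zero_mul, add_zero, mul_one, zero_add] at a1 a2
    simp [a1, a2]
  · simp [off k i e, e]

theorem index_center_four : (center (SU 4 F4 2)).index = 25920 := by
  have : center (SU 4 F4 2) = ⊥ := by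
    rw [eq_bot_iff]
    intro A hA
    obtain ⟨c, hc⟩ := mem_center_SU (by norm_num) hA
    have := det_mt A
    rw [hc, det_smul, det_one] at this
    have k : ∀ c : F4, c ^ Fintype.card (Fin 4) * 1 = 1 → c = 1 := by decide
    rw [k c this, one_smul] at hc
    exact mt_inj hc
  have h1 := card_SU_F4 4 (by norm_num)
  have h2 := card_GU (K := F4) (q := 2) rfl 4
  have h3 : guOrder 2 4 = 77760 := by decide +kernel
  rw [this, index_bot]
  omega

theorem index_center_six : (center (SU 6 F4 2)).index = 9196830720 := by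
  obtain ⟨z, hz⟩ := exists_su (M := F4.w • (1 : Matrix (Fin 6) (Fin 6) F4))
    (by rw [Matrix.det_smul, Matrix.det_one]; decide) (by decide +kernel)
  have : center (SU 6 F4 2) = zpowers z := by
    refine le_antisymm (fun A hA => ?_) (scalar_central (suRep_injective _ _ _) hz)
    obtain ⟨c, hc⟩ := mem_center_SU (by norm_num) hA
    have := det_mt A
    rw [hc, det_smul, det_one] at this
    have k : ∀ c : F4, c ^ Fintype.card (Fin 6) * 1 = 1 → ∃ i : Fin 3, c = F4.w ^ i.1 := by decide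
    obtain ⟨i, rfl⟩ := k c this
    refine mem_zpowers_iff.mpr ⟨i.1, suRep_injective _ _ _ ?_⟩
    rw [zpow_natCast, map_pow, hz, smul_pow, one_pow]
    exact hc.symm
  have h0 := (center (SU 6 F4 2)).card_mul_index
  have h1 := card_SU_F4 6 (by norm_num)
  have h2 := card_GU (K := F4) (q := 2) rfl 6
  have h3 : guOrder 2 6 = 82771476480 := by decide +kernel
  rw [this, card_scalar (suRep_injective _ _ _) hz, ← this] at h0
  omega

end Cfsg.Agent.Fis
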